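/-
helper39: CALL S5961 piece ATOMC.
-/
import Mathlib
import Cfsg.Agent.Helper13.TIDefs2

set_option autoImplicit false

namespace Cfsg.Agent.Helper39.TI5961

open Module Polynomial
open Cfsg.Agent.Helper42.SpForm Cfsg.Agent.Helper42.SpGroup Cfsg.Agent.Helper42.SpModels
open Cfsg.Agent.Helper13.TIsp Cfsg.Agent.Helper90.BG
open Cfsg.Agent.Helper11.TI5955 Cfsg.Agent.Helper58.TI5955 Cfsg.Agent.Helper59.TI5955
open Cfsg.Agent.Helper51.TI5955 Cfsg.Agent.Helper70.TI5955

section geom

variable {F : Type*} [Field F] {V : Type*} [AddCommGroup V] [Module F V] [FiniteDimensional F V]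
  (B : LinearMap.BilinForm F V)

/-- ATOMC: a nonzero nondegenerate subspace of an alternating space contains a hyperbolic plane. -/
theorem atom_c (halt : ∀ v, B v v = 0) (N : Submodule F V) (hN : NondegOn B N) (hN0 : N ≠ ⊥) :
    ∃ E : Submodule F V, E ≤ N ∧ NondegOn B E ∧ finrank F E = 2 := by
  obtain ⟨v, hvN, hv0⟩ := Submodule.exists_mem_ne_zero_of_ne_bot hN0
  have hex : ∃ w ∈ N, B v w ≠ 0 := by
    by_contra hcon
    push Not at hcon
    exact hv0 (hN v hvN hcon)
  obtain ⟨w, hwN, hvw⟩ := hex
  have hskew : ∀ x y : V, B x y = - B y x := by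
    intro x y
    have h := halt (x + y)
    simp only [map_add, LinearMap.add_apply, halt, zero_add, add_zero] at h
    exact eq_neg_of_add_eq_zero_right h
  have hmem : ∀ x ∈ Submodule.span F ({v, w} : Set V), ∃ a b : F, x = a • v + b • w := by
    intro x hx
    rw [Submodule.mem_span_pair] at hx
    obtain ⟨a, b, rfl⟩ := hx
    exact ⟨a, b, rfl⟩
  have hvE : v ∈ Submodule.span F ({v, w} : Set V) := Submodule.subset_span (by simp)
  have hwE : w ∈ Submodule.span F ({v, w} : Set V) := Submodule.subset_span (by simp)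
  have hzero : ∀ a b : F, (∀ y ∈ Submodule.span F ({v, w} : Set V), B (a • v + b • w) y = 0) →
      a = 0 ∧ b = 0 := by
    intro a b h
    have h1 := h w hwE
    have h2 := h v hvE
    simp only [map_add, LinearMap.add_apply, map_smul, LinearMap.smul_apply, halt, smul_eq_mul,
      mul_zero, add_zero, zero_add] at h1 h2
    rw [hskew w v] at h2
    constructor
    · exact (mul_eq_zero.mp h1).resolve_right hvw
    · exact (mul_eq_zero.mp h2).resolve_right (neg_ne_zero.mpr hvw)
  refine ⟨Submodule.span F ({v, w} : Set V), ?_, ?_, ?_⟩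
  · rw [Submodule.span_le]
    intro x hx
    rcases hx with rfl | rfl
    · exact hvN
    · exact hwN
  · intro x hx hxy
    obtain ⟨a, b, rfl⟩ := hmem x hx
    obtain ⟨ha, hb⟩ := hzero a b hxy
    rw [ha, hb, zero_smul, zero_smul, add_zero]
  · have hli : LinearIndependent F ![v, w] := by
      rw [LinearIndependent.pair_iff]
      intro a b hab
      apply hzero a b
      intro y _
      rw [hab, map_zero, LinearMap.zero_apply]
    have h := finrank_span_eq_card hli
    rw [Fintype.card_fin] at h
    have hr : Set.range ![v, w] = ({v, w} : Set V) := by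
      simp [Matrix.range_cons, Matrix.range_empty, Set.pair_comm]
    rw [hr] at h
    exact h

end geom

end Cfsg.Agent.Helper39.TI5961
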