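/-
helper39: CALL S5961 piece ANN.
-/
import Mathlib
import Cfsg.Agent.Helper13.TIDefs2

set_option autoImplicit false

namespace Cfsg.Agent.Helper39.TI5961

open Module Polynomial
open Cfsg.Agent.Helper42.SpForm Cfsg.Agent.Helper42.SpGroup Cfsg.Agent.Helper42.SpModels
open Cfsg.Agent.Helper13.TIsp Cfsg.Agent.Helper90.BG
open Cfsg.Agent.Helper11.TI5955 Cfsg.Agent.Helper58.TI5955 Cfsg.Agent.Helper59.TI5955
open Cfsg.Agent.Helper51.TI5955 Cfsg.Agent.Helper70.TI5955

section geom

variable {F : Type*} [Field F] {V : Type*} [AddCommGroup V] [Module F V] [FiniteDimensional F V]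
  (B : LinearMap.BilinForm F V)

/-- `aeval` of a restricted endomorphism. -/
theorem tj_aeval_restrict (T : Module.End F V) (U₁ : Submodule F V) (h : ∀ x ∈ U₁, T x ∈ U₁)
    (p : F[X]) (u : U₁) : ((aeval (T.restrict h) p u : U₁) : V) = aeval T p (u : V) := by
  induction p using Polynomial.induction_on' with
  | add p q hp hq =>
    rw [map_add, map_add, LinearMap.add_apply, LinearMap.add_apply, Submodule.coe_add, hp, hq]
  | monomial n a =>
    rw [Polynomial.aeval_monomial, Polynomial.aeval_monomial, Module.End.mul_apply,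
      Module.End.mul_apply, Module.algebraMap_end_apply, Module.algebraMap_end_apply,
      Submodule.coe_smul, Module.End.pow_restrict n h, LinearMap.restrict_apply]

/-- ANN: Cayley–Hamilton on an invariant subspace. -/
theorem ann_poly (T : Module.End F V) (U₁ : Submodule F V) (hU₁ : U₁.map T ≤ U₁) :
    ∃ g : F[X], g.Monic ∧ g.natDegree = finrank F U₁ ∧ ∀ u ∈ U₁, aeval T g u = 0 := by
  have h : ∀ x ∈ U₁, T x ∈ U₁ := fun x hx => hU₁ (Submodule.mem_map_of_mem hx)
  refine ⟨(T.restrict h).charpoly, LinearMap.charpoly_monic _, LinearMap.charpoly_natDegree _, ?_⟩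
  intro u hu
  have h1 := tj_aeval_restrict T U₁ h (T.restrict h).charpoly ⟨u, hu⟩
  rw [LinearMap.aeval_self_charpoly, LinearMap.zero_apply] at h1
  exact h1.symm

end geom

end Cfsg.Agent.Helper39.TI5961
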