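/-
helper39: CALL S5961 piece CYCDIM.
-/
import Mathlib
import Cfsg.Agent.Helper13.TIDefs2

set_option autoImplicit false

namespace Cfsg.Agent.Helper39.TI5961

open Module Polynomial
open Cfsg.Agent.Helper42.SpForm Cfsg.Agent.Helper42.SpGroup Cfsg.Agent.Helper42.SpModels
open Cfsg.Agent.Helper13.TIsp Cfsg.Agent.Helper90.BG
open Cfsg.Agent.Helper11.TI5955 Cfsg.Agent.Helper58.TI5955 Cfsg.Agent.Helper59.TI5955
open Cfsg.Agent.Helper51.TI5955 Cfsg.Agent.Helper70.TI5955

section geom

variable {F : Type*} [Field F] {V : Type*} [AddCommGroup V] [Module F V] [FiniteDimensional F V]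
  (B : LinearMap.BilinForm F V)

/-- CYCDIM: the cyclic subspace of a vector killed by `g(T)` has dimension at most `deg g`. -/
theorem cyc_dim_le (T : Module.End F V) (g : F[X]) (hg : g.Monic) (v : V)
    (hv : aeval T g v = 0) :
    finrank F (Submodule.span F (Set.range fun j : ℕ => (T ^ j) v)) ≤ g.natDegree := by
  classical
  -- the span of the first `deg g` iterates contains all iterates
  set W : Submodule F V :=
    Submodule.span F ((Finset.range g.natDegree).image (fun j : ℕ => (T ^ j) v) : Set V) with hW
  have hle : Submodule.span F (Set.range fun j : ℕ => (T ^ j) v) ≤ W := by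
    rw [Submodule.span_le]
    rintro _ ⟨j, rfl⟩
    -- `X ^ j = g * q + r`, `deg r < deg g`
    show (T ^ j) v ∈ W
    have hmod : (X ^ j : F[X]) = (X ^ j : F[X]) %ₘ g + ((X ^ j : F[X]) /ₘ g) * g := by
      rw [mul_comm]
      exact (Polynomial.modByMonic_add_div (X ^ j : F[X]) g).symm
    have hdeg : ((X ^ j : F[X]) %ₘ g).natDegree < g.natDegree ∨ g.natDegree = 0 := by
      by_cases h0 : g.natDegree = 0
      · exact Or.inr h0
      · left
        have h1 : g ≠ 1 := by
          rintro rfl
          exact h0 natDegree_one
        exact Polynomial.natDegree_modByMonic_lt _ hg h1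
    have h2 : (T ^ j) v = aeval T ((X ^ j : F[X]) %ₘ g) v := by
      have h3 : aeval T (X ^ j : F[X]) v
          = aeval T ((X ^ j : F[X]) %ₘ g + ((X ^ j : F[X]) /ₘ g) * g) v := by
        rw [← hmod]
      rw [map_pow, aeval_X, map_add, map_mul, LinearMap.add_apply, Module.End.mul_apply, hv,
        map_zero, add_zero] at h3
      exact h3
    rw [h2, Polynomial.aeval_eq_sum_range, LinearMap.sum_apply]
    apply Submodule.sum_mem
    intro m hm
    rw [LinearMap.smul_apply]
    apply Submodule.smul_mem
    rcases hdeg with hd | hd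
    · apply Submodule.subset_span
      rw [Finset.coe_image]
      refine ⟨m, ?_, rfl⟩
      rw [Finset.coe_range, Set.mem_Iio]
      have := Finset.mem_range.mp hm
      omega
    · -- `g = 1`, so `v = 0`
      have hg1 : g = 1 := by
        exact Polynomial.eq_one_of_monic_natDegree_zero hg hd
      rw [hg1, map_one, Module.End.one_apply] at hv
      rw [hv, map_zero]
      exact Submodule.zero_mem _
  calc finrank F (Submodule.span F (Set.range fun j : ℕ => (T ^ j) v))
      ≤ finrank F W := Submodule.finrank_mono hle
    _ ≤ ((Finset.range g.natDegree).image (fun j : ℕ => (T ^ j) v)).card :=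
        finrank_span_finset_le_card _
    _ ≤ (Finset.range g.natDegree).card := Finset.card_image_le
    _ = g.natDegree := Finset.card_range _

end geom

end Cfsg.Agent.Helper39.TI5961
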