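/-
helper39: CALL S5961 piece POLAR.
-/
import Mathlib
import Cfsg.Agent.Helper13.TIDefs2

set_option autoImplicit false

namespace Cfsg.Agent.Helper39.TI5961

open Module Polynomial
open Cfsg.Agent.Helper42.SpForm Cfsg.Agent.Helper42.SpGroup Cfsg.Agent.Helper42.SpModels
open Cfsg.Agent.Helper13.TIsp Cfsg.Agent.Helper90.BG
open Cfsg.Agent.Helper11.TI5955 Cfsg.Agent.Helper58.TI5955 Cfsg.Agent.Helper59.TI5955
open Cfsg.Agent.Helper51.TI5955 Cfsg.Agent.Helper70.TI5955

section geom

variable {F : Type*} [Field F] {V : Type*} [AddCommGroup V] [Module F V] [FiniteDimensional F V]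
  (B : LinearMap.BilinForm F V)

/-- POLAR: polarisation. -/
theorem polar_fixed (halt : ∀ v, B v v = 0) (T : Module.End F V) (hT : Preserves B T) (r : ℕ)
    (hr : Odd r) (hTr : T ^ r = 1) (E : Submodule F V) (hE : E.map T ≤ E) (hEnd : NondegOn B E)
    (h : ∀ v ∈ E, B v (T v) = 0) : E ≤ LinearMap.ker (T - 1) := by
  obtain ⟨k, rfl⟩ := hr
  have hTE : ∀ x ∈ E, T x ∈ E := fun x hx => hE (Submodule.mem_map_of_mem hx)
  have hpow_mem : ∀ n : ℕ, ∀ x ∈ E, (T ^ n) x ∈ E :=
    fun n x hx => Module.End.pow_apply_mem_of_forall_mem n hTE x hx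
  have hpres : ∀ (n : ℕ) (x y : V), B ((T ^ n) x) ((T ^ n) y) = B x y := by
    intro n
    induction n with
    | zero => intro x y; simp
    | succ n ih =>
      intro x y
      rw [pow_succ, Module.End.mul_apply, Module.End.mul_apply, ih]
      exact hT x y
  have halt2 : ∀ x y : V, B x y = -B y x := by
    intro x y
    have h1 := halt (x + y)
    simp only [map_add, LinearMap.add_apply] at h1
    rw [halt x, halt y] at h1
    linear_combination h1
  -- `T w = T ^ (2 * k) w` on `E`
  have h2 : ∀ w ∈ E, T w = (T ^ (2 * k)) w := by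
    intro w hw
    have hx : T w - (T ^ (2 * k)) w ∈ E := E.sub_mem (hTE w hw) (hpow_mem _ w hw)
    have h3 := hEnd _ hx (fun v hv => by
      have h4 := h (v + w) (E.add_mem hv hw)
      simp only [map_add, LinearMap.add_apply] at h4
      rw [h v hv, h w hw] at h4
      have h5 : B w (T v) = B ((T ^ (2 * k)) w) v := by
        rw [← hpres (2 * k) w (T v), ← Module.End.mul_apply (T ^ (2 * k)) T v, ← pow_succ, hTr,
          Module.End.one_apply]
      rw [h5, halt2 ((T ^ (2 * k)) w) v] at h4
      rw [halt2, map_sub]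
      linear_combination -h4)
    exact sub_eq_zero.mp h3
  have h3 : ∀ w ∈ E, T (T w) = w := by
    intro w hw
    rw [h2 w hw, ← Module.End.mul_apply, ← pow_succ', hTr, Module.End.one_apply]
  have h4 : ∀ j : ℕ, ∀ w ∈ E, (T ^ (2 * j)) w = w := by
    intro j
    induction j with
    | zero => intro w _; simp
    | succ j ih =>
      intro w hw
      rw [show 2 * (j + 1) = 2 * j + 1 + 1 by ring, pow_succ, pow_succ, Module.End.mul_apply,
        Module.End.mul_apply, h3 w hw, ih w hw]
  intro w hw
  rw [LinearMap.mem_ker, LinearMap.sub_apply, Module.End.one_apply, h2 w hw, h4 k w hw, sub_self]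

end geom

end Cfsg.Agent.Helper39.TI5961
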