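/-
helper39: CALL S5961 piece FIN1.
-/
import Mathlib
import Cfsg.Agent.Helper13.TIDefs2

set_option autoImplicit false

namespace Cfsg.Agent.Helper39.TI5961

open Module Polynomial
open Cfsg.Agent.Helper42.SpForm Cfsg.Agent.Helper42.SpGroup Cfsg.Agent.Helper42.SpModels
open Cfsg.Agent.Helper13.TIsp Cfsg.Agent.Helper90.BG
open Cfsg.Agent.Helper11.TI5955 Cfsg.Agent.Helper58.TI5955 Cfsg.Agent.Helper59.TI5955
open Cfsg.Agent.Helper51.TI5955 Cfsg.Agent.Helper70.TI5955

section geom

variable {F : Type*} [Field F] {V : Type*} [AddCommGroup V] [Module F V] [FiniteDimensional F V]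
  (B : LinearMap.BilinForm F V)

/-- FIN1: the members of an orthogonal decomposition of a nondegenerate space are nondegenerate. -/
theorem dec_nondeg (hnd : ∀ v, (∀ w, B v w = 0) → v = 0) {t : ℕ} (D : Fin t → Submodule F V)
    (hsup : iSup D = ⊤) (horth : ∀ j j', j ≠ j' → ∀ u ∈ D j, ∀ v ∈ D j', B u v = 0) (j : Fin t) :
    NondegOn B (D j) := by
  intro v hv hvw
  apply hnd v
  intro w
  have hw : w ∈ iSup D := by rw [hsup]; exact Submodule.mem_top
  induction hw using Submodule.iSup_induction' with
  | mem i x hx =>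
    by_cases hij : i = j
    · subst hij
      exact hvw x hx
    · exact horth j i (Ne.symm hij) v hv x hx
  | zero => simp
  | add x y _ _ hx hy => rw [map_add, hx, hy, add_zero]

end geom

end Cfsg.Agent.Helper39.TI5961
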