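/-
helper39: CALL S5961 piece FREE (pattern: Helper83/IMFREE).
-/
import Mathlib
import Cfsg.Agent.Helper13.TIDefs2

set_option autoImplicit false

namespace Cfsg.Agent.Helper39.TI5961

open Module Polynomial
open Cfsg.Agent.Helper42.SpForm Cfsg.Agent.Helper42.SpGroup Cfsg.Agent.Helper42.SpModels
open Cfsg.Agent.Helper13.TIsp Cfsg.Agent.Helper90.BG
open Cfsg.Agent.Helper11.TI5955 Cfsg.Agent.Helper58.TI5955 Cfsg.Agent.Helper59.TI5955
open Cfsg.Agent.Helper51.TI5955 Cfsg.Agent.Helper70.TI5955

section sp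

variable {F : Type*} [Field F]

theorem tj_free_reindex {d t a : ℕ} {D : Fin t → Submodule F (Fin d ⊕ Fin d → F)}
    (hD : SpDec d a D) (σ : Equiv.Perm (Fin t)) : SpDec d a (fun i => D (σ i)) := by
  obtain ⟨h1, h2, h3⟩ := hD
  refine ⟨?_, fun j => h2 (σ j), fun j j' hjj' => h3 (σ j) (σ j') (fun h => hjj' (σ.injective h))⟩
  exact
    { two_le := h1.two_le
      pos := h1.pos
      finrank_eq := fun i => h1.finrank_eq (σ i)
      indep := h1.indep.comp σ.injective
      iSup_eq_top := by rw [← h1.iSup_eq_top]; exact Equiv.iSup_comp (g := D) σ }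

theorem tj_free_injective {d t a : ℕ} {D : Fin t → Submodule F (Fin d ⊕ Fin d → F)}
    (hD : SpDec d a D) : Function.Injective D := by
  apply hD.1.indep.injective
  intro i h
  have h1 := hD.1.finrank_eq i
  rw [h, finrank_bot] at h1
  have h2 := hD.1.pos
  omega

/-- FREE (adapt `Cfsg.Agent.Helper83.mdec_factorial_dvd`, file Helper83/IMFREE.lean) -/
theorem sp_fact_dvd [Fintype F] (d a t : ℕ) :
    Nat.factorial t ∣ Nat.card {D : Fin t → Submodule F (Fin d ⊕ Fin d → F) // SpDec d a D} := by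
  letI : MulAction (Equiv.Perm (Fin t))
      {D : Fin t → Submodule F (Fin d ⊕ Fin d → F) // SpDec d a D} :=
    { smul := fun σ D => ⟨fun i => D.1 (σ.symm i), tj_free_reindex D.2 σ.symm⟩
      one_smul := fun D => Subtype.ext rfl
      mul_smul := fun σ τ D => Subtype.ext rfl }
  have hstab : ∀ b : {D : Fin t → Submodule F (Fin d ⊕ Fin d → F) // SpDec d a D},
      MulAction.stabilizer (Equiv.Perm (Fin t)) b = ⊥ := by
    intro b
    rw [Subgroup.eq_bot_iff_forall]
    intro σ hσ
    rw [MulAction.mem_stabilizer_iff] at hσ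
    have h1 : (fun i => b.1 (σ.symm i)) = b.1 := congrArg Subtype.val hσ
    apply Equiv.ext
    intro i
    have h2 : b.1 (σ.symm (σ i)) = b.1 (σ i) := congrFun h1 (σ i)
    rw [Equiv.symm_apply_apply] at h2
    exact (tj_free_injective b.2 h2).symm
  have e := MulAction.selfEquivOrbitsQuotientProd hstab
  rw [Nat.card_congr e, Nat.card_prod, Nat.card_perm, Nat.card_fin]
  exact Dvd.intro_left _ rfl

end sp

end Cfsg.Agent.Helper39.TI5961
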