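/-
helper39: CALL S5961 piece KSUM.
-/
import Mathlib
import Cfsg.Agent.Helper13.TIDefs2

set_option autoImplicit false

namespace Cfsg.Agent.Helper39.TI5961

open Module Polynomial
open Cfsg.Agent.Helper42.SpForm Cfsg.Agent.Helper42.SpGroup Cfsg.Agent.Helper42.SpModels
open Cfsg.Agent.Helper13.TIsp Cfsg.Agent.Helper90.BG
open Cfsg.Agent.Helper11.TI5955 Cfsg.Agent.Helper58.TI5955 Cfsg.Agent.Helper59.TI5955
open Cfsg.Agent.Helper51.TI5955 Cfsg.Agent.Helper70.TI5955

section geom

variable {F : Type*} [Field F] {V : Type*} [AddCommGroup V] [Module F V] [FiniteDimensional F V]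
  (B : LinearMap.BilinForm F V)

/-- Rank of a finite independent supremum. -/
theorem tj_finrank_biSup {ι : Type*} [DecidableEq ι] (D : ι → Submodule F V) (hind : iSupIndep D)
    (s : Finset ι) : finrank F (⨆ j ∈ s, D j : Submodule F V) = ∑ j ∈ s, finrank F (D j) := by
  induction s using Finset.induction_on with
  | empty => simp
  | insert a s ha ih =>
    rw [Finset.iSup_insert, Finset.sum_insert ha, ← ih]
    have hdisj : Disjoint (D a) (⨆ j ∈ s, D j) := by
      refine (hind a).mono_right ?_
      refine iSup₂_le fun j hj => ?_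
      have hja : j ≠ a := fun h => ha (h ▸ hj)
      exact le_iSup₂_of_le j hja le_rfl
    have h1 := Submodule.finrank_sup_add_finrank_inf_eq (D a) (⨆ j ∈ s, D j)
    rw [hdisj.eq_bot, finrank_bot, add_zero] at h1
    exact h1

/-- KSUM: the traces of an independent family on `K` have total dimension at most `dim K`. -/
theorem ker_sum_le {t : ℕ} (D : Fin t → Submodule F V) (hind : iSupIndep D)
    (K : Submodule F V) : ∑ j, finrank F (D j ⊓ K : Submodule F V) ≤ finrank F K := by
  classical
  have hind' : iSupIndep (fun j => D j ⊓ K) := hind.mono (fun j => inf_le_left)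
  rw [← tj_finrank_biSup (fun j => D j ⊓ K) hind' Finset.univ]
  refine Submodule.finrank_mono ?_
  exact iSup₂_le fun j _ => inf_le_right

end geom

end Cfsg.Agent.Helper39.TI5961
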