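import Mathlib
import Cfsg.Agent.Helper71.T4Defs

/-!
# S5637 piece LX3: an additive group of matrices (index type with at least 3 elements) closed
under conjugation by transvections and containing a non-scalar matrix contains all
`single i j c`, `i ≠ j`.
-/

set_option autoImplicit false

namespace Cfsg.Agent.Helper39.T4LX3

open Matrix Cfsg.Agent.Helper71.T4
open scoped Kronecker

variable {F : Type*} [Field F] {a b : ℕ}

/-- `T X T⁻¹ - X` for a transvection `T = 1 + single i j c`. -/
theorem tconj_sub {ι : Type*} [Fintype ι] [DecidableEq ι] (i j : ι) (c : F) (X : Matrix ι ι F) :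
    Matrix.transvection i j c * X * Matrix.transvection i j (-c) - X =
      Matrix.single i j c * X - X * Matrix.single i j c - Matrix.single i j (c * X j i * c) := by
  rw [← Matrix.single_mul_mul_single]
  unfold Matrix.transvection
  rw [← Matrix.single_neg]
  noncomm_ring

theorem tconj_mem {ι : Type*} [Fintype ι] [DecidableEq ι] (X' : AddSubgroup (Matrix ι ι F))
    (hconj : ∀ (i j : ι), i ≠ j → ∀ (c : F) (X : Matrix ι ι F), X ∈ X' →
      Matrix.transvection i j c * X * Matrix.transvection i j (-c) ∈ X')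
    {i j : ι} (hij : i ≠ j) (c : F) {X : Matrix ι ι F} (hX : X ∈ X') :
    Matrix.single i j c * X - X * Matrix.single i j c - Matrix.single i j (c * X j i * c) ∈ X' := by
  rw [← tconj_sub]
  exact X'.sub_mem (hconj i j hij c X hX) hX

theorem row_change {ι : Type*} [Fintype ι] [DecidableEq ι] (X' : AddSubgroup (Matrix ι ι F))
    (hconj : ∀ (i j : ι), i ≠ j → ∀ (c : F) (X : Matrix ι ι F), X ∈ X' →
      Matrix.transvection i j c * X * Matrix.transvection i j (-c) ∈ X')
    {i j k : ι} (hki : k ≠ i) (hkj : k ≠ j) (c₀ c' : F)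
    (h : Matrix.single i j c₀ ∈ X') : Matrix.single k j (c' * c₀) ∈ X' := by
  have h1 := tconj_mem X' hconj hki c' h
  rw [Matrix.single_mul_single_same, Matrix.single_mul_single_of_ne _ _ _ _ hkj.symm,
    Matrix.single_apply_of_col_ne _ _ hkj.symm] at h1
  simpa using h1

theorem col_change {ι : Type*} [Fintype ι] [DecidableEq ι] (X' : AddSubgroup (Matrix ι ι F))
    (hconj : ∀ (i j : ι), i ≠ j → ∀ (c : F) (X : Matrix ι ι F), X ∈ X' →
      Matrix.transvection i j c * X * Matrix.transvection i j (-c) ∈ X')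
    {i j l : ι} (hli : l ≠ i) (hlj : l ≠ j) (c₀ c' : F)
    (h : Matrix.single i j c₀ ∈ X') : Matrix.single i l (c₀ * c') ∈ X' := by
  have h1 := tconj_mem X' hconj hlj.symm c' h
  rw [Matrix.single_mul_single_of_ne _ _ _ _ hli, Matrix.single_mul_single_same,
    Matrix.single_apply_of_row_ne hli.symm] at h1
  have h2 := X'.neg_mem h1
  simpa using h2

theorem third {ι : Type*} [Fintype ι] [DecidableEq ι] (h3 : 3 ≤ Fintype.card ι) (p q : ι) :
    ∃ r : ι, r ≠ p ∧ r ≠ q := by
  by_contra hcon
  push Not at hcon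
  have h1 : (Finset.univ : Finset ι) ⊆ {p, q} := by
    intro r _
    by_cases hr : r = p
    · simp [hr]
    · simp [hcon r hr]
  have h2 := Finset.card_le_card h1
  have h4 : ({p, q} : Finset ι).card ≤ 2 := Finset.card_le_two
  rw [Finset.card_univ] at h2
  omega

theorem all_of_single {ι : Type*} [Fintype ι] [DecidableEq ι] (h3 : 3 ≤ Fintype.card ι)
    (X' : AddSubgroup (Matrix ι ι F))
    (hconj : ∀ (i j : ι), i ≠ j → ∀ (c : F) (X : Matrix ι ι F), X ∈ X' →
      Matrix.transvection i j c * X * Matrix.transvection i j (-c) ∈ X')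
    {i j : ι} (c₀ : F) (hc₀ : c₀ ≠ 0) (h : Matrix.single i j c₀ ∈ X') :
    ∀ (k l : ι), k ≠ l → ∀ c : F, Matrix.single k l c ∈ X' := by
  -- row and column changes with arbitrary scalar
  have R : ∀ {i j k : ι}, k ≠ i → k ≠ j → ∀ c₀ : F, c₀ ≠ 0 → Matrix.single i j c₀ ∈ X' →
      ∀ c : F, Matrix.single k j c ∈ X' := by
    intro i j k hki hkj c₀ hc₀ h c
    have := row_change X' hconj hki hkj c₀ (c / c₀) h
    rwa [div_mul_cancel₀ c hc₀] at this
  have Cl : ∀ {i j l : ι}, l ≠ i → l ≠ j → ∀ c₀ : F, c₀ ≠ 0 → Matrix.single i j c₀ ∈ X' →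
      ∀ c : F, Matrix.single i l c ∈ X' := by
    intro i j l hli hlj c₀ hc₀ h c
    have := col_change X' hconj hli hlj c₀ (c / c₀) h
    rwa [mul_div_cancel₀ c hc₀] at this
  -- all rows in column `j`
  have hcolj : ∀ i' : ι, i' ≠ j → ∀ c : F, Matrix.single i' j c ∈ X' := by
    obtain ⟨k, hki, hkj⟩ := third h3 i j
    have hk := R hki hkj c₀ hc₀ h
    intro i' hi'j
    by_cases hi'k : i' = k
    · rw [hi'k]; exact hk
    · exact R hi'k hi'j 1 one_ne_zero (hk 1)
  intro k l hkl
  by_cases hlj : l = j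
  · rw [hlj]
    exact hcolj k (by rw [← hlj]; exact hkl)
  · by_cases hkj : k = j
    · obtain ⟨i', hi'j, hi'l⟩ := third h3 j l
      have h1 := Cl (Ne.symm hi'l) hlj 1 one_ne_zero (hcolj i' hi'j 1)
      rw [hkj]
      exact R (Ne.symm hi'j) (by rw [← hkj]; exact hkl) 1 one_ne_zero (h1 1)
    · exact Cl (Ne.symm hkl) hlj 1 one_ne_zero (hcolj k hkj 1)

theorem single_mul_eq {ι : Type*} [Fintype ι] [DecidableEq ι] (i j : ι) (X : Matrix ι ι F)
    (h : ∀ q, q ≠ j → X j q = 0) : Matrix.single i j (1 : F) * X = Matrix.single i j (X j j) := by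
  ext p q
  by_cases hp : p = i
  · subst hp
    rw [Matrix.single_mul_apply_same, one_mul]
    by_cases hq : q = j
    · subst hq
      rw [Matrix.single_apply_same]
    · rw [h q hq, Matrix.single_apply_of_col_ne _ _ (Ne.symm hq)]
  · rw [Matrix.single_mul_apply_of_ne _ _ _ _ _ hp, Matrix.single_apply_of_row_ne (Ne.symm hp)]

theorem mul_single_eq {ι : Type*} [Fintype ι] [DecidableEq ι] (i j : ι) (X : Matrix ι ι F)
    (h : ∀ p, p ≠ i → X p i = 0) : X * Matrix.single i j (1 : F) = Matrix.single i j (X i i) := by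
  ext p q
  by_cases hq : q = j
  · subst hq
    rw [Matrix.mul_single_apply_same, mul_one]
    by_cases hp : p = i
    · subst hp
      rw [Matrix.single_apply_same]
    · rw [h p hp, Matrix.single_apply_of_row_ne (Ne.symm hp)]
  · rw [Matrix.mul_single_apply_of_ne _ _ _ _ _ hq, Matrix.single_apply_of_col_ne _ _ (Ne.symm hq)]

theorem exists_single {ι : Type*} [Fintype ι] [DecidableEq ι] (h3 : 3 ≤ Fintype.card ι)
    (X' : AddSubgroup (Matrix ι ι F))
    (hconj : ∀ (i j : ι), i ≠ j → ∀ (c : F) (X : Matrix ι ι F), X ∈ X' →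
      Matrix.transvection i j c * X * Matrix.transvection i j (-c) ∈ X')
    (X : Matrix ι ι F) (hX : X ∈ X') (hns : ¬ ∃ c : F, X = c • (1 : Matrix ι ι F)) :
    ∃ (i j : ι), i ≠ j ∧ ∃ c₀ : F, c₀ ≠ 0 ∧ Matrix.single i j c₀ ∈ X' := by
  by_cases hoff : ∃ i j : ι, i ≠ j ∧ X j i ≠ 0
  · obtain ⟨i, j, hij, hji⟩ := hoff
    obtain ⟨k, hki, hkj⟩ := third h3 i j
    refine ⟨i, j, hij, X j i, hji, ?_⟩
    have hY := tconj_mem X' hconj (Ne.symm hki) 1 hX
    obtain ⟨Y, hYdef⟩ : ∃ Y : Matrix ι ι F, Y = Matrix.single i k 1 * X - X * Matrix.single i k 1 -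
        Matrix.single i k (1 * X k i * 1) := ⟨_, rfl⟩
    rw [← hYdef] at hY
    have hZ := tconj_mem X' hconj hij 1 hY
    have hE1 : ∀ d d' : F, Matrix.single i j d * Matrix.single i k d' = 0 := fun d d' =>
      Matrix.single_mul_single_of_ne _ _ _ _ (Ne.symm hij) _
    have hE2 : ∀ d d' : F, Matrix.single i k d * Matrix.single i j d' = 0 := fun d d' =>
      Matrix.single_mul_single_of_ne _ _ _ _ hki _
    have e1 : Matrix.single i j (1 : F) * Y = -Matrix.single i k (X j i) := by
      rw [hYdef, mul_sub, mul_sub, ← Matrix.mul_assoc, hE1, zero_mul, ← Matrix.mul_assoc,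
        Matrix.single_mul_mul_single, hE1]
      simp
    have e2 : Y * Matrix.single i j (1 : F) = Matrix.single i j (X k i) := by
      rw [hYdef, sub_mul, sub_mul, Matrix.single_mul_mul_single, Matrix.mul_assoc, hE2, mul_zero,
        hE2]
      simp
    have e3 : Y j i = 0 := by
      rw [hYdef]
      simp only [Matrix.sub_apply]
      rw [Matrix.single_mul_apply_of_ne _ _ _ _ _ (Ne.symm hij),
        Matrix.mul_single_apply_of_ne _ _ _ _ _ (Ne.symm hki),
        Matrix.single_apply_of_row_ne hij]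
      simp
    rw [e1, e2, e3] at hZ
    obtain ⟨Z, hZdef⟩ : ∃ Z : Matrix ι ι F, Z = -Matrix.single i k (X j i) -
        Matrix.single i j (X k i) - Matrix.single i j (1 * 0 * 1) := ⟨_, rfl⟩
    rw [← hZdef] at hZ
    have hW := tconj_mem X' hconj hkj 1 hZ
    have hE3 : ∀ (q : ι) (d d' : F), Matrix.single k j d * Matrix.single i q d' = 0 :=
      fun q d d' => Matrix.single_mul_single_of_ne _ _ _ _ (Ne.symm hij) _
    have hE4 : ∀ d d' : F, Matrix.single i j d * Matrix.single k j d' = 0 := fun d d' =>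
      Matrix.single_mul_single_of_ne _ _ _ _ (Ne.symm hkj) _
    have f1 : Matrix.single k j (1 : F) * Z = 0 := by
      rw [hZdef, mul_sub, mul_sub, mul_neg, hE3, hE3, hE3]
      simp
    have f2 : Z * Matrix.single k j (1 : F) = -Matrix.single i j (X j i) := by
      rw [hZdef, sub_mul, sub_mul, neg_mul, Matrix.single_mul_single_same, hE4, hE4]
      simp
    have f3 : Z j k = 0 := by
      rw [hZdef]
      simp only [Matrix.sub_apply, Matrix.neg_apply]
      rw [Matrix.single_apply_of_row_ne hij, Matrix.single_apply_of_row_ne hij,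
        Matrix.single_apply_of_row_ne hij]
      simp
    rw [f1, f2, f3] at hW
    simpa using hW
  · push Not at hoff
    -- `X` is diagonal
    have hdiag : ∃ i j : ι, i ≠ j ∧ X i i ≠ X j j := by
      by_contra hcon
      push Not at hcon
      apply hns
      have hne : Nonempty ι := Fintype.card_pos_iff.mp (by omega)
      obtain ⟨i₀⟩ := hne
      refine ⟨X i₀ i₀, ?_⟩
      ext p q
      by_cases hpq : p = q
      · subst hpq
        by_cases hp : p = i₀
        · subst hp; simp
        · rw [hcon p i₀ hp]; simp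
      · rw [hoff q p (Ne.symm hpq)]
        simp [Matrix.one_apply_ne hpq]
    obtain ⟨i, j, hij, hne⟩ := hdiag
    refine ⟨i, j, hij, X j j - X i i, sub_ne_zero.mpr (Ne.symm hne), ?_⟩
    have h1 := tconj_mem X' hconj hij 1 hX
    rw [single_mul_eq i j X (fun q hq => hoff q j hq),
      mul_single_eq i j X (fun p hp => hoff i p (Ne.symm hp)), hoff i j hij] at h1
    have h2 : Matrix.single i j (X j j) - Matrix.single i j (X i i) -
        Matrix.single i j (1 * (0 : F) * 1) = Matrix.single i j (X j j - X i i) := by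
      ext p q
      simp only [Matrix.sub_apply, Matrix.single_apply]
      split_ifs <;> simp
    rwa [h2] at h1

theorem lx3 {ι : Type*} [Fintype ι] [DecidableEq ι] (h3 : 3 ≤ Fintype.card ι)
    (X' : AddSubgroup (Matrix ι ι F))
    (hconj : ∀ (i j : ι), i ≠ j → ∀ (c : F) (X : Matrix ι ι F), X ∈ X' →
      Matrix.transvection i j c * X * Matrix.transvection i j (-c) ∈ X')
    (X : Matrix ι ι F) (hX : X ∈ X') (hns : ¬ ∃ c : F, X = c • (1 : Matrix ι ι F)) :
    ∀ (i j : ι), i ≠ j → ∀ c : F, Matrix.single i j c ∈ X' := by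
  obtain ⟨i, j, hij, c₀, hc₀, h⟩ := exists_single h3 X' hconj X hX hns
  exact all_of_single h3 X' hconj c₀ hc₀ h

end Cfsg.Agent.Helper39.T4LX3
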