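import Mathlib
import Cfsg.Agent.Helper71.T4Defs
import Cfsg.Agent.Helper39.T4LX3

/-!
# S5637 piece LX2: the `2 × 2` version of LX3 (with scalar closure and a field element `≠ 0, 1`)
-/

set_option autoImplicit false

namespace Cfsg.Agent.Helper39.T4LX2

open Matrix Cfsg.Agent.Helper71.T4 Cfsg.Agent.Helper39.T4LX3
open scoped Kronecker

variable {F : Type*} [Field F] {a b : ℕ}

theorem single_eq_smul {ι : Type*} [DecidableEq ι] (i j : ι) (d : F) :
    Matrix.single i j d = d • Matrix.single i j (1 : F) := by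
  rw [Matrix.smul_single, smul_eq_mul, mul_one]

theorem lx2 (X' : AddSubgroup (Matrix (Fin 2) (Fin 2) F))
    (hconj : ∀ (i j : Fin 2), i ≠ j → ∀ (c : F) (X : Matrix (Fin 2) (Fin 2) F), X ∈ X' →
      Matrix.transvection i j c * X * Matrix.transvection i j (-c) ∈ X')
    (hs : ∀ (c : F) (X : Matrix (Fin 2) (Fin 2) F), X ∈ X' → c • X ∈ X')
    (hl : ∃ l : F, l ≠ 0 ∧ l ≠ 1)
    (X : Matrix (Fin 2) (Fin 2) F) (hX : X ∈ X')
    (hns : ¬ ∃ c : F, X = c • (1 : Matrix (Fin 2) (Fin 2) F)) :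
    ∀ (i j : Fin 2), i ≠ j → ∀ c : F, Matrix.single i j c ∈ X' := by
  obtain ⟨l, hl0, hl1⟩ := hl
  have hl1' : l - 1 ≠ 0 := sub_ne_zero.mpr hl1
  have A : ∀ (i j : Fin 2), i ≠ j → ∀ Y ∈ X', Matrix.single i j (Y j i) ∈ X' := by
    intro i j hij Y hY
    have h1 := tconj_mem X' hconj hij 1 hY
    have h2 := hs l⁻¹ _ (tconj_mem X' hconj hij l hY)
    have h3 := hs (l - 1)⁻¹ _ (X'.sub_mem h1 h2)
    have e : (l - 1)⁻¹ • ((Matrix.single i j 1 * Y - Y * Matrix.single i j 1 -
        Matrix.single i j (1 * Y j i * 1)) -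
        l⁻¹ • (Matrix.single i j l * Y - Y * Matrix.single i j l -
          Matrix.single i j (l * Y j i * l))) = Matrix.single i j (Y j i) := by
      rw [single_eq_smul i j l, single_eq_smul i j (1 * Y j i * 1),
        single_eq_smul i j (l * Y j i * l), single_eq_smul i j (Y j i), Matrix.smul_mul,
        Matrix.mul_smul]
      match_scalars <;> field_simp <;> ring
    rwa [e] at h3
  have B : ∀ (i j : Fin 2), i ≠ j → ∀ Y ∈ X',
      Matrix.single i j 1 * Y - Y * Matrix.single i j 1 ∈ X' := by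
    intro i j hij Y hY
    have h1 := tconj_mem X' hconj hij 1 hY
    have h2 := A i j hij Y hY
    have h3 := X'.add_mem h1 h2
    simpa using h3
  have C : ∀ (i j : Fin 2), i ≠ j → Matrix.single i j (1 : F) ∈ X' →
      Matrix.single j i (1 : F) ∈ X' := by
    intro i j hij h
    have h1 := A j i hij.symm _ h
    rwa [Matrix.single_apply_same] at h1
  have D : ∃ i j : Fin 2, i ≠ j ∧ Matrix.single i j (1 : F) ∈ X' := by
    by_cases hoff : ∃ i j : Fin 2, i ≠ j ∧ X j i ≠ 0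
    · obtain ⟨i, j, hij, hji⟩ := hoff
      refine ⟨i, j, hij, ?_⟩
      have h1 := hs (X j i)⁻¹ _ (A i j hij X hX)
      rwa [Matrix.smul_single, smul_eq_mul, inv_mul_cancel₀ hji] at h1
    · push Not at hoff
      have h01 : X 0 1 = 0 := hoff 1 0 (by decide)
      have h10 : X 1 0 = 0 := hoff 0 1 (by decide)
      have hne : X 1 1 - X 0 0 ≠ 0 := by
        intro heq
        apply hns
        refine ⟨X 0 0, ?_⟩
        have heq' : X 1 1 = X 0 0 := sub_eq_zero.mp heq
        ext p q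
        fin_cases p <;> fin_cases q <;> simp [h01, h10, heq']
      refine ⟨0, 1, by decide, ?_⟩
      have h1 := B 0 1 (by decide) X hX
      rw [single_mul_eq 0 1 X (fun q hq => hoff q 1 hq),
        mul_single_eq 0 1 X (fun p hp => hoff 0 p (Ne.symm hp))] at h1
      have h2 := hs (X 1 1 - X 0 0)⁻¹ _ h1
      have e : (X 1 1 - X 0 0)⁻¹ • (Matrix.single (0 : Fin 2) (1 : Fin 2) (X 1 1) -
          Matrix.single (0 : Fin 2) (1 : Fin 2) (X 0 0)) = Matrix.single 0 1 (1 : F) := by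
        rw [single_eq_smul 0 1 (X 1 1), single_eq_smul 0 1 (X 0 0)]
        match_scalars
        field_simp
      rwa [e] at h2
  obtain ⟨i₀, j₀, hij₀, h₀⟩ := D
  have key : ∀ i j i₀ j₀ : Fin 2, i ≠ j → i₀ ≠ j₀ → (i = i₀ ∧ j = j₀) ∨ (i = j₀ ∧ j = i₀) := by
    decide
  intro i j hij c
  have h1 : Matrix.single i j (1 : F) ∈ X' := by
    rcases key i j i₀ j₀ hij hij₀ with ⟨rfl, rfl⟩ | ⟨rfl, rfl⟩
    · exact h₀
    · exact C _ _ hij₀ h₀
  have h2 := hs c _ h1
  rwa [Matrix.smul_single, smul_eq_mul, mul_one] at h2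

end Cfsg.Agent.Helper39.T4LX2
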