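import Mathlib
import Cfsg.Agent.Helper71.T4Defs

/-!
# S5637 piece SC: a determinant-one matrix scaling the root element `wβᵀ`
-/

set_option autoImplicit false

namespace Cfsg.Agent.Helper39.T4SC

open Matrix Cfsg.Agent.Helper71.T4
open scoped Kronecker

variable {F : Type*} [Field F] {a b : ℕ}

theorem vmv_mul_vmv (u v w x : Fin b → F) :
    vecMulVec u v * vecMulVec w x = (v ⬝ᵥ w) • vecMulVec u x := by
  rw [Matrix.vecMulVec_mul_vecMulVec]
  ext i j
  simp only [Matrix.vecMulVec_apply, Pi.smul_apply, Matrix.smul_apply, smul_eq_mul]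
  ring

theorem sc (hb : 3 ≤ b) (w β : Fin b → F) (hw : w ≠ 0) (hβ : β ≠ 0) (h : β ⬝ᵥ w = 0) (μ : F)
    (hμ : μ ≠ 0) :
    ∃ hh : Matrix (Fin b) (Fin b) F, hh.det = 1 ∧
      hh * vecMulVec w β = μ • (vecMulVec w β * hh) := by
  obtain ⟨γ, hγ⟩ := exists_dot_eq_one w hw
  rw [dotProduct_comm] at hγ
  obtain ⟨v, hv0, hvβ, hvγ⟩ := exists_perp2 hb β γ
  obtain ⟨δ₁, hδ₁⟩ := exists_dot_eq_one v hv0
  rw [dotProduct_comm] at hδ₁
  rw [dotProduct_comm] at hvβ hvγ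
  obtain ⟨δ, hδ⟩ : ∃ δ : Fin b → F, δ = δ₁ - (δ₁ ⬝ᵥ w) • γ := ⟨_, rfl⟩
  have hδw : δ ⬝ᵥ w = 0 := by
    rw [hδ, sub_dotProduct, smul_dotProduct, hγ, smul_eq_mul, mul_one, sub_self]
  have hδv : δ ⬝ᵥ v = 1 := by
    rw [hδ, sub_dotProduct, smul_dotProduct, hvγ, smul_zero, sub_zero, hδ₁]
  refine ⟨(1 + (μ - 1) • vecMulVec w γ) * (1 + (μ⁻¹ - 1) • vecMulVec v δ), ?_, ?_⟩
  · rw [Matrix.det_mul, ← Matrix.smul_vecMulVec, ← Matrix.smul_vecMulVec, det_one_add_vecMulVec,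
      det_one_add_vecMulVec, dotProduct_smul, dotProduct_smul, hγ, hδv]
    simp only [smul_eq_mul, mul_one]
    field_simp
    ring
  · have e1 : (1 + (μ⁻¹ - 1) • vecMulVec v δ) * vecMulVec w β = vecMulVec w β := by
      rw [add_mul, one_mul, smul_mul_assoc, vmv_mul_vmv, hδw, zero_smul,
        smul_zero, add_zero]
    have e2 : (1 + (μ - 1) • vecMulVec w γ) * vecMulVec w β = μ • vecMulVec w β := by
      rw [add_mul, one_mul, smul_mul_assoc, vmv_mul_vmv, hγ, one_smul]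
      nth_rewrite 1 [← one_smul F (vecMulVec w β)]
      rw [← add_smul]
      congr 1
      ring
    have e3 : vecMulVec w β * (1 + (μ - 1) • vecMulVec w γ) = vecMulVec w β := by
      rw [mul_add, mul_one, mul_smul_comm, vmv_mul_vmv, h, zero_smul,
        smul_zero, add_zero]
    have e4 : vecMulVec w β * (1 + (μ⁻¹ - 1) • vecMulVec v δ) = vecMulVec w β := by
      rw [mul_add, mul_one, mul_smul_comm, vmv_mul_vmv, hvβ, zero_smul,
        smul_zero, add_zero]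
    rw [mul_assoc, e1, e2, ← mul_assoc, e3, e4]

end Cfsg.Agent.Helper39.T4SC
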