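import Mathlib
import Cfsg.Agent.Helper71.T4Defs

/-!
# S5637 piece RP: a root element `1 + 1 ⊗ wβᵀ` has order dividing the characteristic
-/

set_option autoImplicit false

namespace Cfsg.Agent.Helper39.T4RP

open Matrix Cfsg.Agent.Helper71.T4
open scoped Kronecker

variable {F : Type*} [Field F] {a b : ℕ}

theorem root_pow (p : ℕ) [CharP F p] (t : GL (Fin a × Fin b) F) (w β : Fin b → F)
    (h : β ⬝ᵥ w = 0)
    (ht : (t : Matrix (Fin a × Fin b) (Fin a × Fin b) F) =
      1 + (1 : Matrix (Fin a) (Fin a) F) ⊗ₖ vecMulVec w β) : t ^ p = 1 := by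
  have hN : ((1 : Matrix (Fin a) (Fin a) F) ⊗ₖ vecMulVec w β) *
      ((1 : Matrix (Fin a) (Fin a) F) ⊗ₖ vecMulVec w β) = 0 := by
    rw [← Matrix.mul_kronecker_mul, vecMulVec_sq w β h, Matrix.kronecker_zero]
  have hk : ∀ k : ℕ, (1 + (1 : Matrix (Fin a) (Fin a) F) ⊗ₖ vecMulVec w β) ^ k =
      1 + (k : F) • ((1 : Matrix (Fin a) (Fin a) F) ⊗ₖ vecMulVec w β) := by
    intro k
    induction k with
    | zero => simp
    | succ k ih =>
      rw [pow_succ, ih, mul_add, mul_one, add_mul, one_mul, smul_mul_assoc, hN, smul_zero,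
        add_zero, Nat.cast_succ, add_smul, one_smul, add_assoc]
  apply Units.ext
  rw [Units.val_pow_eq_pow_val, ht, hk, CharP.cast_eq_zero, zero_smul, add_zero, Units.val_one]

end Cfsg.Agent.Helper39.T4RP
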