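import Mathlib
import Cfsg.Agent.Helper8.S4504Defs
import Cfsg.Agent.Helper15.S4504Shape
import Cfsg.Agent.Helper15.B42Main

/-!
CALL S4504S (helper15, sub-call of S4504 STRUCT), piece MUX (helper39): a character with constant
value `c = ±1` on `⟨x⟩ \ 1` has degree `m p + c` and `ζ 1 - fix = m (p - 1)`, `m ≥ 1`.
-/

universe u
set_option autoImplicit false
open Cfsg Cfsg.Agent.Helper77 Cfsg.Agent.Helper15 Cfsg.Agent.Helper8
open scoped ComplexConjugate

namespace Cfsg.Agent.Helper39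

variable {G : Type u} [Group G] [Finite G]

/-- MUX2: a character with constant value `c = ±1` on `⟨x⟩ \ 1`. -/
theorem s4504s_mux (p : ℕ) [Fact p.Prime] (x : G) (hx : orderOf x = p) (ζ : G → ℂ)
    (hζ : Cfsg.IsCharacter G ζ) (c : ℤ) (hc : c = 1 ∨ c = -1)
    (hval : ∀ b : ℕ, ¬ p ∣ b → ζ (x ^ b) = (c : ℂ)) (hker : ζ x ≠ ζ 1) :
    ∃ m : ℕ, 1 ≤ m ∧ ζ 1 - b42Fix p x ζ = ((m * (p - 1) : ℕ) : ℂ) ∧
      ζ 1 = ((m * p : ℕ) : ℂ) + (c : ℂ) := by
  classical
  have hpp : p.Prime := Fact.out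
  have hp0 : p ≠ 0 := hpp.ne_zero
  have hxp : x ^ p = 1 := by rw [← hx]; exact pow_orderOf_eq_one x
  obtain ⟨n, m₀, hle, h1, h2⟩ := Cfsg.Agent.Helper72.b42c_nat p hp0 x hxp ζ hζ
  obtain ⟨q, hq⟩ : ∃ q, p = q + 1 := ⟨p - 1, by have := hpp.pos; omega⟩
  have hx1 : ζ x = (c : ℂ) := by
    have h := hval 1 (by
      intro hd
      exact hpp.one_lt.ne' (Nat.dvd_one.mp hd))
    rwa [pow_one] at h
  have hsum : ∑ b ∈ Finset.range p, ζ (x ^ b) = ζ 1 + (q : ℂ) * (c : ℂ) := by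
    have h0 : (0 : ℕ) ∈ Finset.range p := Finset.mem_range.mpr hpp.pos
    rw [← Finset.add_sum_erase _ _ h0, pow_zero]
    congr 1
    have h3 : ∀ b ∈ (Finset.range p).erase 0, ζ (x ^ b) = (c : ℂ) := by
      intro b hb
      rw [Finset.mem_erase, Finset.mem_range] at hb
      exact hval b (Nat.not_dvd_of_pos_of_lt (Nat.pos_of_ne_zero hb.1) hb.2)
    rw [Finset.sum_congr rfl h3, Finset.sum_const, Finset.card_erase_of_mem h0,
      Finset.card_range, nsmul_eq_mul, hq, Nat.add_sub_cancel]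
  have hfix : (n : ℂ) + (q : ℂ) * (c : ℂ) = ((q : ℂ) + 1) * (m₀ : ℂ) := by
    have h4 : b42Fix p x ζ = (p : ℂ)⁻¹ * (ζ 1 + (q : ℂ) * (c : ℂ)) := by
      unfold b42Fix
      rw [hsum]
    rw [h2, h1] at h4
    have hpc : (p : ℂ) ≠ 0 := Nat.cast_ne_zero.mpr hp0
    have h5 : (p : ℂ) * (m₀ : ℂ) = (n : ℂ) + (q : ℂ) * (c : ℂ) := by
      rw [h4, ← mul_assoc, mul_inv_cancel₀ hpc, one_mul]
    rw [← h5, hq]
    push_cast
    ring
  rcases hc with hc1 | hc1
  · -- c = 1
    rw [hc1] at hfix hx1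
    have hnat : n + q = (q + 1) * m₀ := by
      have h6 : ((n + q : ℕ) : ℂ) = (((q + 1) * m₀ : ℕ) : ℂ) := by
        push_cast
        rw [← hfix]
        push_cast
        ring
      exact_mod_cast h6
    have hm1 : 1 ≤ m₀ := by
      rcases Nat.eq_zero_or_pos m₀ with h0 | h0
      · rw [h0, mul_zero] at hnat
        have hq0 : q = 0 := by omega
        have : p = 1 := by omega
        exact absurd this hpp.one_lt.ne'
      · exact h0
    obtain ⟨m, hm⟩ : ∃ m, m₀ = m + 1 := ⟨m₀ - 1, by omega⟩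
    have hn : n = m * (q + 1) + 1 := by
      rw [hm] at hnat
      have h7 : (q + 1) * (m + 1) = m * (q + 1) + 1 + q := by ring
      omega
    refine ⟨m, ?_, ?_, ?_⟩
    · rcases Nat.eq_zero_or_pos m with h0 | h0
      · exfalso
        apply hker
        rw [hx1, h1, hn, h0]
        simp
      · exact h0
    · rw [h1, h2, hn, hm, hq, Nat.add_sub_cancel]
      push_cast
      ring
    · rw [h1, hn, hc1, hq]
      push_cast
      ring
  · -- c = -1
    rw [hc1] at hfix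
    have hnat : n = (q + 1) * m₀ + q := by
      have h6 : ((n : ℕ) : ℂ) = (((q + 1) * m₀ + q : ℕ) : ℂ) := by
        push_cast
        have h8 : (n : ℂ) = ((q : ℂ) + 1) * (m₀ : ℂ) + (q : ℂ) := by
          rw [← hfix]
          push_cast
          ring
        rw [h8]
      exact_mod_cast h6
    refine ⟨m₀ + 1, Nat.le_add_left 1 m₀, ?_, ?_⟩
    · rw [h1, h2, hnat, hq, Nat.add_sub_cancel]
      push_cast
      ring
    · rw [h1, hnat, hc1, hq]
      push_cast
      ring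

end Cfsg.Agent.Helper39
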