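import Mathlib
import Cfsg.Agent.Helper8.S4504Defs
import Cfsg.Agent.Helper15.S4504Shape
import Cfsg.Agent.Helper15.B42Main

/-!
CALL S4504S (helper15, sub-call of S4504 STRUCT), piece NT (helper39): a nontrivial irreducible
character does not have `x` in its kernel (when every normal subgroup containing `x` is `⊤`), and
then `x` has an eigenvalue `≠ 1`.
-/

universe u
set_option autoImplicit false
open Cfsg Cfsg.Agent.Helper77 Cfsg.Agent.Helper15 Cfsg.Agent.Helper8
open scoped ComplexConjugate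

namespace Cfsg.Agent.Helper39

variable {G : Type u} [Group G] [Finite G]

/-- NT: a nontrivial irreducible character does not have `x` in its kernel. -/
theorem s4504s_nontriv (p : ℕ) [Fact p.Prime] (x : G) (hx : orderOf x = p)
    (htop : ∀ L : Subgroup G, L.Normal → x ∈ L → L = ⊤)
    (ξ : Cfsg.IrrCharacter G) (hξ : (ξ : G → ℂ) ≠ fun _ => 1) :
    (ξ : G → ℂ) x ≠ (ξ : G → ℂ) 1 ∧ (ξ : G → ℂ) 1 - b42Fix p x (ξ : G → ℂ) ≠ 0 := by
  classical
  haveI : Fintype G := Fintype.ofFinite G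
  have hpp : p.Prime := Fact.out
  have hp0 : p ≠ 0 := hpp.ne_zero
  have hxp : x ^ p = 1 := by rw [← hx]; exact pow_orderOf_eq_one x
  have hchar : Cfsg.IsCharacter G (ξ : G → ℂ) := Cfsg.Agent.Helper80.isCharacter_of_irr ξ.2
  have hpart1 : (ξ : G → ℂ) x ≠ (ξ : G → ℂ) 1 := by
    intro hker
    obtain ⟨L, hLn, hL⟩ := Cfsg.Agent.Helper80.isCharacter_ker hchar
    have hLtop := htop L hLn ((hL x).mpr hker)
    have hconst : ∀ g : G, (ξ : G → ℂ) g = (ξ : G → ℂ) 1 := by
      intro g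
      exact (hL g).mp (by rw [hLtop]; exact Subgroup.mem_top g)
    have hne : ξ ≠ Cfsg.Agent.Helper80.trivIrr G := by
      intro h
      apply hξ
      rw [h]
      rfl
    have horth := Cfsg.Agent.Helper80.irr_orthogonality ξ (Cfsg.Agent.Helper80.trivIrr G)
    rw [if_neg hne] at horth
    have h2 : ∑ g : G, (ξ : G → ℂ) g * (Cfsg.Agent.Helper80.trivIrr G : G → ℂ) g⁻¹
        = (Fintype.card G : ℂ) * (ξ : G → ℂ) 1 := by
      rw [Finset.sum_congr rfl (fun g _ => by
        rw [hconst g, Cfsg.Agent.Helper80.trivIrr_apply, mul_one]),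
        Finset.sum_const, Finset.card_univ, nsmul_eq_mul]
    rw [h2] at horth
    rcases mul_eq_zero.mp horth with h3 | h3
    · exact Fintype.card_ne_zero (Nat.cast_eq_zero.mp h3)
    · exact Cfsg.Agent.Helper80.irr_one_ne_zero ξ h3
  refine ⟨hpart1, ?_⟩
  intro hfix
  apply hpart1
  obtain ⟨s, hs1, hs2, hs3⟩ := Cfsg.Agent.Helper72.b42c_eig p hp0 x hxp (ξ : G → ℂ) hchar
  have hcount := Cfsg.Agent.Helper72.b42c_fix_count p hp0 x (ξ : G → ℂ) s hs1 hs3
  rw [hs2, hcount, sub_eq_zero] at hfix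
  have hcc : s.count 1 = Multiset.card s := by exact_mod_cast hfix.symm
  have hall : ∀ μ ∈ s, (1 : ℂ) = μ := Multiset.count_eq_card.mp hcc
  have h4 := hs3 1
  rw [pow_one] at h4
  rw [h4, hs2]
  have h5 : s.map (fun μ => μ ^ 1) = s.map (fun _ => (1 : ℂ)) := by
    apply Multiset.map_congr rfl
    intro μ hμ
    rw [pow_one, ← hall μ hμ]
  rw [h5, Multiset.map_const', Multiset.sum_replicate, nsmul_eq_mul, mul_one]

end Cfsg.Agent.Helper39
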