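import Mathlib
import Cfsg.Agent.Helper8.S4504Defs
import Cfsg.Agent.Helper15.S4504Shape
import Cfsg.Agent.Helper15.B42Main

/-!
CALL S4504S (helper15): shared lemmas of helper39's pieces PVB / SPLIT / CLS: the subgroup
`F = normUnits p x` of index two in `(ZMod p)ˣ` and the conjugacy of the powers of `x`.
-/

universe u
set_option autoImplicit false
open Cfsg Cfsg.Agent.Helper77 Cfsg.Agent.Helper15 Cfsg.Agent.Helper8

namespace Cfsg.Agent.Helper39

theorem units39_index_two (p : ℕ) [Fact p.Prime] (F : Subgroup (ZMod p)ˣ)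
    (hcard : 2 * Nat.card F + 1 = p) : F.index = 2 := by
  have h1 := Subgroup.card_mul_index F
  have h2 : Nat.card (ZMod p)ˣ = p - 1 := by
    rw [Nat.card_eq_fintype_card, ZMod.card_units]
  rw [h2] at h1
  have hpos : 0 < Nat.card F := Nat.card_pos
  have h3 : Nat.card F * F.index = Nat.card F * 2 := by omega
  exact Nat.eq_of_mul_eq_mul_left hpos h3

theorem units39_mem_of_not_mem {p : ℕ} {F : Subgroup (ZMod p)ˣ} (h2 : F.index = 2)
    {v u : (ZMod p)ˣ} (hv : v ∉ F) (hu : u ∉ F) : v⁻¹ * u ∈ F := by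
  rw [Subgroup.mul_mem_iff_of_index_two h2]
  constructor
  · intro h
    exact absurd (F.inv_mem_iff.mp h) hv
  · intro h
    exact absurd h hu

theorem units39_mul_mem {p : ℕ} {F : Subgroup (ZMod p)ˣ} (h2 : F.index = 2)
    {v u : (ZMod p)ˣ} (hv : v ∉ F) (hu : u ∉ F) : u * v ∈ F := by
  rw [Subgroup.mul_mem_iff_of_index_two h2]
  exact ⟨fun h => absurd h hu, fun h => absurd h hv⟩

theorem units39_pow_val_mul {G : Type u} [Group G] {p : ℕ} {x : G} (hx : orderOf x = p)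
    (u w : (ZMod p)ˣ) :
    x ^ ((u * w : (ZMod p)ˣ) : ZMod p).val = (x ^ (u : ZMod p).val) ^ (w : ZMod p).val := by
  rw [← pow_mul, pow_eq_pow_iff_modEq, hx, Units.val_mul, ZMod.val_mul]
  exact Nat.mod_modEq _ _

theorem units39_pow_nat {G : Type u} [Group G] {p : ℕ} {x : G} (hx : orderOf x = p) (b : ℕ) :
    x ^ ((b : ZMod p)).val = x ^ b := by
  rw [pow_eq_pow_iff_modEq, hx, ZMod.val_natCast]
  exact Nat.mod_modEq _ _

theorem units39_exists_unit (p : ℕ) [Fact p.Prime] (b : ℕ) (hb : ¬ p ∣ b) :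
    ∃ u : (ZMod p)ˣ, (u : ZMod p) = (b : ZMod p) := by
  have hpp : p.Prime := Fact.out
  have hcop : Nat.Coprime b p := ((Nat.Prime.coprime_iff_not_dvd hpp).mpr hb).symm
  exact ⟨ZMod.unitOfCoprime b hcop, ZMod.coe_unitOfCoprime b hcop⟩

theorem units39_conj_F {G : Type u} [Group G] {p : ℕ} {x : G} {F : Subgroup (ZMod p)ˣ}
    (hF : (F : Set (ZMod p)ˣ) = normUnits p x) {u : (ZMod p)ˣ} (hu : u ∈ F) :
    ∃ n : G, n * x * n⁻¹ = x ^ (u : ZMod p).val := by
  have h : u ∈ (F : Set (ZMod p)ˣ) := hu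
  rw [hF] at h
  exact h

theorem units39_conj_vF {G : Type u} [Group G] {p : ℕ} {x : G} (hx : orderOf x = p)
    {F : Subgroup (ZMod p)ˣ} (hF : (F : Set (ZMod p)ˣ) = normUnits p x) (h2 : F.index = 2)
    {v u : (ZMod p)ˣ} (hv : v ∉ F) (hu : u ∉ F) :
    ∃ n : G, n * x ^ (v : ZMod p).val * n⁻¹ = x ^ (u : ZMod p).val := by
  obtain ⟨n, hn⟩ := units39_conj_F hF (units39_mem_of_not_mem h2 hv hu)
  refine ⟨n, ?_⟩
  rw [← conj_pow, hn, ← units39_pow_val_mul hx (v⁻¹ * u) v, mul_comm (v⁻¹ * u) v,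
    mul_inv_cancel_left]

end Cfsg.Agent.Helper39
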