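import Mathlib
import Cfsg.Agent.Helper8.S4504Defs
import Cfsg.Agent.Helper15.S4504Shape
import Cfsg.Agent.Helper15.B42Main
import Cfsg.Agent.Helper67.B42KEYY
import Cfsg.Agent.Helper39.S4504SUnits

/-!
CALL S4504S (helper15, sub-call of S4504 STRUCT), piece PVB (helper39): the two Gaussian periods
of a character of shape `(1, l₀)` and of its conjugate of shape `(1, v l₀)`, `F` of index two.
-/

universe u
set_option autoImplicit false
open Cfsg Cfsg.Agent.Helper77 Cfsg.Agent.Helper15 Cfsg.Agent.Helper8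
open scoped ComplexConjugate

namespace Cfsg.Agent.Helper39

variable {G : Type u} [Group G] [Finite G]

/-- PVB: the two periods. -/
theorem s4504s_swap (p : ℕ) [Fact p.Prime] (x : G) (hx : orderOf x = p)
    (F : Subgroup (ZMod p)ˣ) (hF : (F : Set (ZMod p)ˣ) = normUnits p x)
    (hcard : 2 * Nat.card F + 1 = p) (v : (ZMod p)ˣ) (hv : v ∉ F)
    (χ χ₂ : G → ℂ) (l₀ : ZMod p) (hl₀ : l₀ ≠ 0) (h1 : B42Shape p x χ 1 l₀)
    (h2 : B42Shape p x χ₂ 1 ((v : ZMod p) * l₀)) :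
    (∀ b : ℕ, ¬ p ∣ b → χ (x ^ b) + χ₂ (x ^ b) = -1) ∧
    (∀ b : ℕ, ¬ p ∣ b → χ (x ^ b) ≠ χ x → χ (x ^ b) = χ₂ x ∧ χ₂ (x ^ b) = χ x) ∧
    (∀ b : ℕ, ¬ p ∣ b → χ (x ^ b) = χ x → χ₂ (x ^ b) = χ₂ x) ∧
    χ (x ^ (v : ZMod p).val) = χ₂ x := by
  classical
  have hpp : p.Prime := Fact.out
  haveI : NeZero p := ⟨hpp.ne_zero⟩
  have hidx := units39_index_two p F hcard
  obtain ⟨ζ, hζ⟩ : ∃ ζ : ℂ, ζ = d1zeta p := ⟨_, rfl⟩
  obtain ⟨Fs, hFsdef⟩ : ∃ Fs : Finset (ZMod p)ˣ, Fs = Finset.univ.filter (fun s => s ∈ F) :=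
    ⟨_, rfl⟩
  have hFs : ∀ s, s ∈ Fs ↔ s ∈ F := by
    intro s
    rw [hFsdef, Finset.mem_filter]
    exact ⟨fun h => h.2, fun h => ⟨Finset.mem_univ _, h⟩⟩
  have hfs : ∀ f : (ZMod p)ˣ → ℂ, ∑ᶠ s ∈ normUnits p x, f s = ∑ s ∈ Fs, f s := by
    intro f
    have hset : (F : Set (ZMod p)ˣ) = (Fs : Set (ZMod p)ˣ) := by
      ext s
      rw [Finset.mem_coe, hFs]
      rfl
    rw [← hF, hset, finsum_mem_coe_finset]
  obtain ⟨P, hP⟩ : ∃ P : ZMod p → ℂ,
      ∀ c, P c = ∑ s ∈ Fs, ζ ^ (((s : (ZMod p)ˣ) : ZMod p) * c).val := ⟨_, fun _ => rfl⟩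
  have hχ : ∀ b : ℕ, χ (x ^ b) = P ((b : ZMod p) * l₀) := by
    intro b
    rw [h1 b, hfs, hP, Nat.cast_one, one_mul, ← hζ]
    refine Finset.sum_congr rfl (fun s _ => ?_)
    congr 2
    ring
  have hχ₂ : ∀ b : ℕ, χ₂ (x ^ b) = P ((b : ZMod p) * ((v : ZMod p) * l₀)) := by
    intro b
    rw [h2 b, hfs, hP, Nat.cast_one, one_mul, ← hζ]
    refine Finset.sum_congr rfl (fun s _ => ?_)
    congr 2
    ring
  have hPmul : ∀ t ∈ F, ∀ c, P ((t : ZMod p) * c) = P c := by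
    intro t ht c
    rw [hP, hP]
    refine Finset.sum_nbij' (fun s => s * t) (fun s => s * t⁻¹) ?_ ?_ ?_ ?_ ?_
    · intro s hs
      rw [hFs] at hs ⊢
      exact F.mul_mem hs ht
    · intro s hs
      rw [hFs] at hs ⊢
      exact F.mul_mem hs (F.inv_mem ht)
    · intro s _
      exact mul_inv_cancel_right s t
    · intro s _
      exact inv_mul_cancel_right s t
    · intro s _
      congr 2
      rw [Units.val_mul]
      ring
  have hPsum : ∀ c : ZMod p, c ≠ 0 → P c + P ((v : ZMod p) * c) = -1 := by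
    intro c hc
    have h := Cfsg.Agent.Helper67.b42keyy_units_zeta p c hc
    rw [← hζ] at h
    rw [← h, ← Finset.sum_filter_add_sum_filter_not Finset.univ (fun s => s ∈ F), ← hFsdef, hP]
    congr 1
    rw [hP]
    refine Finset.sum_nbij' (fun s => v * s) (fun u => v⁻¹ * u) ?_ ?_ ?_ ?_ ?_
    · intro s hs
      rw [hFs] at hs
      rw [Finset.mem_filter]
      refine ⟨Finset.mem_univ _, ?_⟩
      intro h'
      apply hv
      have h3 := F.mul_mem h' (F.inv_mem hs)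
      rwa [mul_inv_cancel_right] at h3
    · intro u hu
      rw [Finset.mem_filter] at hu
      rw [hFs]
      exact units39_mem_of_not_mem hidx hv hu.2
    · intro s _
      exact inv_mul_cancel_left v s
    · intro u _
      exact mul_inv_cancel_left v u
    · intro s _
      congr 2
      rw [Units.val_mul]
      ring
  have hx1 : χ x = P l₀ := by
    have h := hχ 1
    rwa [pow_one, Nat.cast_one, one_mul] at h
  have hx2 : χ₂ x = P ((v : ZMod p) * l₀) := by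
    have h := hχ₂ 1
    rwa [pow_one, Nat.cast_one, one_mul] at h
  have hcase : ∀ b : ℕ, ¬ p ∣ b →
      (χ (x ^ b) = χ x ∧ χ₂ (x ^ b) = χ₂ x) ∨ (χ (x ^ b) = χ₂ x ∧ χ₂ (x ^ b) = χ x) := by
    intro b hb
    obtain ⟨u, hu⟩ := units39_exists_unit p b hb
    by_cases huF : u ∈ F
    · left
      rw [hχ b, hχ₂ b, ← hu, hx1, hx2]
      exact ⟨hPmul u huF _, hPmul u huF _⟩
    · right
      have ht := units39_mem_of_not_mem hidx hv huF
      have hu' : (u : ZMod p) = ((v⁻¹ * u : (ZMod p)ˣ) : ZMod p) * (v : ZMod p) := by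
        rw [← Units.val_mul, mul_comm, mul_inv_cancel_left]
      rw [hχ b, hχ₂ b, ← hu, hx1, hx2]
      constructor
      · rw [hu', mul_assoc]
        exact hPmul _ ht _
      · have hvu : u * v ∈ F := units39_mul_mem hidx hv huF
        have h3 : (u : ZMod p) * ((v : ZMod p) * l₀) = ((u * v : (ZMod p)ˣ) : ZMod p) * l₀ := by
          rw [Units.val_mul, mul_assoc]
        rw [h3]
        exact hPmul _ hvu _
  refine ⟨?_, ?_, ?_, ?_⟩
  · intro b hb
    obtain ⟨u, hu⟩ := units39_exists_unit p b hb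
    rw [hχ b, hχ₂ b, ← hu]
    have hc : (u : ZMod p) * l₀ ≠ 0 := mul_ne_zero u.ne_zero hl₀
    rw [← hPsum _ hc]
    congr 2
    ring
  · intro b hb hne
    rcases hcase b hb with h | h
    · exact absurd h.1 hne
    · exact h
  · intro b hb heq
    rcases hcase b hb with h | h
    · exact h.2
    · rw [h.2, ← heq]
      exact h.1
  · rw [hχ (v : ZMod p).val, ZMod.natCast_zmod_val, hx2]

end Cfsg.Agent.Helper39
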