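import Mathlib

/-!
# PIECE A of CALL S2409 (helper17) — helper39

An additive subgroup of a finite field that is stable under multiplication by an element `g`
of large order and contains a non-zero element is everything.
-/

set_option autoImplicit false

namespace Cfsg.Agent.Helper39

theorem addSubgroup_eq_top_of_mul_stable {K : Type*} [Field K] [Fintype K] {p : ℕ} [Fact p.Prime] [CharP K p]
    (g : K) (hord : Fintype.card K < p * (orderOf g + 1))
    (M : AddSubgroup K) {c : K} (hc : c ≠ 0) (hcM : c ∈ M) (hM : ∀ x ∈ M, g * x ∈ M) : M = ⊤ := by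
  classical
  have hp : p.Prime := Fact.out
  obtain ⟨⟨n, hn0⟩, hn⟩ := FiniteField.card K p
  have hn' : Fintype.card K = p ^ n := hn.2
  -- `g ≠ 0`
  have hg0 : g ≠ 0 := by
    rintro rfl
    have h0 : orderOf (0 : K) = 0 := by
      rw [orderOf_eq_zero_iff']
      intro k hk
      rw [zero_pow hk.ne']
      exact zero_ne_one
    rw [h0, zero_add, mul_one, hn'] at hord
    have : p ≤ p ^ n := by
      calc p = p ^ 1 := (pow_one p).symm
        _ ≤ p ^ n := Nat.pow_le_pow_right hp.pos hn0
    omega
  -- the powers `g ^ i * c` lie in `M`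
  have hpow : ∀ i : ℕ, g ^ i * c ∈ M := by
    intro i
    induction i with
    | zero => simpa using hcM
    | succ i ih =>
      have := hM _ ih
      rwa [← mul_assoc, ← pow_succ'] at this
  -- card bound
  have hcard : orderOf g + 1 ≤ Nat.card M := by
    have hinj : Set.InjOn (fun i : ℕ => g ^ i * c) (Finset.range (orderOf g) : Set ℕ) := by
      intro i hi j hj hij
      have h1 : g ^ i = g ^ j := mul_right_cancel₀ hc hij
      rw [Finset.coe_range] at hi hj
      exact pow_injOn_Iio_orderOf hi hj h1
    have hsub : insert (0 : K) ((Finset.range (orderOf g)).image (fun i : ℕ => g ^ i * c))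
        ⊆ (Finset.univ.filter (fun x : K => x ∈ M)) := by
      intro x hx
      rw [Finset.mem_filter]
      refine ⟨Finset.mem_univ _, ?_⟩
      rcases Finset.mem_insert.mp hx with h | h
      · rw [h]
        exact M.zero_mem
      · obtain ⟨i, -, rfl⟩ := Finset.mem_image.mp h
        exact hpow i
    have h0 : (0 : K) ∉ (Finset.range (orderOf g)).image (fun i : ℕ => g ^ i * c) := by
      intro h
      obtain ⟨i, -, hi⟩ := Finset.mem_image.mp h
      exact mul_ne_zero (pow_ne_zero i hg0) hc hi
    have h1 := Finset.card_le_card hsub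
    rw [Finset.card_insert_of_notMem h0, Finset.card_image_of_injOn hinj, Finset.card_range] at h1
    have h2 : Nat.card M = (Finset.univ.filter (fun x : K => x ∈ M)).card := by
      rw [Nat.card_eq_fintype_card, Fintype.card_subtype]
    rw [h2]
    exact h1
  -- `Nat.card M` is a power of `p`
  have hdvd : Nat.card M ∣ p ^ n := by
    have := AddSubgroup.card_addSubgroup_dvd_card M
    rwa [Nat.card_eq_fintype_card (α := K), hn'] at this
  obtain ⟨j, hj, hj'⟩ := (Nat.dvd_prime_pow hp).mp hdvd
  have hjn : j = n := by
    by_contra hne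
    have hlt : j < n := lt_of_le_of_ne hj hne
    have h1 : p * Nat.card M ≤ p ^ n := by
      rw [hj', ← pow_succ']
      exact Nat.pow_le_pow_right hp.pos hlt
    have h2 : p * (orderOf g + 1) ≤ p * Nat.card M := Nat.mul_le_mul_left p hcard
    rw [hn'] at hord
    omega
  apply AddSubgroup.card_eq_iff_eq_top M |>.mp
  rw [hj', hjn, ← hn', Nat.card_eq_fintype_card]

end Cfsg.Agent.Helper39
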