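-- helper39: piece P10 of CALL S1142-LA (helper3): the zeros of `alphaSeq x c n` are the Chebyshev
-- nodes `√c * cos (k π / n)`, `0 < k < n`.
import Mathlib
import Cfsg.Agent.Helper3.FHDefs

set_option autoImplicit false

namespace Cfsg.Agent.Helper39
open Cfsg.Agent.Helper3.FH Real

theorem fh_alpha_cheb (x c : ℝ) (hc : 0 < c) (j : ℕ) :
    alphaSeq x c (j + 1) = (√c) ^ j * (Polynomial.Chebyshev.U ℝ (j : ℤ)).eval (x / √c) ∧
    alphaSeq x c (j + 2)
      = (√c) ^ (j + 1) * (Polynomial.Chebyshev.U ℝ ((j : ℤ) + 1)).eval (x / √c) := by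
  have hs : √c ≠ 0 := (Real.sqrt_pos.mpr hc).ne'
  have hs2 : √c * √c = c := Real.mul_self_sqrt hc.le
  induction j with
  | zero =>
    refine ⟨by simp, ?_⟩
    rw [alphaSeq_add_two]
    simp
    field_simp
  | succ j ih =>
    refine ⟨?_, ?_⟩
    · have h := ih.2
      push_cast
      exact h
    · have hU : Polynomial.Chebyshev.U ℝ (((j + 1 : ℕ) : ℤ) + 1)
          = 2 * Polynomial.X * Polynomial.Chebyshev.U ℝ ((j : ℤ) + 1)
            - Polynomial.Chebyshev.U ℝ (j : ℤ) := by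
        have h := Polynomial.Chebyshev.U_add_two ℝ (j : ℤ)
        rw [← h]
        congr 1
      rw [alphaSeq_add_two, ih.1, ih.2, hU]
      simp only [Polynomial.eval_sub, Polynomial.eval_mul, Polynomial.eval_ofNat,
        Polynomial.eval_X]
      generalize Polynomial.eval (x / √c) (Polynomial.Chebyshev.U ℝ ((j : ℤ) + 1)) = U1
      generalize Polynomial.eval (x / √c) (Polynomial.Chebyshev.U ℝ (j : ℤ)) = U0
      have key : √c ^ (j + 1 + 1) * (2 * (x / √c) * U1 - U0)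
          = 2 * x * (√c ^ (j + 1) * U1) - (√c * √c) * (√c ^ j * U0) := by
        field_simp
        ring
      rw [key, hs2]

theorem fh_roots_even (n : ℕ) (hn : 1 ≤ n) (x c : ℝ) (hc : 0 < c) (h : alphaSeq x c n = 0) :
    ∃ k : ℕ, 0 < k ∧ k < n ∧ x = √c * cos (k * π / n) := by
  have hs : √c ≠ 0 := (Real.sqrt_pos.mpr hc).ne'
  obtain ⟨j, rfl⟩ : ∃ j, n = j + 1 := ⟨n - 1, by omega⟩
  rw [(fh_alpha_cheb x c hc j).1] at h
  have h0 : (Polynomial.Chebyshev.U ℝ (j : ℤ)).eval (x / √c) = 0 := by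
    rcases mul_eq_zero.mp h with h' | h'
    · exact absurd h' (pow_ne_zero j hs)
    · exact h'
  have hne : Polynomial.Chebyshev.U ℝ (j : ℤ) ≠ 0 :=
    Polynomial.Chebyshev.U_ne_zero ℝ (j : ℤ) (by omega)
  have hmem : x / √c ∈ (Polynomial.Chebyshev.U ℝ (j : ℤ)).roots :=
    (Polynomial.mem_roots hne).mpr h0
  rw [Polynomial.Chebyshev.roots_U_real] at hmem
  obtain ⟨k, hk, hkx⟩ := Finset.mem_image.mp (Finset.mem_val.mp hmem)
  rw [Finset.mem_range] at hk
  refine ⟨k + 1, by omega, by omega, ?_⟩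
  have hx : x = √c * (x / √c) := by field_simp
  rw [hx, ← hkx]
  push_cast
  rfl

end Cfsg.Agent.Helper39
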