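-- helper39: piece P15 of CALL S1142-LA (helper3): the arithmetic obstruction for odd `m = 2n+1 ≥ 5`
-- (Niven's theorem).
import Mathlib
import Cfsg.Agent.Helper3.FHDefs

set_option autoImplicit false

namespace Cfsg.Agent.Helper39
open Cfsg.Agent.Helper3.FH Real

theorem fh_arith_odd (n : ℕ) (hn : 2 ≤ n) (q v μ : ℕ) (hq : 2 ≤ q) (hv : 0 < v) (hμ : 0 < μ)
    (x : ℝ) (hx : x = q * cos (2 * π / (2 * n + 1)))
    (h : (μ : ℝ) * (2 * n + 1) * (q + q + 2 * x) * (q * q + 1 - 2 * x)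
      = 8 * v * (q * q - x ^ 2)) : False := by
  have hqR : (2 : ℝ) ≤ q := by exact_mod_cast hq
  have hvR : (0 : ℝ) < v := by exact_mod_cast hv
  have hμR : (0 : ℝ) < μ := by exact_mod_cast hμ
  have hnR : (2 : ℝ) ≤ n := by exact_mod_cast hn
  have hm : (0 : ℝ) < 2 * n + 1 := by positivity
  have hθ0 : 0 < 2 * π / (2 * (n : ℝ) + 1) := by positivity
  have hθπ : 2 * π / (2 * (n : ℝ) + 1) < π := by
    rw [div_lt_iff₀ hm]
    nlinarith [Real.pi_pos]
  have hc : -1 < cos (2 * π / (2 * (n : ℝ) + 1)) := by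
    have h0 := Real.cos_lt_cos_of_nonneg_of_le_pi hθ0.le le_rfl hθπ
    rwa [Real.cos_pi] at h0
  have hqx : 0 < (q : ℝ) + x := by
    rw [hx]
    nlinarith
  -- divide by `2 (q + x)`
  have h1 : (μ : ℝ) * (2 * n + 1) * (q * q + 1 - 2 * x) = 4 * v * (q - x) := by
    have h2 : ((μ : ℝ) * (2 * n + 1) * (q * q + 1 - 2 * x) - 4 * v * (q - x))
        * (2 * (q + x)) = 0 := by
      linear_combination h
    rcases mul_eq_zero.mp h2 with h3 | h3
    · linarith
    · linarith
  by_cases h4 : (4 : ℝ) * v = 2 * μ * (2 * n + 1)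
  · have h5 : (μ : ℝ) * (2 * n + 1) * ((q : ℝ) - 1) ^ 2 = 0 := by
      linear_combination h1 + (q - x) * h4
    have h6 : ((q : ℝ) - 1) ^ 2 = 0 := by
      rcases mul_eq_zero.mp h5 with h7 | h7
      · exact absurd h7 (mul_pos hμR hm).ne'
      · exact h7
    have h7 : (q : ℝ) - 1 = 0 := by simpa using h6
    linarith
  · have h5 : (4 : ℝ) * v - 2 * μ * (2 * n + 1) ≠ 0 := sub_ne_zero.mpr h4
    have hxr : x = (4 * v * q - μ * (2 * n + 1) * (q * q + 1))
        / (4 * v - 2 * μ * (2 * n + 1)) := by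
      rw [eq_div_iff h5]
      linear_combination h1
    have hq0 : (q : ℝ) ≠ 0 := by positivity
    have hnQ : (2 : ℚ) ≤ n := by exact_mod_cast hn
    have hmQ : (0 : ℚ) < 2 * n + 1 := by positivity
    have hcos : ∃ r : ℚ, cos (((2 / (2 * n + 1) : ℚ) : ℝ) * π) = r := by
      refine ⟨((4 * v * q - μ * (2 * n + 1) * (q * q + 1))
        / (4 * v - 2 * μ * (2 * n + 1))) / q, ?_⟩
      have e : (((2 / (2 * n + 1) : ℚ) : ℝ) * π) = 2 * π / (2 * (n : ℝ) + 1) := by
        push_cast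
        ring
      rw [e]
      push_cast
      rw [← hxr, hx]
      field_simp
    have hmem := niven_angle_div_pi_eq hcos ⟨by positivity, by
      rw [div_le_one hmQ]
      linarith⟩
    simp only [Set.mem_insert_iff, Set.mem_singleton_iff] at hmem
    rcases hmem with h6 | h6 | h6 | h6 | h6
    · rw [div_eq_iff hmQ.ne'] at h6
      norm_num at h6
    · rw [div_eq_iff hmQ.ne'] at h6
      have h8 : (2 : ℚ) * n + 1 = 6 := by linarith
      have h7 : 2 * n + 1 = 6 := by exact_mod_cast h8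
      omega
    · rw [div_eq_iff hmQ.ne'] at h6
      have h8 : (2 : ℚ) * n + 1 = 4 := by linarith
      have h7 : 2 * n + 1 = 4 := by exact_mod_cast h8
      omega
    · rw [div_eq_iff hmQ.ne'] at h6
      linarith
    · rw [div_eq_iff hmQ.ne'] at h6
      linarith

end Cfsg.Agent.Helper39
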