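-- helper39: piece P5 of CALL S1142-LA (helper3): trace recurrences on an eigen-idempotent of the
-- central element of a dihedral Hecke configuration.
import Mathlib
import Cfsg.Agent.Helper3.FHDefs

set_option autoImplicit false

namespace Cfsg.Agent.Helper39
open Cfsg.Agent.Helper3.FH Real

variable {Ω : Type*} [Fintype Ω] [DecidableEq Ω]

/-- On an eigenvector of `z = ab + ba - (t-1)a - (s-1)b` commuting with `b`:
`(ab)^2 E = (ζ + (s-1)(t-1)) ab E - st E`. -/
theorem fh_abab_gen {R : Type*} [Ring R] [Algebra ℝ R] (a b E : R) (s t ζ : ℝ)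
    (ha : a * a = s • (1 : R) + (s - 1) • a) (hb : b * b = t • (1 : R) + (t - 1) • b)
    (hEb : E * b = b * E)
    (heig : (a * b + b * a - (t - 1) • a - (s - 1) • b) * E = ζ • E) :
    a * b * (a * b) * E = (ζ + (s - 1) * (t - 1)) • (a * b * E) - (s * t) • E := by
  have haa : ∀ X : R, a * (a * X) = s • X + (s - 1) • (a * X) := by
    intro X
    rw [← mul_assoc, ha, add_mul, smul_mul_assoc, one_mul, smul_mul_assoc]
  have hbb : ∀ X : R, b * (b * X) = t • X + (t - 1) • (b * X) := by
    intro X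
    rw [← mul_assoc, hb, add_mul, smul_mul_assoc, one_mul, smul_mul_assoc]
  have hba : b * (a * E) = ζ • E + (t - 1) • (a * E) + (s - 1) • (b * E) - a * (b * E) := by
    have h1 := heig
    simp only [add_mul, sub_mul, smul_mul_assoc, mul_assoc] at h1
    linear_combination (norm := module) h1
  calc a * b * (a * b) * E = a * (b * (a * (E * b))) := by
        rw [hEb]
        simp only [mul_assoc]
    _ = a * ((b * (a * E)) * b) := by simp only [mul_assoc]
    _ = a * ((ζ • E + (t - 1) • (a * E) + (s - 1) • (b * E) - a * (b * E)) * b) := by rw [hba]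
    _ = (ζ + (s - 1) * (t - 1)) • (a * b * E) - (s * t) • E := by
      simp only [mul_add, add_mul, mul_sub, sub_mul, smul_mul_assoc, mul_smul_comm, mul_assoc,
        hEb, haa, hbb, smul_add, smul_sub, smul_smul]
      module

theorem fh_comm_altProd (C : HeckeCfg Ω) {E : Matrix Ω Ω ℝ} {ζ : ℝ} (h : C.IsEig E ζ) (k : ℕ) :
    E * altProd C.a C.b k = altProd C.a C.b k * E ∧
      E * altProd C.b C.a k = altProd C.b C.a k * E := by
  induction k with
  | zero => simp
  | succ k ih =>
    constructor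
    · rw [altProd_succ, ← mul_assoc, h.comm_a, mul_assoc, ih.2, mul_assoc]
    · rw [altProd_succ, ← mul_assoc, h.comm_b, mul_assoc, ih.1, mul_assoc]

theorem fh_abab (C : HeckeCfg Ω) {E : Matrix Ω Ω ℝ} {ζ : ℝ} (h : C.IsEig E ζ) :
    C.a * C.b * (C.a * C.b) * E
      = (2 * C.xOf ζ) • (C.a * C.b * E) - ((C.s : ℝ) * C.t) • E := by
  have h1 := fh_abab_gen C.a C.b E C.s C.t ζ C.a_sq C.b_sq h.comm_b h.eig
  have h2 : 2 * C.xOf ζ = ζ + ((C.s : ℝ) - 1) * ((C.t : ℝ) - 1) := by
    unfold HeckeCfg.xOf
    ring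
  rw [h2]
  exact h1

theorem fh_trace_rec (C : HeckeCfg Ω) {E : Matrix Ω Ω ℝ} {ζ : ℝ} (h : C.IsEig E ζ) :
    (∀ k, (altProd C.a C.b (k + 4) * E).trace =
        2 * C.xOf ζ * (altProd C.a C.b (k + 2) * E).trace
          - (C.s : ℝ) * C.t * (altProd C.a C.b k * E).trace) ∧
    (altProd C.a C.b 3 * E).trace =
        (C.s : ℝ) * (C.b * E).trace + ((C.s : ℝ) - 1) * (C.a * C.b * E).trace ∧
    (C.b * C.a * E).trace = (C.a * C.b * E).trace := by
  refine ⟨?_, ?_, ?_⟩
  · intro k
    have hc := (fh_comm_altProd C h k).1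
    have e : altProd C.a C.b (k + 4) * E
        = (2 * C.xOf ζ) • (altProd C.a C.b (k + 2) * E)
          - ((C.s : ℝ) * C.t) • (altProd C.a C.b k * E) := by
      calc altProd C.a C.b (k + 4) * E
          = C.a * C.b * (C.a * C.b) * (altProd C.a C.b k * E) := by
            rw [show k + 4 = (k + 2) + 2 from rfl, altProd_add_two, altProd_add_two]
            simp only [mul_assoc]
        _ = C.a * C.b * (C.a * C.b) * E * altProd C.a C.b k := by
            rw [← hc]
            simp only [mul_assoc]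
        _ = ((2 * C.xOf ζ) • (C.a * C.b * E) - ((C.s : ℝ) * C.t) • E) * altProd C.a C.b k := by
            rw [fh_abab C h]
        _ = (2 * C.xOf ζ) • (C.a * C.b * (E * altProd C.a C.b k))
              - ((C.s : ℝ) * C.t) • (E * altProd C.a C.b k) := by
            rw [sub_mul, smul_mul_assoc, smul_mul_assoc, mul_assoc (C.a * C.b) E]
        _ = (2 * C.xOf ζ) • (altProd C.a C.b (k + 2) * E)
              - ((C.s : ℝ) * C.t) • (altProd C.a C.b k * E) := by
            rw [hc, altProd_add_two, mul_assoc (C.a * C.b)]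
    rw [e, Matrix.trace_sub, Matrix.trace_smul, Matrix.trace_smul, smul_eq_mul, smul_eq_mul]
  · have e3 : altProd C.a C.b 3 = C.a * (C.b * C.a) := by
      rw [show (3 : ℕ) = 2 + 1 from rfl, altProd_succ, altProd_two]
    have e : C.a * E * (C.a * C.b)
        = (C.s : ℝ) • (C.b * E) + ((C.s : ℝ) - 1) • (C.a * C.b * E) := by
      calc C.a * E * (C.a * C.b) = C.a * (E * C.a) * C.b := by simp only [mul_assoc]
        _ = C.a * C.a * (E * C.b) := by
            rw [h.comm_a]
            simp only [mul_assoc]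
        _ = ((C.s : ℝ) • (1 : Matrix Ω Ω ℝ) + ((C.s : ℝ) - 1) • C.a) * (C.b * E) := by
            rw [C.a_sq, h.comm_b]
        _ = (C.s : ℝ) • (C.b * E) + ((C.s : ℝ) - 1) • (C.a * C.b * E) := by
            rw [add_mul, smul_mul_assoc, one_mul, smul_mul_assoc, mul_assoc]
    have e' : altProd C.a C.b 3 * E = C.a * C.b * (C.a * E) := by
      rw [e3]
      simp only [mul_assoc]
    rw [e', Matrix.trace_mul_comm, e, Matrix.trace_add, Matrix.trace_smul, Matrix.trace_smul,
      smul_eq_mul, smul_eq_mul]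
  · have e : C.b * C.a * E = C.b * (C.a * E) := mul_assoc _ _ _
    have e' : C.a * E * C.b = C.a * C.b * E := by
      rw [mul_assoc, h.comm_b, mul_assoc]
    rw [e, Matrix.trace_mul_comm, e']

end Cfsg.Agent.Helper39
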