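-- helper39: piece P7 of CALL S1142-LA (helper3): bounds for the eigenvalues of the central
-- element `z` of a dihedral Hecke configuration.
import Mathlib
import Cfsg.Agent.Helper3.FHDefs

set_option autoImplicit false

namespace Cfsg.Agent.Helper39
open Cfsg.Agent.Helper3.FH Real

variable {Ω : Type*} [Fintype Ω] [DecidableEq Ω]

/-- The square of `c = (t+1)(a+1) - (s+1)(b+1)`. -/
theorem fh_cc_sq {R : Type*} [Ring R] [Algebra ℝ R] (a b : R) (s t : ℝ)
    (ha : a * a = s • (1 : R) + (s - 1) • a) (hb : b * b = t • (1 : R) + (t - 1) • b) :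
    ((t + 1) • (a + 1) - (s + 1) • (b + 1)) * ((t + 1) • (a + 1) - (s + 1) • (b + 1))
      = ((s + 1) * (t + 1) * (s + t)) • (1 : R)
        + (-((s + 1) * (t + 1))) • (a * b + b * a - (t - 1) • a - (s - 1) • b) := by
  simp only [mul_add, add_mul, mul_sub, sub_mul, smul_mul_assoc, mul_smul_comm, mul_one, one_mul,
    smul_add, smul_sub, smul_smul, ha, hb]
  module

/-- The square of `d = (t+1)(a+1) + (s+1)(b+1) - (s+1)(t+1)`. -/
theorem fh_dd_sq {R : Type*} [Ring R] [Algebra ℝ R] (a b : R) (s t : ℝ)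
    (ha : a * a = s • (1 : R) + (s - 1) • a) (hb : b * b = t • (1 : R) + (t - 1) • b) :
    ((t + 1) • (a + 1) + (s + 1) • (b + 1) - ((s + 1) * (t + 1)) • (1 : R))
        * ((t + 1) • (a + 1) + (s + 1) • (b + 1) - ((s + 1) * (t + 1)) • (1 : R))
      = ((s + 1) * (t + 1) * (s * t + 1)) • (1 : R)
        + ((s + 1) * (t + 1)) • (a * b + b * a - (t - 1) • a - (s - 1) • b) := by
  simp only [mul_add, add_mul, mul_sub, sub_mul, smul_mul_assoc, mul_smul_comm, mul_one, one_mul,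
    smul_add, smul_sub, smul_smul, ha, hb]
  module

omit [DecidableEq Ω] in
theorem fh_trace_sq_nonneg (M : Matrix Ω Ω ℝ) : 0 ≤ (M.transpose * M).trace := by
  simp only [Matrix.trace, Matrix.diag_apply, Matrix.mul_apply, Matrix.transpose_apply]
  exact Finset.sum_nonneg fun i _ => Finset.sum_nonneg fun j _ => mul_self_nonneg _

/-- A symmetric matrix commuting with `E` whose square is `ρ + σ z` gives `0 ≤ (ρ + σ ζ) tr E`. -/
theorem fh_eig_key (C : HeckeCfg Ω) {E : Matrix Ω Ω ℝ} {ζ : ℝ} (h : C.IsEig E ζ)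
    (c : Matrix Ω Ω ℝ) (ρ σ : ℝ) (hc : c.transpose = c) (hEc : E * c = c * E)
    (hcc : c * c = ρ • (1 : Matrix Ω Ω ℝ) + σ • C.z) : 0 ≤ (ρ + σ * ζ) * E.trace := by
  have h1 := fh_trace_sq_nonneg (c * E)
  have h2 : (c * E).transpose * (c * E) = (ρ + σ * ζ) • E := by
    rw [Matrix.transpose_mul, h.symm, hc]
    calc E * c * (c * E) = (c * E) * (c * E) := by rw [hEc]
      _ = c * (E * c) * E := by simp only [mul_assoc]
      _ = c * (c * E) * E := by rw [hEc]
      _ = c * c * (E * E) := by simp only [mul_assoc]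
      _ = (ρ • (1 : Matrix Ω Ω ℝ) + σ • C.z) * E := by rw [h.idem, hcc]
      _ = (ρ + σ * ζ) • E := by
          rw [add_mul, smul_mul_assoc, one_mul, smul_mul_assoc, h.eig, smul_smul, ← add_smul]
  rw [h2, Matrix.trace_smul, smul_eq_mul] at h1
  exact h1

theorem fh_eig_bounds (C : HeckeCfg Ω) {E : Matrix Ω Ω ℝ} {ζ : ℝ} (h : C.IsEig E ζ) :
    -((C.s : ℝ) + C.t) ≤ 2 * C.xOf ζ ∧ 2 * C.xOf ζ ≤ (C.s : ℝ) * C.t + 1 := by
  have hs1 : (0 : ℝ) < (C.s : ℝ) + 1 := by positivity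
  have ht1 : (0 : ℝ) < (C.t : ℝ) + 1 := by positivity
  have hμ := h.tr_pos
  have hEa1 : E * (C.a + 1) = (C.a + 1) * E := by
    rw [mul_add, add_mul, h.comm_a, mul_one, one_mul]
  have hEb1 : E * (C.b + 1) = (C.b + 1) * E := by
    rw [mul_add, add_mul, h.comm_b, mul_one, one_mul]
  have hTa : (C.a + 1).transpose = C.a + 1 := by
    rw [Matrix.transpose_add, C.a_symm, Matrix.transpose_one]
  have hTb : (C.b + 1).transpose = C.b + 1 := by
    rw [Matrix.transpose_add, C.b_symm, Matrix.transpose_one]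
  constructor
  · -- use `d`
    have hd := fh_eig_key C h
      (((C.t : ℝ) + 1) • (C.a + 1) + ((C.s : ℝ) + 1) • (C.b + 1)
        - (((C.s : ℝ) + 1) * ((C.t : ℝ) + 1)) • (1 : Matrix Ω Ω ℝ))
      (((C.s : ℝ) + 1) * ((C.t : ℝ) + 1) * ((C.s : ℝ) * C.t + 1))
      (((C.s : ℝ) + 1) * ((C.t : ℝ) + 1))
      (by
        rw [Matrix.transpose_sub, Matrix.transpose_add, Matrix.transpose_smul,
          Matrix.transpose_smul, Matrix.transpose_smul, hTa, hTb, Matrix.transpose_one])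
      (by
        simp only [mul_sub, sub_mul, mul_add, add_mul, mul_smul_comm, smul_mul_assoc, h.comm_a,
          h.comm_b, mul_one, one_mul])
      (fh_dd_sq C.a C.b C.s C.t C.a_sq C.b_sq)
    have h0 : 0 ≤ (C.s : ℝ) * C.t + 1 + ζ := by
      by_contra hneg
      push Not at hneg
      have e : ((C.s : ℝ) + 1) * ((C.t : ℝ) + 1) * ((C.s : ℝ) * C.t + 1)
          + ((C.s : ℝ) + 1) * ((C.t : ℝ) + 1) * ζ
          = ((C.s : ℝ) + 1) * ((C.t : ℝ) + 1) * ((C.s : ℝ) * C.t + 1 + ζ) := by ring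
      rw [e] at hd
      have : ((C.s : ℝ) + 1) * ((C.t : ℝ) + 1) * ((C.s : ℝ) * C.t + 1 + ζ) * E.trace < 0 :=
        mul_neg_of_neg_of_pos (mul_neg_of_pos_of_neg (mul_pos hs1 ht1) hneg) hμ
      linarith
    unfold HeckeCfg.xOf
    nlinarith
  · -- use `c`
    have hc := fh_eig_key C h
      (((C.t : ℝ) + 1) • (C.a + 1) - ((C.s : ℝ) + 1) • (C.b + 1))
      (((C.s : ℝ) + 1) * ((C.t : ℝ) + 1) * ((C.s : ℝ) + C.t))
      (-(((C.s : ℝ) + 1) * ((C.t : ℝ) + 1)))
      (by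
        rw [Matrix.transpose_sub, Matrix.transpose_smul, Matrix.transpose_smul, hTa, hTb])
      (by
        rw [mul_sub, sub_mul, mul_smul_comm, mul_smul_comm, smul_mul_assoc, smul_mul_assoc,
          hEa1, hEb1])
      (fh_cc_sq C.a C.b C.s C.t C.a_sq C.b_sq)
    have h0 : 0 ≤ (C.s : ℝ) + C.t - ζ := by
      by_contra hneg
      push Not at hneg
      have e : ((C.s : ℝ) + 1) * ((C.t : ℝ) + 1) * ((C.s : ℝ) + C.t)
          + -(((C.s : ℝ) + 1) * ((C.t : ℝ) + 1)) * ζ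
          = ((C.s : ℝ) + 1) * ((C.t : ℝ) + 1) * ((C.s : ℝ) + C.t - ζ) := by ring
      rw [e] at hc
      have : ((C.s : ℝ) + 1) * ((C.t : ℝ) + 1) * ((C.s : ℝ) + C.t - ζ) * E.trace < 0 :=
        mul_neg_of_neg_of_pos (mul_neg_of_pos_of_neg (mul_pos hs1 ht1) hneg) hμ
      linarith
    unfold HeckeCfg.xOf
    nlinarith

end Cfsg.Agent.Helper39
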