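/-
helper39: CALL S5975 piece BRIDGE.
-/
import Mathlib
import Cfsg.Prelude.Def_GeometricClasses
import Cfsg.Prelude.Def_ClassicalGeometry
import Cfsg.Agent.Helper96.C3SDefs
import Cfsg.Agent.Helper81.C3SPHI
import Cfsg.Agent.Helper81.C3SWLIB
import Cfsg.Agent.Helper94.SpGen
import Cfsg.Agent.Helper13.TIBad
import Cfsg.Agent.Helper59.TIMAXTI
import Cfsg.Agent.Helper11.TIFIX
import Cfsg.Agent.Helper70.TISCAL
import Cfsg.Agent.Helper51.TIORD
import Cfsg.Agent.Helper5.SympCard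
import Cfsg.Agent.Helper58.TICW


set_option autoImplicit false

namespace Cfsg.Agent.Helper39

open Matrix Module


/-- PIECE BRIDGE (two statements) -/
theorem c3e_bridge {F : Type*} [Field F] (d : ℕ) (g : Matrix.symplecticGroup (Fin d) F) :
    ∃ G : GL (Fin d ⊕ Fin d) F, G ∈ Cfsg.spGL d F ∧
      (G : Matrix (Fin d ⊕ Fin d) (Fin d ⊕ Fin d) F) = g.1 := by
  have h1 : g.1 * (g⁻¹).1 = 1 := by
    have h := congrArg Subtype.val (mul_inv_cancel g)
    exact h
  have h2 : (g⁻¹).1 * g.1 = 1 := by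
    have h := congrArg Subtype.val (inv_mul_cancel g)
    exact h
  refine ⟨⟨g.1, (g⁻¹).1, h1, h2⟩, ?_, rfl⟩
  intro u v
  exact (Cfsg.Agent.Helper13.mem_symplecticGroup_iff_sympForm g.1).mp g.2 u v

theorem c3e_bridge' {F : Type*} [Field F] (d : ℕ) (G : GL (Fin d ⊕ Fin d) F)
    (hG : G ∈ Cfsg.spGL d F) :
    (G : Matrix (Fin d ⊕ Fin d) (Fin d ⊕ Fin d) F) ∈ Matrix.symplecticGroup (Fin d) F := by
  rw [Cfsg.Agent.Helper13.mem_symplecticGroup_iff_sympForm]
  intro u v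
  exact hG u v

end Cfsg.Agent.Helper39
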