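/-
helper39: CALL S5975 piece EMB.
-/
import Mathlib
import Cfsg.Prelude.Def_GeometricClasses
import Cfsg.Prelude.Def_ClassicalGeometry
import Cfsg.Agent.Helper96.C3SDefs
import Cfsg.Agent.Helper81.C3SPHI
import Cfsg.Agent.Helper81.C3SWLIB
import Cfsg.Agent.Helper94.SpGen
import Cfsg.Agent.Helper13.TIBad
import Cfsg.Agent.Helper59.TIMAXTI
import Cfsg.Agent.Helper11.TIFIX
import Cfsg.Agent.Helper70.TISCAL
import Cfsg.Agent.Helper51.TIORD
import Cfsg.Agent.Helper5.SympCard
import Cfsg.Agent.Helper58.TICW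


set_option autoImplicit false

namespace Cfsg.Agent.Helper39

open Matrix Module


universe u

/-- PIECE EMB -/
theorem c3e_emb {F : Type u} [Field F] [Fintype F] {d : ℕ} (K' : Type u) [Field K'] [Algebra F K']
    [Module K' (Fin d ⊕ Fin d → F)] [IsScalarTower F K' (Fin d ⊕ Fin d → F)] [Finite K']
    (K : Subalgebra F (Matrix (Fin d ⊕ Fin d) (Fin d ⊕ Fin d) F))
    (j : K' → Matrix (Fin d ⊕ Fin d) (Fin d ⊕ Fin d) F)
    (hj : ∀ (c : K') (v : Fin d ⊕ Fin d → F), c • v = j c *ᵥ v)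
    (hK : ∀ x, x ∈ K ↔ ∃ c, j c = x)
    (φ : LinearMap.BilinForm K' (Fin d ⊕ Fin d → F))
    (hφ : ∀ u v, Algebra.trace F K' (φ u v) = Cfsg.sympForm d F u v) (m : ℕ)
    (ρ : Matrix.symplecticGroup (Fin m) K' →
      ((Fin d ⊕ Fin d → F) →ₗ[K'] (Fin d ⊕ Fin d → F)))
    (hinj : Function.Injective ρ) (h1 : ρ 1 = LinearMap.id)
    (hmul : ∀ a b, ρ (a * b) = (ρ a).comp (ρ b))
    (hpres : ∀ a u v, φ (ρ a u) (ρ a v) = φ u v) :
    Nat.card (Matrix.symplecticGroup (Fin m) K') ∣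
      Nat.card ↥(Cfsg.Geo.subalgebraNormalizer K ⊓ Cfsg.spGL d F) := by
  classical
  obtain ⟨f, hf⟩ : ∃ f : Matrix.symplecticGroup (Fin m) K' → Module.End F (Fin d ⊕ Fin d → F),
      ∀ a v, f a v = ρ a v := ⟨fun a => (ρ a).restrictScalars F, fun a v => rfl⟩
  have hf1 : f 1 = 1 := by
    apply LinearMap.ext
    intro v
    rw [hf, h1]
    rfl
  have hfmul : ∀ a b, f (a * b) = f a * f b := by
    intro a b
    apply LinearMap.ext
    intro v
    rw [hf, hmul, Module.End.mul_apply, hf, hf]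
    rfl
  have hfinv1 : ∀ a, f a * f a⁻¹ = 1 := fun a => by rw [← hfmul, mul_inv_cancel, hf1]
  have hfinv2 : ∀ a, f a⁻¹ * f a = 1 := fun a => by rw [← hfmul, inv_mul_cancel, hf1]
  let ψ : Matrix.symplecticGroup (Fin m) K' →* GL (Fin d ⊕ Fin d) F :=
    { toFun := fun a => ⟨LinearMap.toMatrix' (f a), LinearMap.toMatrix' (f a⁻¹),
        by rw [← LinearMap.toMatrix'_mul, hfinv1, LinearMap.toMatrix'_one],
        by rw [← LinearMap.toMatrix'_mul, hfinv2, LinearMap.toMatrix'_one]⟩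
      map_one' := by
        apply Units.ext
        show LinearMap.toMatrix' (f 1) = 1
        rw [hf1, LinearMap.toMatrix'_one]
      map_mul' := fun a b => by
        apply Units.ext
        show LinearMap.toMatrix' (f (a * b)) = LinearMap.toMatrix' (f a) * LinearMap.toMatrix' (f b)
        rw [hfmul, LinearMap.toMatrix'_mul] }
  have hψval : ∀ a, ((ψ a : GL (Fin d ⊕ Fin d) F) : Matrix (Fin d ⊕ Fin d) (Fin d ⊕ Fin d) F) =
      LinearMap.toMatrix' (f a) := fun a => rfl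
  have hψinj : Function.Injective ψ := by
    intro a b hab
    have h := congrArg
      (fun g : GL (Fin d ⊕ Fin d) F => (g : Matrix (Fin d ⊕ Fin d) (Fin d ⊕ Fin d) F)) hab
    simp only [hψval] at h
    have h' := LinearMap.toMatrix'.injective h
    apply hinj
    apply LinearMap.ext
    intro v
    rw [← hf, ← hf, h']
  have hrange : ψ.range ≤ Cfsg.Geo.subalgebraNormalizer K ⊓ Cfsg.spGL d F := by
    rintro _ ⟨a, rfl⟩
    rw [Subgroup.mem_inf]
    constructor
    · rw [Cfsg.Agent.Helper81.C3S.mem_normalizer_iff K' K j hj hK, hψval,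
        Matrix.toLin'_toMatrix']
      exact Cfsg.Agent.Helper98.c3_N_of_lin (f a) (f a⁻¹) (hfinv1 a) (hfinv2 a)
        (fun k v => by rw [hf, hf, map_smul])
    · rw [Cfsg.Agent.Helper94.mem_spGL_iff]
      intro u v
      rw [hψval, LinearMap.toMatrix'_mulVec, LinearMap.toMatrix'_mulVec, hf, hf, ← hφ, hpres, hφ]
  have hcard : Nat.card (Matrix.symplecticGroup (Fin m) K') = Nat.card ψ.range :=
    Nat.card_congr (MonoidHom.ofInjective hψinj).toEquiv
  rw [hcard]
  exact Subgroup.card_dvd_of_le hrange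

end Cfsg.Agent.Helper39
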