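/-
helper39: CALL S5975 piece KND.
-/
import Mathlib
import Cfsg.Prelude.Def_GeometricClasses
import Cfsg.Prelude.Def_ClassicalGeometry
import Cfsg.Agent.Helper96.C3SDefs
import Cfsg.Agent.Helper81.C3SPHI
import Cfsg.Agent.Helper81.C3SWLIB
import Cfsg.Agent.Helper94.SpGen
import Cfsg.Agent.Helper13.TIBad
import Cfsg.Agent.Helper59.TIMAXTI
import Cfsg.Agent.Helper11.TIFIX
import Cfsg.Agent.Helper70.TISCAL
import Cfsg.Agent.Helper51.TIORD
import Cfsg.Agent.Helper5.SympCard
import Cfsg.Agent.Helper58.TICW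


set_option autoImplicit false

namespace Cfsg.Agent.Helper39

open Matrix Module


section abs

variable {F : Type*} [Field F] {K' : Type*} [Field K'] [Algebra F K'] {V : Type*}
  [AddCommGroup V] [Module F V] [Module K' V] [IsScalarTower F K' V] [FiniteDimensional F V]

/-- PIECE KND -/
theorem c3e_knd [Finite F] [Finite K'] (B : LinearMap.BilinForm F V)
    (hnd : ∀ u, (∀ v, B u v = 0) → u = 0)
    (hsa : ∀ (c : K') (u v : V), B (c • u) v = B u (c • v))
    (hka : ∀ (c : K') (v : V), B (c • v) v = 0)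
    (W : Submodule F V) (hW : ∀ (c : K') (w : V), w ∈ W → c • w ∈ W)
    (hWnd : ∀ w ∈ W, (∀ w' ∈ W, B w w' = 0) → w = 0) :
    2 * Module.finrank F K' ∣ Module.finrank F W := by
  obtain ⟨φ, hφ, hφalt, -⟩ := Cfsg.Agent.Helper81.C3S.exists_phi (K := K') B hsa hka hnd
  haveI : Module.Finite F K' := Module.Finite.of_finite
  haveI : Module.Finite K' V := Module.Finite.of_restrictScalars_finite F K' V
  let W' : Submodule K' V :=
    { carrier := W
      add_mem' := fun ha hb => W.add_mem ha hb
      zero_mem' := W.zero_mem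
      smul_mem' := fun c w hw => hW c w hw }
  have hmem : ∀ x, x ∈ W' ↔ x ∈ W := fun x => Iff.rfl
  have hC : Cfsg.Agent.Helper13.TIsp.NondegOn φ W' := by
    intro w hw h
    apply hWnd w hw
    intro w' hw'
    rw [← hφ, h w' hw', map_zero]
  obtain ⟨heven, -⟩ := Cfsg.Agent.Helper59.TI5955.ti_lag φ hφalt W' hC
  let e : W ≃ₗ[F] W' :=
    { toFun := fun x => ⟨x.1, x.2⟩
      invFun := fun x => ⟨x.1, x.2⟩
      map_add' := fun _ _ => rfl
      map_smul' := fun _ _ => rfl
      left_inv := fun _ => rfl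
      right_inv := fun _ => rfl }
  have h1 : Module.finrank F W = Module.finrank F W' := e.finrank_eq
  have h2 : Module.finrank F K' * Module.finrank K' W' = Module.finrank F W' :=
    Module.finrank_mul_finrank F K' W'
  obtain ⟨t, ht⟩ := heven
  rw [h1, ← h2, ht]
  exact ⟨t, by ring⟩

end abs

end Cfsg.Agent.Helper39
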