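/-
helper39: CALL S5975 piece RHO.
-/
import Mathlib
import Cfsg.Prelude.Def_GeometricClasses
import Cfsg.Prelude.Def_ClassicalGeometry
import Cfsg.Agent.Helper96.C3SDefs
import Cfsg.Agent.Helper81.C3SPHI
import Cfsg.Agent.Helper81.C3SWLIB
import Cfsg.Agent.Helper94.SpGen
import Cfsg.Agent.Helper13.TIBad
import Cfsg.Agent.Helper59.TIMAXTI
import Cfsg.Agent.Helper11.TIFIX
import Cfsg.Agent.Helper70.TISCAL
import Cfsg.Agent.Helper51.TIORD
import Cfsg.Agent.Helper5.SympCard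
import Cfsg.Agent.Helper58.TICW


set_option autoImplicit false

namespace Cfsg.Agent.Helper39

open Matrix Module


/-- PIECE RHO -/
theorem c3e_rho {K' : Type*} [Field K'] {V : Type*} [AddCommGroup V] [Module K' V]
    [FiniteDimensional K' V] (φ : LinearMap.BilinForm K' V) (halt : ∀ v, φ v v = 0)
    (hnd : ∀ u, (∀ v, φ u v = 0) → u = 0) (m : ℕ) (hm : Module.finrank K' V = 2 * m) :
    ∃ ρ : Matrix.symplecticGroup (Fin m) K' → (V →ₗ[K'] V), Function.Injective ρ ∧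
      ρ 1 = LinearMap.id ∧ (∀ a b, ρ (a * b) = (ρ a).comp (ρ b)) ∧
      ∀ a u v, φ (ρ a u) (ρ a v) = φ u v := by
  obtain ⟨Φ, hΦ⟩ := Cfsg.Agent.Helper42.SpForm.exists_equiv_std m V φ halt hnd hm
  obtain ⟨ρ, hval⟩ : ∃ ρ : Matrix.symplecticGroup (Fin m) K' → (V →ₗ[K'] V),
      ∀ (a : Matrix.symplecticGroup (Fin m) K') (v : V),
        ρ a v = Φ.symm (Cfsg.Agent.Helper42.SpGroup.toEnd a (Φ v)) :=
    ⟨fun a => (Φ.symm : (Fin m ⊕ Fin m → K') →ₗ[K'] V).comp
      ((Cfsg.Agent.Helper42.SpGroup.toEnd a).comp (Φ : V →ₗ[K'] (Fin m ⊕ Fin m → K'))),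
      fun a v => rfl⟩
  refine ⟨ρ, ?_, ?_, ?_, ?_⟩
  · intro a b hab
    apply Cfsg.Agent.Helper42.SpGroup.toEnd_injective
    apply LinearMap.ext
    intro x
    have h := congrArg (fun f : V →ₗ[K'] V => Φ (f (Φ.symm x))) hab
    simp only [hval, LinearEquiv.apply_symm_apply] at h
    exact h
  · apply LinearMap.ext
    intro v
    rw [hval, Cfsg.Agent.Helper42.SpGroup.toEnd_one, Module.End.one_apply,
      LinearEquiv.symm_apply_apply, LinearMap.id_apply]
  · intro a b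
    apply LinearMap.ext
    intro v
    rw [LinearMap.comp_apply, hval, hval, hval, Cfsg.Agent.Helper42.SpGroup.toEnd_mul,
      Module.End.mul_apply, LinearEquiv.apply_symm_apply]
  · intro a u v
    rw [hval, hval, ← hΦ, LinearEquiv.apply_symm_apply, LinearEquiv.apply_symm_apply,
      Cfsg.Agent.Helper42.SpGroup.preserves_toEnd a (Φ u) (Φ v), hΦ]

end Cfsg.Agent.Helper39
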