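-- helper39: piece D2 of CALL S1083 (helper64): the stabiliser of `e1` in `G5` moves a singular
-- vector with nonzero `f1`-coordinate to a multiple of `f1`.
import Cfsg.Agent.Helper64.B2Defs

set_option autoImplicit false
open Matrix Cfsg Cfsg.Lie

namespace Cfsg.Agent.Helper39
open Cfsg.Agent.Helper64.B2

variable {F : Type*} [Field F]

theorem b2_pair_trans (v : Fin 5 → F) (hQ : Q5 v = 0) (hv : v 2 ≠ 0) :
    ∃ y ∈ G5 F, (y : Matrix (Fin 5) (Fin 5) F) *ᵥ ![0, 1, 0, 0, 0] = ![0, 1, 0, 0, 0] ∧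
      (y : Matrix (Fin 5) (Fin 5) F) *ᵥ v = ![0, 0, v 2, 0, 0] := by
  have hQ' : v 0 ^ 2 + v 1 * v 2 + v 3 * v 4 = 0 := hQ
  refine ⟨xg 6 (-v 0 / v 2) * xg 7 (-v 3 / v 2) * xg 4 (-v 4 / v 2),
    Subgroup.mul_mem _ (Subgroup.mul_mem _ (xg_mem_G5 _ _) (xg_mem_G5 _ _)) (xg_mem_G5 _ _),
    ?_, ?_⟩
  · simp only [Units.val_mul, xg_val, ← Matrix.mulVec_mulVec, xm_mulVec_4, xm_mulVec_7,
      xm_mulVec_6, Matrix.cons_val]
    funext i
    fin_cases i <;> simp
  · simp only [Units.val_mul, xg_val, ← Matrix.mulVec_mulVec, xm_mulVec_4, xm_mulVec_7,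
      xm_mulVec_6, Matrix.cons_val]
    funext i
    fin_cases i
    · simp
      field_simp
      ring
    · simp
      field_simp
      linear_combination hQ'
    · simp
    · simp
      field_simp
      ring
    · simp
      field_simp
      ring

end Cfsg.Agent.Helper39
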