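-- helper39: piece D3 of CALL S1083 (helper64): an isometry fixing `e1` and `f1` can be moved by
-- `G5` to one that also maps `e2 ↦ c • e2`, `f2 ↦ c⁻¹ • f2`.
import Cfsg.Agent.Helper64.B2Defs

set_option autoImplicit false
open Matrix Cfsg Cfsg.Lie

namespace Cfsg.Agent.Helper39
open Cfsg.Agent.Helper64.B2

variable {F : Type*} [Field F]

theorem b2d3_step1 (u : Fin 5 → F) (h1 : u 1 = 0) (h2 : u 2 = 0) (hQ : Q5 u = 0) (hu : u ≠ 0) :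
    ∃ x ∈ G5 F, ∃ c : F, c ≠ 0 ∧
      (x : Matrix (Fin 5) (Fin 5) F) *ᵥ ![0, 1, 0, 0, 0] = ![0, 1, 0, 0, 0] ∧
      (x : Matrix (Fin 5) (Fin 5) F) *ᵥ ![0, 0, 1, 0, 0] = ![0, 0, 1, 0, 0] ∧
      (x : Matrix (Fin 5) (Fin 5) F) *ᵥ u = ![0, 0, 0, c, 0] := by
  have hQ' : u 0 ^ 2 + u 1 * u 2 + u 3 * u 4 = 0 := hQ
  rw [h1, zero_mul, add_zero] at hQ'
  by_cases h3 : u 3 = 0
  · have h0 : u 0 = 0 := by
      rw [h3, zero_mul, add_zero] at hQ'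
      exact (pow_eq_zero_iff two_ne_zero).mp hQ'
    have h4 : u 4 ≠ 0 := by
      intro h4
      apply hu
      funext i
      fin_cases i <;> simp [h0, h1, h2, h3, h4]
    refine ⟨xg 2 (-1) * xg 5 1, Subgroup.mul_mem _ (xg_mem_G5 _ _) (xg_mem_G5 _ _), -u 4,
      neg_ne_zero.mpr h4, ?_, ?_, ?_⟩
    · simp only [Units.val_mul, xg_val, ← Matrix.mulVec_mulVec, xm_mulVec_2, xm_mulVec_5,
        Matrix.cons_val]
      funext i
      fin_cases i <;> simp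
    · simp only [Units.val_mul, xg_val, ← Matrix.mulVec_mulVec, xm_mulVec_2, xm_mulVec_5,
        Matrix.cons_val]
      funext i
      fin_cases i <;> simp
    · simp only [Units.val_mul, xg_val, ← Matrix.mulVec_mulVec, xm_mulVec_2, xm_mulVec_5,
        Matrix.cons_val]
      funext i
      fin_cases i <;> simp [h0, h1, h2, h3] <;> ring
  · refine ⟨xg 2 (-u 0 / u 3), xg_mem_G5 _ _, u 3, h3, ?_, ?_, ?_⟩
    · simp only [xg_val, xm_mulVec_2, Matrix.cons_val]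
      funext i
      fin_cases i <;> simp
    · simp only [xg_val, xm_mulVec_2, Matrix.cons_val]
      funext i
      fin_cases i <;> simp
    · simp only [xg_val, xm_mulVec_2, Matrix.cons_val]
      funext i
      fin_cases i
      · simp
        field_simp
        ring
      · simp [h1]
      · simp [h2]
      · simp
      · simp
        field_simp
        linear_combination hQ'

theorem b2d3_step2 (v : Fin 5 → F) (c : F) (hc : c ≠ 0) (h1 : v 1 = 0) (h2 : v 2 = 0)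
    (h4 : v 4 = c⁻¹) (hQ : Q5 v = 0) :
    ∃ y ∈ G5 F,
      (y : Matrix (Fin 5) (Fin 5) F) *ᵥ ![0, 1, 0, 0, 0] = ![0, 1, 0, 0, 0] ∧
      (y : Matrix (Fin 5) (Fin 5) F) *ᵥ ![0, 0, 1, 0, 0] = ![0, 0, 1, 0, 0] ∧
      (y : Matrix (Fin 5) (Fin 5) F) *ᵥ ![0, 0, 0, c, 0] = ![0, 0, 0, c, 0] ∧
      (y : Matrix (Fin 5) (Fin 5) F) *ᵥ v = ![0, 0, 0, 0, c⁻¹] := by
  have hQ' : v 0 ^ 2 + v 1 * v 2 + v 3 * v 4 = 0 := hQ
  rw [h1, zero_mul, add_zero, h4] at hQ'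
  refine ⟨xg 5 (v 0 * c), xg_mem_G5 _ _, ?_, ?_, ?_, ?_⟩
  · simp only [xg_val, xm_mulVec_5, Matrix.cons_val]
    funext i
    fin_cases i <;> simp
  · simp only [xg_val, xm_mulVec_5, Matrix.cons_val]
    funext i
    fin_cases i <;> simp
  · simp only [xg_val, xm_mulVec_5, Matrix.cons_val]
    funext i
    fin_cases i <;> simp
  · simp only [xg_val, xm_mulVec_5, Matrix.cons_val]
    funext i
    fin_cases i
    · simp [h4]
      field_simp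
      ring
    · simp [h1]
    · simp [h2]
    · simp [h4]
      field_simp
      field_simp at hQ'
      linear_combination hQ'
    · simp [h4]

theorem b2_three_dim (g : GL (Fin 5) F) (hg : g ∈ O5 F)
    (h1 : (g : Matrix (Fin 5) (Fin 5) F) *ᵥ ![0, 1, 0, 0, 0] = ![0, 1, 0, 0, 0])
    (h2 : (g : Matrix (Fin 5) (Fin 5) F) *ᵥ ![0, 0, 1, 0, 0] = ![0, 0, 1, 0, 0]) :
    ∃ x ∈ G5 F, ∃ c : F, c ≠ 0 ∧
      ((x * g : GL (Fin 5) F) : Matrix (Fin 5) (Fin 5) F) *ᵥ ![0, 1, 0, 0, 0] = ![0, 1, 0, 0, 0] ∧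
      ((x * g : GL (Fin 5) F) : Matrix (Fin 5) (Fin 5) F) *ᵥ ![0, 0, 1, 0, 0] = ![0, 0, 1, 0, 0] ∧
      ((x * g : GL (Fin 5) F) : Matrix (Fin 5) (Fin 5) F) *ᵥ ![0, 0, 0, 1, 0] = ![0, 0, 0, c, 0] ∧
      ((x * g : GL (Fin 5) F) : Matrix (Fin 5) (Fin 5) F) *ᵥ ![0, 0, 0, 0, 1] = ![0, 0, 0, 0, c⁻¹] := by
  -- the image `u` of `e2`
  have hu1 : ((g : Matrix (Fin 5) (Fin 5) F) *ᵥ ![0, 0, 0, 1, 0]) 1 = 0 := by
    have h := O5_B5 g hg ![0, 0, 0, 1, 0] ![0, 0, 1, 0, 0]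
    rw [h2] at h
    simpa [B5] using h
  have hu2 : ((g : Matrix (Fin 5) (Fin 5) F) *ᵥ ![0, 0, 0, 1, 0]) 2 = 0 := by
    have h := O5_B5 g hg ![0, 0, 0, 1, 0] ![0, 1, 0, 0, 0]
    rw [h1] at h
    simpa [B5] using h
  have huQ : Q5 ((g : Matrix (Fin 5) (Fin 5) F) *ᵥ ![0, 0, 0, 1, 0]) = 0 := by
    rw [hg]
    simp [Q5]
  have hu0 : (g : Matrix (Fin 5) (Fin 5) F) *ᵥ ![0, 0, 0, 1, 0] ≠ 0 := by
    intro h0
    have h := O5_B5 g hg ![0, 0, 0, 1, 0] ![0, 0, 0, 0, 1]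
    rw [h0] at h
    simp [B5] at h
  obtain ⟨x1, hx1, c, hc, hx1e, hx1f, hx1u⟩ := b2d3_step1 _ hu1 hu2 huQ hu0
  -- the element `g' = x1 * g`
  have hg' : x1 * g ∈ O5 F := Subgroup.mul_mem _ (G5_le_O5 hx1) hg
  have hg'1 : ((x1 * g : GL (Fin 5) F) : Matrix (Fin 5) (Fin 5) F) *ᵥ ![0, 1, 0, 0, 0]
      = ![0, 1, 0, 0, 0] := by
    rw [Units.val_mul, ← Matrix.mulVec_mulVec, h1, hx1e]
  have hg'2 : ((x1 * g : GL (Fin 5) F) : Matrix (Fin 5) (Fin 5) F) *ᵥ ![0, 0, 1, 0, 0]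
      = ![0, 0, 1, 0, 0] := by
    rw [Units.val_mul, ← Matrix.mulVec_mulVec, h2, hx1f]
  have hg'3 : ((x1 * g : GL (Fin 5) F) : Matrix (Fin 5) (Fin 5) F) *ᵥ ![0, 0, 0, 1, 0]
      = ![0, 0, 0, c, 0] := by
    rw [Units.val_mul, ← Matrix.mulVec_mulVec, hx1u]
  have hv1 : (((x1 * g : GL (Fin 5) F) : Matrix (Fin 5) (Fin 5) F) *ᵥ ![0, 0, 0, 0, 1]) 1 = 0 := by
    have h := O5_B5 (x1 * g) hg' ![0, 0, 0, 0, 1] ![0, 0, 1, 0, 0]
    rw [hg'2] at h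
    simpa [B5] using h
  have hv2 : (((x1 * g : GL (Fin 5) F) : Matrix (Fin 5) (Fin 5) F) *ᵥ ![0, 0, 0, 0, 1]) 2 = 0 := by
    have h := O5_B5 (x1 * g) hg' ![0, 0, 0, 0, 1] ![0, 1, 0, 0, 0]
    rw [hg'1] at h
    simpa [B5] using h
  have hv4 : (((x1 * g : GL (Fin 5) F) : Matrix (Fin 5) (Fin 5) F) *ᵥ ![0, 0, 0, 0, 1]) 4
      = c⁻¹ := by
    have h := O5_B5 (x1 * g) hg' ![0, 0, 0, 0, 1] ![0, 0, 0, 1, 0]
    rw [hg'3] at h
    have h' : (((x1 * g : GL (Fin 5) F) : Matrix (Fin 5) (Fin 5) F) *ᵥ ![0, 0, 0, 0, 1]) 4 * c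
        = 1 := by
      simpa [B5] using h
    exact eq_inv_of_mul_eq_one_left h'
  have hvQ : Q5 (((x1 * g : GL (Fin 5) F) : Matrix (Fin 5) (Fin 5) F) *ᵥ ![0, 0, 0, 0, 1]) = 0 := by
    rw [hg']
    simp [Q5]
  obtain ⟨y, hy, hye, hyf, hyc, hyv⟩ := b2d3_step2 _ c hc hv1 hv2 hv4 hvQ
  refine ⟨y * x1, Subgroup.mul_mem _ hy hx1, c, hc, ?_, ?_, ?_, ?_⟩
  · rw [mul_assoc, Units.val_mul, ← Matrix.mulVec_mulVec, hg'1, hye]
  · rw [mul_assoc, Units.val_mul, ← Matrix.mulVec_mulVec, hg'2, hyf]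
  · rw [mul_assoc, Units.val_mul, ← Matrix.mulVec_mulVec, hg'3, hyc]
  · rw [mul_assoc, Units.val_mul, ← Matrix.mulVec_mulVec, hyv]

end Cfsg.Agent.Helper39
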