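-- helper39: piece H of CALL S1083 (helper64): the elements `h_r(t)` of the explicit `B_2` root
-- datum on `F^5` are diagonal, hence multiplicative in `t`.
import Cfsg.Agent.Helper64.B2Defs

set_option autoImplicit false
open Matrix Cfsg Cfsg.Lie

namespace Cfsg.Agent.Helper39
open Cfsg.Agent.Helper64.B2

variable {F : Type*} [Field F]

theorem b2h_hx0 (t : F) (ht : t ≠ 0) :
    hx 0 t = dg 1 (Units.mk0 t ht)⁻¹ (Units.mk0 t ht)⁻¹ := by
  apply Units.ext
  apply Matrix.mulVec_injective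
  funext v
  rw [dg_mulVec]
  simp only [hx, Units.val_mul, xg_val, ← Matrix.mulVec_mulVec, Nat.reduceSub, xm_mulVec_0,
    xm_mulVec_7, Matrix.cons_val]
  funext i
  fin_cases i <;> simp <;> field_simp <;> ring

theorem b2h_hx1 (t : F) (ht : t ≠ 0) :
    hx 1 t = dg 1 (Units.mk0 t ht ^ 2)⁻¹ 1 := by
  apply Units.ext
  apply Matrix.mulVec_injective
  funext v
  rw [dg_mulVec]
  simp only [hx, Units.val_mul, xg_val, ← Matrix.mulVec_mulVec, Nat.reduceSub, xm_mulVec_1,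
    xm_mulVec_6, Matrix.cons_val]
  funext i
  fin_cases i <;> simp <;> field_simp <;> ring

theorem b2h_hx2 (t : F) (ht : t ≠ 0) :
    hx 2 t = dg 1 1 (Units.mk0 t ht ^ 2)⁻¹ := by
  apply Units.ext
  apply Matrix.mulVec_injective
  funext v
  rw [dg_mulVec]
  simp only [hx, Units.val_mul, xg_val, ← Matrix.mulVec_mulVec, Nat.reduceSub, xm_mulVec_2,
    xm_mulVec_5, Matrix.cons_val]
  funext i
  fin_cases i <;> simp <;> field_simp <;> ring

theorem b2h_hx3 (t : F) (ht : t ≠ 0) :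
    hx 3 t = dg 1 (Units.mk0 t ht)⁻¹ (Units.mk0 t ht) := by
  apply Units.ext
  apply Matrix.mulVec_injective
  funext v
  rw [dg_mulVec]
  simp only [hx, Units.val_mul, xg_val, ← Matrix.mulVec_mulVec, Nat.reduceSub, xm_mulVec_3,
    xm_mulVec_4, Matrix.cons_val]
  funext i
  fin_cases i <;> simp <;> field_simp <;> ring

theorem b2h_hx4 (t : F) (ht : t ≠ 0) :
    hx 4 t = dg 1 (Units.mk0 t ht) (Units.mk0 t ht)⁻¹ := by
  apply Units.ext
  apply Matrix.mulVec_injective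
  funext v
  rw [dg_mulVec]
  simp only [hx, Units.val_mul, xg_val, ← Matrix.mulVec_mulVec, Nat.reduceSub, xm_mulVec_4,
    xm_mulVec_3, Matrix.cons_val]
  funext i
  fin_cases i <;> simp <;> field_simp <;> ring

theorem b2h_hx5 (t : F) (ht : t ≠ 0) :
    hx 5 t = dg 1 1 (Units.mk0 t ht ^ 2) := by
  apply Units.ext
  apply Matrix.mulVec_injective
  funext v
  rw [dg_mulVec]
  simp only [hx, Units.val_mul, xg_val, ← Matrix.mulVec_mulVec, Nat.reduceSub, xm_mulVec_5,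
    xm_mulVec_2, Matrix.cons_val]
  funext i
  fin_cases i <;> simp <;> field_simp <;> ring

theorem b2h_hx6 (t : F) (ht : t ≠ 0) :
    hx 6 t = dg 1 (Units.mk0 t ht ^ 2) 1 := by
  apply Units.ext
  apply Matrix.mulVec_injective
  funext v
  rw [dg_mulVec]
  simp only [hx, Units.val_mul, xg_val, ← Matrix.mulVec_mulVec, Nat.reduceSub, xm_mulVec_6,
    xm_mulVec_1, Matrix.cons_val]
  funext i
  fin_cases i <;> simp <;> field_simp <;> ring

theorem b2h_hx7 (t : F) (ht : t ≠ 0) :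
    hx 7 t = dg 1 (Units.mk0 t ht) (Units.mk0 t ht) := by
  apply Units.ext
  apply Matrix.mulVec_injective
  funext v
  rw [dg_mulVec]
  simp only [hx, Units.val_mul, xg_val, ← Matrix.mulVec_mulVec, Nat.reduceSub, xm_mulVec_7,
    xm_mulVec_0, Matrix.cons_val]
  funext i
  fin_cases i <;> simp <;> field_simp <;> ring

theorem b2_hx_mul (r : ℕ) (hr : r < 8) (t u : F) (ht : t ≠ 0) (hu : u ≠ 0) :
    hx r t * hx r u = hx r (t * u) := by
  have htu : t * u ≠ 0 := mul_ne_zero ht hu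
  have hmk : Units.mk0 (t * u) htu = Units.mk0 t ht * Units.mk0 u hu := Units.mk0_mul t u htu
  interval_cases r
  · rw [b2h_hx0 t ht, b2h_hx0 u hu, b2h_hx0 (t * u) htu, dg_mul, hmk, mul_inv, one_mul]
  · rw [b2h_hx1 t ht, b2h_hx1 u hu, b2h_hx1 (t * u) htu, dg_mul, hmk, mul_pow, mul_inv, one_mul]
  · rw [b2h_hx2 t ht, b2h_hx2 u hu, b2h_hx2 (t * u) htu, dg_mul, hmk, mul_pow, mul_inv, one_mul]
  · rw [b2h_hx3 t ht, b2h_hx3 u hu, b2h_hx3 (t * u) htu, dg_mul, hmk, mul_inv, one_mul]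
  · rw [b2h_hx4 t ht, b2h_hx4 u hu, b2h_hx4 (t * u) htu, dg_mul, hmk, mul_inv, one_mul]
  · rw [b2h_hx5 t ht, b2h_hx5 u hu, b2h_hx5 (t * u) htu, dg_mul, hmk, mul_pow, one_mul]
  · rw [b2h_hx6 t ht, b2h_hx6 u hu, b2h_hx6 (t * u) htu, dg_mul, hmk, mul_pow, one_mul]
  · rw [b2h_hx7 t ht, b2h_hx7 u hu, b2h_hx7 (t * u) htu, dg_mul, hmk, one_mul]

theorem b2_hx_three (c : Fˣ) : hx 3 (c : F) = dg 1 c⁻¹ c := by
  rw [b2h_hx3 (c : F) c.ne_zero, Units.mk0_val]

end Cfsg.Agent.Helper39
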