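/-
helper39: CALL S4503 piece KEYY: a Galois conjugate of the exceptional character of the principal
block is a constituent of `χ₁ χ̄₂`.
-/
import Mathlib
import Cfsg.Agent.Helper15.B42Defs
import Cfsg.Agent.Helper77.D1Final
import Cfsg.Agent.Helper29.D1IL
import Cfsg.Agent.Helper79.S4441Setup
import Cfsg.Agent.Helper79.Basic
import Cfsg.Agent.Helper81.CharBasic
import Cfsg.Agent.Helper3.Induced
import Cfsg.Agent.Helper3.Frobenius
import Cfsg.Agent.Helper65.D1IF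

universe u
set_option autoImplicit false
open Cfsg Cfsg.Agent.Helper77 Cfsg.Agent.Helper15
open scoped ComplexConjugate

namespace Cfsg.Agent.Helper39

variable {G : Type u} [Group G] [Finite G]

/-- The sum of the nontrivial `p`-th roots of unity, indexed by the units of `ZMod p`. -/
theorem b42y_units_sum (p : ℕ) [Fact p.Prime] (ζ : ℂ) (hζ : IsPrimitiveRoot ζ p) (a : ZMod p)
    (ha : a ≠ 0) : ∑ u : (ZMod p)ˣ, ζ ^ (((u : (ZMod p)ˣ) : ZMod p) * a).val = -1 := by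
  classical
  have h1 := d1f_sum p ζ hζ a
  rw [if_neg ha] at h1
  have h2 : ∑ u : (ZMod p)ˣ, ζ ^ (((u : (ZMod p)ˣ) : ZMod p) * a).val
      = ∑ i ∈ (Finset.univ : Finset (ZMod p)).erase 0, ζ ^ (i * a).val := by
    have himg : (Finset.univ : Finset (ZMod p)).erase 0
        = (Finset.univ : Finset (ZMod p)ˣ).image (fun u : (ZMod p)ˣ => (u : ZMod p)) := by
      ext i
      simp only [Finset.mem_erase, Finset.mem_univ, and_true, Finset.mem_image, true_and]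
      constructor
      · intro hi
        exact ⟨Units.mk0 i hi, rfl⟩
      · rintro ⟨u, rfl⟩
        exact u.ne_zero
    rw [himg, Finset.sum_image]
    intro u _ w _ huw
    exact Units.ext huw
  rw [h2]
  have h3 := Finset.add_sum_erase (Finset.univ : Finset (ZMod p))
    (fun i => ζ ^ (i * a).val) (Finset.mem_univ 0)
  simp only [zero_mul, ZMod.val_zero, pow_zero] at h3
  rw [h1] at h3
  linear_combination h3

/-- KEYY -/
theorem b42_key_Y (p : ℕ) [Fact p.Prime] [Fintype G] (x : G) (K : Subgroup G) (h : D1Hyp p x K)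
    (hps : ∀ g : G, p ∣ orderOf g →
      ∃ (y : G) (b : ℕ) (k : G), ¬ p ∣ b ∧ k ∈ K ∧ y * g * y⁻¹ = x ^ b * k)
    (F : Subgroup (ZMod p)ˣ) (hF : (F : Set (ZMod p)ˣ) = normUnits p x)
    (χ₁ χ₂ : Cfsg.IrrCharacter G)
    (hreg : ∀ g : G, ¬ p ∣ orderOf g → (χ₂ : G → ℂ) g = (χ₁ : G → ℂ) g) (hne : χ₁ ≠ χ₂)
    (ψ₀ : Cfsg.IrrCharacter G) (l : ZMod p) (hl : l ≠ 0)
    (hexc : ∀ b : ℕ, ¬ p ∣ b → ∀ k ∈ K, (ψ₀ : G → ℂ) (x ^ b * k)
      = ∑ᶠ s ∈ normUnits p x, d1zeta p ^ ((b : ZMod p) * ((s : (ZMod p)ˣ) : ZMod p) * l).val) :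
    ∃ (ψ' : Cfsg.IrrCharacter G) (l' : ZMod p), l' ≠ 0 ∧
      Cfsg.classInner (b42Prod (χ₁ : G → ℂ) (χ₂ : G → ℂ)) (ψ' : G → ℂ) ≠ 0 ∧
      ∀ b : ℕ, ¬ p ∣ b → (ψ' : G → ℂ) (x ^ b)
        = ∑ᶠ s ∈ normUnits p x,
            d1zeta p ^ ((b : ZMod p) * ((s : (ZMod p)ˣ) : ZMod p) * l').val := by
  classical
  have hp : p.Prime := Fact.out
  have hζ := d1zeta_prim p
  -- the Galois automorphisms
  have hpG : p ∣ Nat.card G := by rw [← h.hx]; exact orderOf_dvd_natCard x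
  obtain ⟨M₀, hM₀⟩ := hpG
  have hM₀p : ¬ p ∣ M₀ := by
    rintro ⟨t, rfl⟩
    apply h.hsq
    rw [hM₀]; exact ⟨t, by ring⟩
  have hGM : Nat.card G ∣ p * M₀ := by rw [hM₀]
  obtain ⟨-, hgal, -⟩ := Cfsg.Agent.Helper65.d1_inertial p x K h M₀ hM₀p hGM
  choose τ hτfix hτζ hτχ using hgal
  -- the finsum over `normUnits` as a finite sum
  set FS : Finset (ZMod p)ˣ := Finset.univ.filter (· ∈ F) with hFS
  have hfin : ∀ g : (ZMod p)ˣ → ℂ, ∑ᶠ s ∈ normUnits p x, g s = ∑ s ∈ FS, g s := by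
    intro g
    rw [← hF, finsum_mem_eq_finite_toFinset_sum g (Set.toFinite _)]
    apply Finset.sum_congr _ (fun _ _ => rfl)
    ext s
    simp [hFS]
  have hFS1 : 0 < FS.card := Finset.card_pos.mpr ⟨1, by simp [hFS, F.one_mem]⟩
  -- values of the Galois conjugates
  have hval : ∀ (u : (ZMod p)ˣ) (b : ℕ), ¬ p ∣ b → ∀ k ∈ K,
      (Cfsg.Agent.Helper79.galIrr (τ u) ψ₀ : G → ℂ) (x ^ b * k)
        = ∑ s ∈ FS, d1zeta p ^ (((u : (ZMod p)ˣ) : ZMod p) *
            ((b : ZMod p) * ((s : (ZMod p)ˣ) : ZMod p) * l)).val := by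
    intro u b hb k hk
    rw [Cfsg.Agent.Helper79.galIrr_apply]
    have h1 := hτχ u ψ₀ b ⟨k, hk⟩
    rw [h1]
    have hb' : ¬ p ∣ b * ((u : (ZMod p)ˣ) : ZMod p).val := by
      intro hd
      rcases (Nat.Prime.dvd_mul hp).mp hd with hd | hd
      · exact hb hd
      · exact d1m_not_dvd_val ((u : (ZMod p)ˣ) : ZMod p) u.ne_zero hd
    rw [hexc _ hb' k hk, hfin]
    apply Finset.sum_congr rfl
    intro s _
    congr 2
    rw [Nat.cast_mul, ZMod.natCast_zmod_val]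
    ring
  -- the class function `Φ`
  let Φ : G → ℂ := fun g => (FS.card : ℂ)
    + ∑ u : (ZMod p)ˣ, (Cfsg.Agent.Helper79.galIrr (τ u) ψ₀ : G → ℂ) g
  have hΦ0 : ∀ (b : ℕ), ¬ p ∣ b → ∀ k ∈ K, Φ (x ^ b * k) = 0 := by
    intro b hb k hk
    show (FS.card : ℂ)
      + ∑ u : (ZMod p)ˣ, (Cfsg.Agent.Helper79.galIrr (τ u) ψ₀ : G → ℂ) (x ^ b * k) = 0
    rw [Finset.sum_congr rfl (fun u _ => hval u b hb k hk), Finset.sum_comm]
    have h2 : ∀ s ∈ FS, ∑ u : (ZMod p)ˣ, d1zeta p ^ (((u : (ZMod p)ˣ) : ZMod p) *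
        ((b : ZMod p) * ((s : (ZMod p)ˣ) : ZMod p) * l)).val = -1 := by
      intro s _
      apply b42y_units_sum p _ hζ
      have hb0 : (b : ZMod p) ≠ 0 := by
        intro h0
        exact hb ((ZMod.natCast_eq_zero_iff _ _).mp h0)
      exact mul_ne_zero (mul_ne_zero hb0 s.ne_zero) hl
    rw [Finset.sum_congr rfl h2, Finset.sum_const, nsmul_eq_mul]
    ring
  have hΦcl : ∀ g y : G, Φ (y * g * y⁻¹) = Φ g := by
    intro g y
    show (FS.card : ℂ)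
        + ∑ u : (ZMod p)ˣ, (Cfsg.Agent.Helper79.galIrr (τ u) ψ₀ : G → ℂ) (y * g * y⁻¹)
      = (FS.card : ℂ) + ∑ u : (ZMod p)ˣ, (Cfsg.Agent.Helper79.galIrr (τ u) ψ₀ : G → ℂ) g
    congr 1
    apply Finset.sum_congr rfl
    intro u _
    exact Cfsg.Agent.Helper79.isCharacter_conj_eq
      (Cfsg.Agent.Helper79.isCharacter_of_irr (Cfsg.Agent.Helper79.galIrr (τ u) ψ₀).2) g y
  have hΦsing : ∀ g : G, p ∣ orderOf g → Φ g = 0 := by
    intro g hg
    obtain ⟨y, b, k, hb, hk, hy⟩ := hps g hg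
    rw [← hΦcl g y, hy]
    exact hΦ0 b hb k hk
  -- the key equality of inner products
  have hkey : Cfsg.classInner (b42Prod (χ₁ : G → ℂ) (χ₁ : G → ℂ)) Φ
      = Cfsg.classInner (b42Prod (χ₁ : G → ℂ) (χ₂ : G → ℂ)) Φ := by
    unfold Cfsg.classInner
    congr 1
    apply Finset.sum_congr rfl
    intro g _
    by_cases hg : p ∣ orderOf g
    · rw [hΦsing g hg, map_zero, mul_zero, mul_zero]
    · unfold b42Prod
      rw [hreg g hg]
  have hexp : ∀ α : G → ℂ, Cfsg.classInner α Φ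
      = (FS.card : ℂ) * Cfsg.classInner α (fun _ => (1 : ℂ))
        + ∑ u : (ZMod p)ˣ, Cfsg.classInner α (Cfsg.Agent.Helper79.galIrr (τ u) ψ₀ : G → ℂ) := by
    intro α
    unfold Cfsg.classInner
    have e1 : ∀ g : G, α g * conj (Φ g) = (FS.card : ℂ) * (α g * conj (1 : ℂ))
        + ∑ u : (ZMod p)ˣ, α g * conj ((Cfsg.Agent.Helper79.galIrr (τ u) ψ₀ : G → ℂ) g) := by
      intro g
      show α g * conj ((FS.card : ℂ)
        + ∑ u : (ZMod p)ˣ, (Cfsg.Agent.Helper79.galIrr (τ u) ψ₀ : G → ℂ) g) = _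
      rw [map_add, map_sum, map_natCast, map_one, mul_add, Finset.mul_sum]
      ring
    rw [Finset.sum_congr rfl (fun g _ => e1 g), Finset.sum_add_distrib, Finset.sum_comm, mul_add]
    congr 1
    · rw [← Finset.mul_sum]
      ring
    · rw [Finset.mul_sum]
  have hone : ∀ χ' : Cfsg.IrrCharacter G,
      Cfsg.classInner (b42Prod (χ₁ : G → ℂ) (χ' : G → ℂ)) (fun _ => (1 : ℂ))
        = Cfsg.classInner (χ₁ : G → ℂ) (χ' : G → ℂ) := by
    intro χ'
    unfold Cfsg.classInner b42Prod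
    congr 1
    apply Finset.sum_congr rfl
    intro g _
    rw [map_one, mul_one]
  have hchar11 : Cfsg.IsCharacter G (b42Prod (χ₁ : G → ℂ) (χ₁ : G → ℂ)) :=
    Cfsg.Agent.Helper79.isCharacter_mul (Cfsg.Agent.Helper79.isCharacter_of_irr χ₁.2)
      (Cfsg.Agent.Helper79.isCharacter_conj (Cfsg.Agent.Helper79.isCharacter_of_irr χ₁.2))
  choose n hn using fun u : (ZMod p)ˣ => Cfsg.Agent.Helper3.classInner_isCharacter_nat hchar11
    (Cfsg.Agent.Helper79.isCharacter_of_irr (Cfsg.Agent.Helper79.galIrr (τ u) ψ₀).2)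
  rw [hexp, hexp, hone, hone, Cfsg.Agent.Helper3.classInner_irr, Cfsg.Agent.Helper3.classInner_irr,
    if_pos rfl, if_neg hne, mul_one, mul_zero, zero_add, Finset.sum_congr rfl (fun u _ => hn u)]
    at hkey
  have hsum : ∑ u : (ZMod p)ˣ, Cfsg.classInner (b42Prod (χ₁ : G → ℂ) (χ₂ : G → ℂ))
      (Cfsg.Agent.Helper79.galIrr (τ u) ψ₀ : G → ℂ) ≠ 0 := by
    rw [← hkey, ← Nat.cast_sum, ← Nat.cast_add]
    exact Nat.cast_ne_zero.mpr (by omega)
  obtain ⟨u, -, hu⟩ := Finset.exists_ne_zero_of_sum_ne_zero hsum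
  refine ⟨Cfsg.Agent.Helper79.galIrr (τ u) ψ₀, ((u : (ZMod p)ˣ) : ZMod p) * l,
    mul_ne_zero u.ne_zero hl, hu, ?_⟩
  intro b hb
  have h1 := hval u b hb 1 K.one_mem
  rw [mul_one] at h1
  rw [h1, hfin]
  apply Finset.sum_congr rfl
  intro s _
  congr 2
  ring

end Cfsg.Agent.Helper39
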