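/-
helper39: CALL S4503 piece PRINC: the data of the principal block (defect one).
-/
import Mathlib
import Cfsg.Agent.Helper15.B42Defs
import Cfsg.Agent.Helper77.D1Final
import Cfsg.Agent.Helper29.D1IL
import Cfsg.Agent.Helper79.S4441Setup
import Cfsg.Agent.Helper79.Basic
import Cfsg.Agent.Helper81.CharBasic
import Cfsg.Agent.Helper3.Induced
import Cfsg.Agent.Helper3.Frobenius
import Cfsg.Agent.Helper39.B42KEYY

universe u
set_option autoImplicit false
open Cfsg Cfsg.Agent.Helper77 Cfsg.Agent.Helper15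
open scoped ComplexConjugate

namespace Cfsg.Agent.Helper39

variable {G : Type u} [Group G] [Finite G]

/-- the coefficient of the trivial character of `K` in the trivial character of `G` is `1` -/
theorem b42p_dco_triv (K : Subgroup G) (y : G) :
    dco K (fun _ : K => (1 : ℂ)) (fun _ : G => (1 : ℂ)) y = 1 := by
  classical
  haveI : Fintype K := Fintype.ofFinite K
  unfold dco
  rw [finsum_eq_sum_of_fintype]
  simp only [map_one, mul_one, Finset.sum_const, Finset.card_univ, nsmul_eq_mul]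
  rw [← Nat.card_eq_fintype_card]
  exact inv_mul_cancel₀ (Nat.cast_ne_zero.mpr Nat.card_pos.ne')

/-- for the trivial character of `K` the stabilizer units are the normalizer units -/
theorem b42p_stab_triv (p : ℕ) (x : G) (K : Subgroup G) :
    stabUnits p x K (fun _ : K => (1 : ℂ)) = normUnits p x := by
  ext u
  constructor
  · rintro ⟨n, hn, -⟩
    exact ⟨n, hn⟩
  · rintro ⟨n, hn⟩
    exact ⟨n, hn, fun _ _ _ => rfl⟩

/-- PRINC -/
theorem b42_principal (p : ℕ) [Fact p.Prime] (x : G) (K : Subgroup G) (h : D1Hyp p x K)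
    (hstrong : B42StrongStmt G p)
    (hpv : ∀ θ₀ : Cfsg.IrrCharacter K, (∀ k : K, (θ₀ : K → ℂ) k = 1) →
      ∀ ζ : Cfsg.IrrCharacter G, ζ ∈ blkTheta K x (θ₀ : K → ℂ) → ∀ b : ℕ, ¬ p ∣ b → ∀ k ∈ K,
        (ζ : G → ℂ) (x ^ b * k) = dco K (θ₀ : K → ℂ) (ζ : G → ℂ) (x ^ b))
    (hps : ∀ g : G, p ∣ orderOf g →
      ∃ (y : G) (b : ℕ) (k : G), ¬ p ∣ b ∧ k ∈ K ∧ y * g * y⁻¹ = x ^ b * k)
    (v : (ZMod p)ˣ) (hv : v ∉ normUnits p x) :
    ∃ (X : Finset (Cfsg.IrrCharacter G)) (c : Cfsg.IrrCharacter G → ℤ) (ε₀ : ℤ)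
      (ψ₀ : Cfsg.IrrCharacter G) (l : ZMod p), B42Princ p x K X c ε₀ ψ₀ l := by
  classical
  have hp : p.Prime := Fact.out
  have hζ := d1zeta_prim p
  let θ₀ : Cfsg.IrrCharacter K := ⟨fun _ => 1, Cfsg.Agent.Helper79.isIrrCharacter_one⟩
  have hθ₀ : ∀ k : K, (θ₀ : K → ℂ) k = 1 := fun _ => rfl
  have hθ₀' : (θ₀ : K → ℂ) = fun _ : K => (1 : ℂ) := rfl
  obtain ⟨X, Y, c, ε, hXY, -, hXcard, hYne, hcsign, hε, hXval, hYval, hdeg⟩ := hstrong x K h θ₀
  have hstab : stabUnits p x K (θ₀ : K → ℂ) = normUnits p x := b42p_stab_triv p x K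
  rw [hstab] at hXcard
  -- `x ^ (b : ZMod p).val = x ^ b`
  have hpow : ∀ b : ℕ, x ^ ((b : ZMod p)).val = x ^ b := by
    intro b
    apply d1m_pow_eq h.hx
    rw [ZMod.natCast_zmod_val]
  have hb0 : ∀ b : ℕ, ¬ p ∣ b → (b : ZMod p) ≠ 0 := by
    intro b hb h0
    exact hb ((ZMod.natCast_eq_zero_iff _ _).mp h0)
  obtain ⟨ψ₀, hψ₀⟩ := hYne
  obtain ⟨l, hl, hψval⟩ := hYval ψ₀ hψ₀
  refine ⟨X, c, ε, ψ₀, l, ⟨hXcard, hcsign, ?_, ?_, hε, hl, ?_, hdeg ψ₀ hψ₀⟩⟩
  · -- values of the non-exceptional characters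
    intro ζ hζX g hg
    obtain ⟨y, b, k, hb, hk, hy⟩ := hps g hg
    rw [← Cfsg.Agent.Helper79.isCharacter_conj_eq (Cfsg.Agent.Helper79.isCharacter_of_irr ζ.2) g y,
      hy, hpv θ₀ hθ₀ ζ ((hXY ζ).mp (Or.inl hζX)) b hb k hk, ← hpow b]
    exact hXval ζ hζX (b : ZMod p) (hb0 b hb)
  · -- the trivial character
    let ζ₁ : Cfsg.IrrCharacter G := ⟨fun _ => 1, Cfsg.Agent.Helper79.isIrrCharacter_one⟩
    have hζ₁ : ζ₁ ∈ blkTheta K x (θ₀ : K → ℂ) := by
      show dco K (θ₀ : K → ℂ) (ζ₁ : G → ℂ) x ≠ 0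
      have : dco K (θ₀ : K → ℂ) (ζ₁ : G → ℂ) x = 1 := b42p_dco_triv K x
      rw [this]
      exact one_ne_zero
    rcases (hXY ζ₁).mpr hζ₁ with hX | hY
    · exact ⟨ζ₁, hX, fun _ => rfl⟩
    · exfalso
      obtain ⟨l₁, hl₁, hv1⟩ := hYval ζ₁ hY
      rw [hstab] at hv1
      set FS : Finset (ZMod p)ˣ := Finset.univ.filter (· ∈ normUnits p x) with hFS
      have hfin : ∀ g : (ZMod p)ˣ → ℂ, ∑ᶠ s ∈ normUnits p x, g s = ∑ s ∈ FS, g s := by
        intro g
        rw [finsum_mem_eq_finite_toFinset_sum g (Set.toFinite _)]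
        apply Finset.sum_congr _ (fun _ _ => rfl)
        ext s
        simp [hFS]
      have h1 : ∀ u : (ZMod p)ˣ, (1 : ℂ) = (ε : ℂ) * ∑ s ∈ FS,
          d1zeta p ^ (((u : (ZMod p)ˣ) : ZMod p) * (((s : (ZMod p)ˣ) : ZMod p) * l₁)).val := by
        intro u
        have h2 := hv1 ((u : (ZMod p)ˣ) : ZMod p) u.ne_zero
        have h3 : dco K (θ₀ : K → ℂ) (ζ₁ : G → ℂ) (x ^ ((u : (ZMod p)ˣ) : ZMod p).val) = 1 :=
          b42p_dco_triv K _
        rw [h3, hfin] at h2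
        rw [h2]
        congr 1
        apply Finset.sum_congr rfl
        intro s _
        congr 2
        ring
      have h4 : ∑ _u : (ZMod p)ˣ, (1 : ℂ) = ∑ u : (ZMod p)ˣ, (ε : ℂ) * ∑ s ∈ FS,
          d1zeta p ^ (((u : (ZMod p)ˣ) : ZMod p) * (((s : (ZMod p)ˣ) : ZMod p) * l₁)).val :=
        Finset.sum_congr rfl (fun u _ => h1 u)
      rw [← Finset.mul_sum, Finset.sum_comm] at h4
      have h5 : ∀ s ∈ FS, ∑ u : (ZMod p)ˣ,
          d1zeta p ^ (((u : (ZMod p)ˣ) : ZMod p) * (((s : (ZMod p)ˣ) : ZMod p) * l₁)).val = -1 := by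
        intro s _
        exact b42y_units_sum p _ hζ _ (mul_ne_zero s.ne_zero hl₁)
      rw [Finset.sum_congr rfl h5, Finset.sum_const, Finset.sum_const, Finset.card_univ,
        ZMod.card_units_eq_totient, Nat.totient_prime hp, nsmul_eq_mul, nsmul_eq_mul, mul_one] at h4
      have h6 : ((p - 1 : ℕ) : ℤ) = ε * ((FS.card : ℤ) * (-1)) := by
        have : (((p - 1 : ℕ) : ℤ) : ℂ) = ((ε * ((FS.card : ℤ) * (-1)) : ℤ) : ℂ) := by
          push_cast
          rw [Nat.cast_sub hp.one_lt.le] at h4 ⊢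
          push_cast at h4 ⊢
          exact h4
        exact_mod_cast this
      have hp2 := hp.two_le
      rcases hε with rfl | rfl
      · have : (0 : ℤ) ≤ (FS.card : ℤ) := Int.natCast_nonneg _
        have h7 : (1 : ℤ) ≤ ((p - 1 : ℕ) : ℤ) := by
          have : 1 ≤ p - 1 := by omega
          exact_mod_cast this
        omega
      · have h7 : FS.card = p - 1 := by
          have : ((p - 1 : ℕ) : ℤ) = (FS.card : ℤ) := by rw [h6]; ring
          exact_mod_cast this.symm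
        have h8 : FS = Finset.univ := by
          apply Finset.eq_univ_of_card
          rw [h7, ZMod.card_units_eq_totient, Nat.totient_prime hp]
        have h9 : v ∈ FS := by rw [h8]; exact Finset.mem_univ v
        rw [hFS, Finset.mem_filter] at h9
        exact hv h9.2
  · -- the exceptional character
    intro b hb k hk
    rw [hpv θ₀ hθ₀ ψ₀ ((hXY ψ₀).mp (Or.inr hψ₀)) b hb k hk, ← hpow b,
      hψval (b : ZMod p) (hb0 b hb), hstab]

end Cfsg.Agent.Helper39
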