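import Cfsg.Agent.Helper1.BG139Defs

set_option autoImplicit false

namespace Cfsg.Agent.Helper39

open Cfsg Subgroup Cfsg.Agent.Helper1

universe u

variable {G : Type u} [Group G] [Finite G]

/-- PIECE `C0` (pure group theory). -/
theorem bg139_E_eq {E E₁ E₃ : Subgroup G} (hE₁ : E₁ ≤ E) (hE₃ : E₃ ≤ E)
    (hcard : Nat.card E = Nat.card E₃ * Nat.card E₁)
    (hcop : (Nat.card E₃).Coprime (Nat.card E₁)) : E ≤ E₃ ⊔ E₁ := by
  have hle : E₃ ⊔ E₁ ≤ E := sup_le hE₃ hE₁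
  have h3 : Nat.card E₃ ∣ Nat.card ↥(E₃ ⊔ E₁) := Subgroup.card_dvd_of_le le_sup_left
  have h1 : Nat.card E₁ ∣ Nat.card ↥(E₃ ⊔ E₁) := Subgroup.card_dvd_of_le le_sup_right
  have hdvd : Nat.card E ∣ Nat.card ↥(E₃ ⊔ E₁) := by
    rw [hcard]
    exact Nat.Coprime.mul_dvd_of_dvd_of_dvd hcop h3 h1
  have hcle : Nat.card E ≤ Nat.card ↥(E₃ ⊔ E₁) := Nat.le_of_dvd Nat.card_pos hdvd
  exact (Subgroup.eq_of_le_of_card_ge hle hcle).ge

end Cfsg.Agent.Helper39
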