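/-
helper39: CALL S1365 piece KS0 (pure, abstract group): if `H = H' K` with `K` abelian of order
prime to `|H'|`, then the fixed points of `K` in `H'` lie in `H''`.
-/
import Cfsg.Agent.Helper61.BG139C8

set_option autoImplicit false

namespace Cfsg.Agent.Helper39

open Cfsg Subgroup
open scoped commutatorElement

universe u

variable {G : Type u} [Group G] [Finite G]

/-- PIECE KS0 (pure, abstract group). -/
theorem bg14d_quot_fpf {H : Type u} [Group H] [Finite H] (K : Subgroup H)
    (hKc : ∀ a ∈ K, ∀ b ∈ K, a * b = b * a)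
    (hprod : ∀ m : H, ∃ y ∈ commutator H, ∃ k ∈ K, m = y * k)
    (hcop : (Nat.card K).Coprime (Nat.card ↥(commutator H))) :
    ∀ z ∈ commutator H, (∀ k ∈ K, k * z = z * k) → z ∈ ⁅commutator H, commutator H⁆ := by
  intro z hz hzc
  have hCn : (commutator H).Normal := inferInstance
  have hNn : (⁅commutator H, commutator H⁆ : Subgroup H).Normal :=
    Subgroup.commutator_normal (commutator H) (commutator H)
  set N : Subgroup H := ⁅commutator H, commutator H⁆ with hN
  set π : H →* H ⧸ N := QuotientGroup.mk' N with hπ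
  have hπs : Function.Surjective π := QuotientGroup.mk'_surjective N
  have key := Cfsg.Agent.Helper61.bg139_E3_fpf (G := H ⧸ N) (E := ⊤)
    (E₁ := K.map π) (E₃ := (commutator H).map π) le_top le_top ?_ ?_ ?_ ?_ ?_ ?_ (π z)
    (Subgroup.mem_map_of_mem π hz) ?_
  · exact (QuotientGroup.eq_one_iff z).mp key
  · -- `⊤ ≤ E₃ ⊔ E₁`
    intro q _
    obtain ⟨m, rfl⟩ := hπs q
    obtain ⟨y, hy, k, hk, rfl⟩ := hprod m
    rw [map_mul]
    exact mul_mem (mem_sup_left (Subgroup.mem_map_of_mem π hy))
      (mem_sup_right (Subgroup.mem_map_of_mem π hk))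
  · -- coprime
    exact (Nat.Coprime.coprime_dvd_left (Subgroup.card_map_dvd _ π)
      (Nat.Coprime.coprime_dvd_right (Subgroup.card_map_dvd _ π) hcop)).symm
  · -- `E₃` abelian
    intro a ha b hb
    obtain ⟨a', ha', rfl⟩ := Subgroup.mem_map.mp ha
    obtain ⟨b', hb', rfl⟩ := Subgroup.mem_map.mp hb
    have h1 : ⁅a', b'⁆ ∈ N := Subgroup.commutator_mem_commutator ha' hb'
    have h2 : π ⁅a', b'⁆ = 1 := (QuotientGroup.eq_one_iff _).mpr h1
    rw [commutatorElement_def, map_mul, map_mul, map_mul, map_inv, map_inv] at h2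
    have h3 : π a' * π b' = (π a' * π b' * (π a')⁻¹ * (π b')⁻¹) * (π b' * π a') := by group
    rw [h3, h2, one_mul]
  · -- `E₁` abelian
    intro a ha b hb
    obtain ⟨a', ha', rfl⟩ := Subgroup.mem_map.mp ha
    obtain ⟨b', hb', rfl⟩ := Subgroup.mem_map.mp hb
    rw [← map_mul, ← map_mul, hKc a' ha' b' hb']
  · -- `E₃` normal
    have : ((commutator H).map π).Normal := Subgroup.Normal.map hCn π hπs
    rw [Subgroup.normalizer_eq_top]
  · -- `E₃ ≤ ⁅⊤, ⊤⁆`
    rw [commutator_def, Subgroup.map_commutator]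
    exact Subgroup.commutator_mono le_top le_top
  · -- `π z` is centralised by `E₁`
    intro x hx
    obtain ⟨k, hk, rfl⟩ := Subgroup.mem_map.mp hx
    rw [← map_mul, ← map_mul, hzc k hk]

end Cfsg.Agent.Helper39
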