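/-
helper39: CALL S1365 piece NK: the primes dividing `|U|` in a sigma-decomposition `M = K U M_σ`
are not in `κ(M)`.
-/
import Cfsg.Agent.Helper23.FittingHall

set_option autoImplicit false

namespace Cfsg.Agent.Helper39

open Cfsg Subgroup Cfsg.Agent.Helper23

universe u

variable {G : Type u} [Group G] [Finite G]

/-- PIECE NK. -/
theorem bg14d_not_kappa_of_dvd {M K U : Subgroup G} (hKU : IsSigmaDecomposition M K U) {r : ℕ}
    (hr : r.Prime) (hd : r ∣ Nat.card U) : r ∉ kappa M := by
  intro hκ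
  have hKM : K ≤ M := hKU.hall.1
  have hc1 := Helper23.card_of_isComplIn U _ M hKU.compl
  obtain ⟨t, ht⟩ := Subgroup.card_dvd_of_le (le_sup_left : K ≤ K ⊔ sigmaCore M)
  have hc2 : Nat.card K * K.relIndex M = Nat.card M := by
    have h := Subgroup.relIndex_mul_relIndex ⊥ K M bot_le hKM
    rwa [Subgroup.relIndex_bot_left, Subgroup.relIndex_bot_left] at h
  have hc3 : K.relIndex M = Nat.card U * t := by
    have hpos : 0 < Nat.card K := Nat.card_pos
    apply Nat.eq_of_mul_eq_mul_left hpos
    rw [hc2, hc1, ht]; ring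
  have hd2 : Nat.card U ∣ K.relIndex M := ⟨t, hc3⟩
  exact hKU.hall.2.2 r hr hκ (hd.trans hd2)

end Cfsg.Agent.Helper39
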