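/-
helper39: CALL S1365 piece QA (pure): a product of a normalised subgroup and a cyclic subgroup has
its commutator subgroup inside the normalised one.
-/
import Mathlib

set_option autoImplicit false

namespace Cfsg.Agent.Helper39

open Subgroup
open scoped commutatorElement

universe u

variable {G : Type u} [Group G] [Finite G]

/-- PIECE QA (pure). -/
theorem bg14d_comm_le {M K W : Subgroup G} (hKM : K ≤ M) (hKc : IsCyclic K)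
    (hWn : M ≤ normalizer (W : Set G)) (hprod : ∀ m ∈ M, ∃ w ∈ W, ∃ k ∈ K, m = w * k) :
    ⁅M, M⁆ ≤ W := by
  have hKcomm : ∀ a ∈ K, ∀ b ∈ K, a * b = b * a := by
    intro a ha b hb
    obtain ⟨g, hg⟩ := hKc.exists_generator
    obtain ⟨i, hi⟩ := Subgroup.mem_zpowers_iff.mp (hg ⟨a, ha⟩)
    obtain ⟨j, hj⟩ := Subgroup.mem_zpowers_iff.mp (hg ⟨b, hb⟩)
    have hi' : a = (g : G) ^ i := by rw [← Subgroup.coe_zpow, hi]
    have hj' : b = (g : G) ^ j := by rw [← Subgroup.coe_zpow, hj]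
    rw [hi', hj', ← zpow_add, ← zpow_add, add_comm]
  rw [Subgroup.commutator_le]
  intro a ha b hb
  obtain ⟨w1, hw1, k1, hk1, rfl⟩ := hprod a ha
  obtain ⟨w2, hw2, k2, hk2, rfl⟩ := hprod b hb
  have h1 : k1 * w2 * k1⁻¹ ∈ W := (mem_normalizer_iff.mp (hWn (hKM hk1)) w2).mp hw2
  have h2 : k2 * w1⁻¹ * k2⁻¹ ∈ W := (mem_normalizer_iff.mp (hWn (hKM hk2)) w1⁻¹).mp (inv_mem hw1)
  have hc : k1 * k2 = k2 * k1 := hKcomm k1 hk1 k2 hk2
  have e : ⁅w1 * k1, w2 * k2⁆ = w1 * (k1 * w2 * k1⁻¹) * (k2 * w1⁻¹ * k2⁻¹) * w2⁻¹ := by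
    rw [commutatorElement_def]
    have hc' : k2 * k1⁻¹ = k1⁻¹ * k2 := by
      rw [eq_inv_mul_iff_mul_eq, ← mul_assoc, hc, mul_assoc, mul_inv_cancel, mul_one]
    calc w1 * k1 * (w2 * k2) * (w1 * k1)⁻¹ * (w2 * k2)⁻¹
        = w1 * k1 * w2 * (k2 * k1⁻¹) * w1⁻¹ * k2⁻¹ * w2⁻¹ := by group
      _ = w1 * k1 * w2 * (k1⁻¹ * k2) * w1⁻¹ * k2⁻¹ * w2⁻¹ := by rw [hc']
      _ = w1 * (k1 * w2 * k1⁻¹) * (k2 * w1⁻¹ * k2⁻¹) * w2⁻¹ := by group
  rw [e]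
  exact mul_mem (mul_mem (mul_mem hw1 h1) h2) (inv_mem hw2)

end Cfsg.Agent.Helper39
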