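import Mathlib
import Cfsg.Prelude.Def_OddOrderLocal

/-!
CALL S1438 (helper2): B&G Theorem 15.7, piece CV (helper39).
-/

set_option autoImplicit false

namespace Cfsg.Agent.Helper39

open Cfsg Subgroup

universe u

variable {G : Type u} [Group G] [Finite G]

/-- CV. The Hall hypothesis, inside `↥M`. -/
theorem bg157_conv {M H : Subgroup G} (hH : H ≤ sigmaCore M)
    (hHall : (Nat.card H).Coprime (H.relIndex (sigmaCore M))) :
    H.subgroupOf M ≤ piCore (sigma M) ↥M ∧
      (Nat.card ↥(H.subgroupOf M)).Coprime ((H.subgroupOf M).relIndex (piCore (sigma M) ↥M)) := by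
  have hHM : H ≤ M := hH.trans (Subgroup.map_subtype_le _)
  refine ⟨?_, ?_⟩
  · intro x hx
    rw [Subgroup.mem_subgroupOf] at hx
    obtain ⟨y, hy, hyx⟩ := Subgroup.mem_map.mp (hH hx)
    have hyx' : y = x := Subtype.ext hyx
    rw [← hyx']
    exact hy
  · have h1 : Nat.card ↥(H.subgroupOf M) = Nat.card H :=
      Nat.card_congr (Subgroup.subgroupOfEquivOfLe hHM).toEquiv
    have h2 : (H.subgroupOf M).relIndex (piCore (sigma M) ↥M) = H.relIndex (sigmaCore M) :=
      Subgroup.relIndex_comap H M.subtype (piCore (sigma M) ↥M)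
    rw [h1, h2]
    exact hHall

end Cfsg.Agent.Helper39
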