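import Mathlib
import Cfsg.Agent.S0570
import Cfsg.Agent.Helper64.PiTwo

/-!
CALL S1438 (helper2): B&G Theorem 15.7, piece FU1 (helper39).
-/

set_option autoImplicit false

namespace Cfsg.Agent.Helper39

open Cfsg Subgroup

universe u

variable {G : Type u} [Group G] [Finite G]

/-- FU1 (pure). If `S/F` is nilpotent and `H` is a Hall subgroup of `S`, then `HF` is normal:
the image of `H` in `S/F` is a Hall subgroup of a nilpotent group, hence normal
(`Cfsg.Agent.S0570.normal_of_hall_of_nilpotent`) and contains every element of `S/F` of order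
prime to its index (`Helper64.mem_of_coprime_index`); `comap_map_mk'`. -/
theorem bg157_sup_normal {Γ : Type u} [Group Γ] [Finite Γ] {F S H : Subgroup Γ} [F.Normal]
    [S.Normal] (hFS : F ≤ S)
    (hSF : Group.IsNilpotent ↥(S.map (QuotientGroup.mk' F))) (hHS : H ≤ S)
    (hHall : (Nat.card H).Coprime (H.relIndex S)) (m : Γ) {h : Γ} (hh : h ∈ H) :
    m * h * m⁻¹ ∈ H ⊔ F := by
  classical
  obtain ⟨π, hπ⟩ : ∃ π : Γ →* Γ ⧸ F, π = QuotientGroup.mk' F := ⟨_, rfl⟩
  have hker : π.ker = F := by rw [hπ]; exact QuotientGroup.ker_mk' F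
  rw [← hπ] at hSF
  haveI := hSF
  obtain ⟨Ht, hHt⟩ : ∃ Ht : Subgroup ↥(S.map π), Ht = (H.map π).subgroupOf (S.map π) :=
    ⟨_, rfl⟩
  have hle : H.map π ≤ S.map π := Subgroup.map_mono hHS
  have hidx : Ht.index ∣ H.relIndex S := by
    have h1 : Ht.index = (H.map π).relIndex (S.map π) := by rw [hHt]; rfl
    rw [h1, Subgroup.relIndex_map_map, hker, sup_of_le_left hFS]
    exact Subgroup.relIndex_dvd_of_le_left S le_sup_left
  have hcard : Nat.card Ht ∣ Nat.card H := by
    have h1 : Nat.card Ht = Nat.card (H.map π) := by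
      rw [hHt]
      exact Nat.card_congr (Subgroup.subgroupOfEquivOfLe hle).toEquiv
    rw [h1]
    exact Subgroup.card_map_dvd H π
  have hcop : (Nat.card Ht).Coprime Ht.index :=
    Nat.Coprime.coprime_dvd_left hcard (Nat.Coprime.coprime_dvd_right hidx hHall)
  haveI hn : Ht.Normal := Cfsg.Agent.S0570.normal_of_hall_of_nilpotent Ht hcop
  have hSn : S.Normal := inferInstance
  have hmem : π (m * h * m⁻¹) ∈ S.map π :=
    Subgroup.mem_map_of_mem π (hSn.conj_mem h (hHS hh) m)
  have hord : orderOf (⟨π (m * h * m⁻¹), hmem⟩ : ↥(S.map π)) ∣ Nat.card H := by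
    rw [Subgroup.orderOf_mk]
    have h1 : orderOf (π (m * h * m⁻¹)) ∣ orderOf (m * h * m⁻¹) := orderOf_map_dvd π _
    have h2 : orderOf (m * h * m⁻¹) = orderOf h := (MulAut.conj m).orderOf_eq h
    have h3 : orderOf h ∣ Nat.card H := by
      have := orderOf_dvd_natCard (⟨h, hh⟩ : H)
      rwa [Subgroup.orderOf_mk] at this
    rw [h2] at h1
    exact h1.trans h3
  have hin : (⟨π (m * h * m⁻¹), hmem⟩ : ↥(S.map π)) ∈ Ht :=
    Cfsg.Agent.Helper64.mem_of_coprime_index Ht _
      (Nat.Coprime.coprime_dvd_left hord (Nat.Coprime.coprime_dvd_right hidx hHall))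
  rw [hHt, Subgroup.mem_subgroupOf] at hin
  obtain ⟨h', hh', he⟩ := Subgroup.mem_map.mp hin
  have hF : h'⁻¹ * (m * h * m⁻¹) ∈ F := by
    rw [← hker, MonoidHom.mem_ker, map_mul, map_inv, he]
    exact inv_mul_cancel _
  have e1 : m * h * m⁻¹ = h' * (h'⁻¹ * (m * h * m⁻¹)) := by group
  rw [e1]
  exact Subgroup.mul_mem _ (Subgroup.mem_sup_left hh') (Subgroup.mem_sup_right hF)

end Cfsg.Agent.Helper39
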