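import Cfsg.Statements.S1383
import Mathlib

set_option autoImplicit false

/-! CALL BG83 (helper25, S1383), piece CASEB2: `|P| = p³` from the cyclic centre and the
coprime action of `K`. -/

namespace Cfsg.Agent.Helper39

open Cfsg Subgroup

universe u

variable {G : Type u} [Group G] [Finite G]

/-- CASEB2 (pure). (`P'` of order `p` is central, so it is the subgroup of order `p` of the
cyclic `Z(P)`; a `p'`-group of automorphisms of a cyclic `p`-group that is trivial on the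
subgroup of order `p` is trivial: `Z(P) ≤ C_P(K) ≤ P'`, so `|Z(P)| = p`.) -/
theorem bg83_case_B_order (p : ℕ) [Fact p.Prime] (hp2 : p ≠ 2) (P K : Subgroup G)
    (hP : IsPGroup p P) (hKP : K ≤ normalizer (P : Set G)) (hcop : (Nat.card K).Coprime p)
    (hd : Nat.card ↥⁅P, P⁆ = p) (hZ : IsCyclic ↥(P ⊓ centralizer (P : Set G)))
    (hcard : Nat.card ↥P = p ^ 2 * Nat.card ↥(P ⊓ centralizer (P : Set G)))
    (hfix : ∀ z ∈ P, (∀ k ∈ K, k * z = z * k) → z ∈ ⁅P, P⁆)
    (hcent : ∀ k ∈ K, ∀ z ∈ ⁅P, P⁆, k * z = z * k) : Nat.card ↥P = p ^ 3 := by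
  classical
  have hpp : p.Prime := Fact.out
  -- D ≤ P
  have hDP : ⁅P, P⁆ ≤ P := Subgroup.commutator_le.mpr (fun a ha b hb => by
    rw [commutatorElement_def]
    exact mul_mem (mul_mem (mul_mem ha hb) (inv_mem ha)) (inv_mem hb))
  -- elements of D have p-th power 1
  have hDp : ∀ y ∈ ⁅P, P⁆, y ^ p = 1 := by
    intro y hy
    have := pow_card_eq_one' (G := ↥⁅P, P⁆) (x := ⟨y, hy⟩)
    rw [hd] at this
    simpa using congrArg Subtype.val this
  -- Step 1: D is central in P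
  have hDcen : ∀ y ∈ ⁅P, P⁆, ∀ g ∈ P, g * y = y * g := by
    intro y hy g hg
    by_cases hy1 : y = 1
    · rw [hy1]; simp
    have hyo : orderOf y = p := orderOf_eq_prime (hDp y hy) hy1
    have hconj : g * y * g⁻¹ ∈ ⁅P, P⁆ := by
      have h1 : g * y * g⁻¹ = (g * y * g⁻¹ * y⁻¹) * y := by group
      have h0 : g * y * g⁻¹ * y⁻¹ ∈ ⁅P, P⁆ := Subgroup.commutator_mem_commutator hg (hDP hy)
      rw [h1]
      exact mul_mem h0 hy
    obtain ⟨a, ha⟩ : ∃ a : ℕ, y ^ a = g * y * g⁻¹ := by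
      have := mem_powers_of_prime_card (G := ↥⁅P, P⁆) hd (g := ⟨y, hy⟩)
        (g' := ⟨g * y * g⁻¹, hconj⟩) (by simpa [Subtype.ext_iff] using hy1)
      obtain ⟨a, ha⟩ := (Submonoid.mem_powers_iff _ _).mp this
      exact ⟨a, by simpa using congrArg Subtype.val ha⟩
    have hpow : ∀ n : ℕ, g ^ n * y * (g ^ n)⁻¹ = y ^ (a ^ n) := by
      intro n
      induction n with
      | zero => simp
      | succ n ih =>
        calc g ^ (n + 1) * y * (g ^ (n + 1))⁻¹ = g * (g ^ n * y * (g ^ n)⁻¹) * g⁻¹ := by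
              rw [pow_succ']; group
          _ = g * y ^ (a ^ n) * g⁻¹ := by rw [ih]
          _ = (g * y * g⁻¹) ^ (a ^ n) := by rw [conj_pow]
          _ = y ^ (a ^ (n + 1)) := by rw [← ha, ← pow_mul, pow_succ']
    obtain ⟨e, he⟩ := hP ⟨g, hg⟩
    have hge : g ^ (p ^ e) = 1 := by simpa using congrArg Subtype.val he
    have h2 := hpow (p ^ e)
    rw [hge] at h2
    simp only [one_mul, inv_one, mul_one] at h2
    have h3 : a ^ (p ^ e) ≡ 1 [MOD p] := by
      have h3' : a ^ (p ^ e) ≡ 1 [MOD orderOf y] :=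
        pow_eq_pow_iff_modEq.mp (by rw [pow_one]; exact h2.symm)
      rw [hyo] at h3'
      exact h3'
    have h4 : ((a : ZMod p)) = 1 := by
      have h5 : ((a ^ (p ^ e) : ℕ) : ZMod p) = ((1 : ℕ) : ZMod p) :=
        (ZMod.natCast_eq_natCast_iff _ _ p).mpr h3
      rw [Nat.cast_pow, ZMod.pow_card_pow, Nat.cast_one] at h5
      exact h5
    have h6 : a ≡ 1 [MOD p] :=
      (ZMod.natCast_eq_natCast_iff _ _ p).mp (by rw [h4, Nat.cast_one])
    have h7 : y ^ a = y := by
      have h8 : a ≡ 1 [MOD orderOf y] := by rw [hyo]; exact h6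
      have h9 := pow_eq_pow_iff_modEq.mpr h8
      rwa [pow_one] at h9
    rw [h7] at ha
    calc g * y = (g * y * g⁻¹) * g := by group
      _ = y * g := by rw [← ha]
  obtain ⟨Z, hZdef⟩ : ∃ Z : Subgroup G, Z = P ⊓ centralizer (P : Set G) := ⟨_, rfl⟩
  rw [← hZdef] at hZ hcard
  have hZmem : ∀ z : G, z ∈ Z ↔ z ∈ P ∧ ∀ g ∈ P, g * z = z * g := by
    intro z
    rw [hZdef, Subgroup.mem_inf, Subgroup.mem_centralizer_iff]
    rfl
  have hDZ : ⁅P, P⁆ ≤ Z := by
    intro y hy
    rw [hZmem]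
    exact ⟨hDP hy, fun g hg => hDcen y hy g hg⟩
  have hZab : ∀ a ∈ Z, ∀ b ∈ Z, a * b = b * a := by
    intro a ha b hb
    exact ((hZmem b).mp hb).2 a ((hZmem a).mp ha).1
  -- Step 2: the elements of order dividing p of the cyclic group Z are those of D
  have hOmega : ∀ c ∈ Z, c ^ p = 1 → c ∈ ⁅P, P⁆ := by
    intro c hcZ hcp
    haveI : Fintype ↥Z := Fintype.ofFinite _
    have hle : Nat.card {a : ↥Z // a ^ p = 1} ≤ p := by
      rw [Nat.card_eq_fintype_card, Fintype.card_subtype]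
      exact IsCyclic.card_pow_eq_one_le hpp.pos
    let f : ↥⁅P, P⁆ → {a : ↥Z // a ^ p = 1} :=
      fun y => ⟨⟨y.1, hDZ y.2⟩, by apply Subtype.ext; simpa using hDp y.1 y.2⟩
    have hfinj : Function.Injective f := by
      intro y1 y2 h
      apply Subtype.ext
      exact congrArg (fun t : {a : ↥Z // a ^ p = 1} => ((t.1 : ↥Z) : G)) h
    have hfbij : Function.Bijective f :=
      hfinj.bijective_of_nat_card_le (by rw [hd]; exact hle)
    obtain ⟨y, hy⟩ := hfbij.2 ⟨⟨c, hcZ⟩, by apply Subtype.ext; simpa using hcp⟩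
    have hyc : (y : G) = c :=
      congrArg (fun t : {a : ↥Z // a ^ p = 1} => ((t.1 : ↥Z) : G)) hy
    rw [← hyc]; exact y.2
  -- K normalizes Z
  have hKZ : ∀ k ∈ K, ∀ z ∈ Z, k * z * k⁻¹ ∈ Z := by
    intro k hk z hz
    have hkN := hKP hk
    rw [hZmem] at hz ⊢
    refine ⟨(mem_normalizer_iff.mp hkN z).mp hz.1, ?_⟩
    intro g hg
    have hg' : k⁻¹ * g * k ∈ P := (mem_normalizer_iff''.mp hkN g).mp hg
    have h1 := hz.2 _ hg'
    calc g * (k * z * k⁻¹) = k * ((k⁻¹ * g * k) * z) * k⁻¹ := by group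
      _ = k * (z * (k⁻¹ * g * k)) * k⁻¹ := by rw [h1]
      _ = k * z * k⁻¹ * g := by group
  -- Step 3: K centralizes Z
  have hfixall : ∀ n : ℕ, ∀ z ∈ Z, z ^ (p ^ n) = 1 → ∀ k ∈ K, k * z = z * k := by
    intro n
    induction n with
    | zero =>
      intro z _ hz k _
      rw [pow_zero, pow_one] at hz
      rw [hz]; simp
    | succ n ih =>
      intro z hz hzp k hk
      have hzpZ : z ^ p ∈ Z := pow_mem hz p
      have h1 : k * z ^ p = z ^ p * k :=
        ih (z ^ p) hzpZ (by rw [← pow_mul, ← pow_succ']; exact hzp) k hk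
      obtain ⟨c, hc⟩ : ∃ c : G, c = z⁻¹ * (k * z * k⁻¹) := ⟨_, rfl⟩
      have hz' : k * z * k⁻¹ ∈ Z := hKZ k hk z hz
      have hcZ : c ∈ Z := by rw [hc]; exact mul_mem (inv_mem hz) hz'
      have hcp : c ^ p = 1 := by
        have hcomm : Commute z⁻¹ (k * z * k⁻¹) := hZab _ (inv_mem hz) _ hz'
        rw [hc, hcomm.mul_pow, conj_pow, inv_pow, h1]
        simp [mul_assoc]
      have hcD : c ∈ ⁅P, P⁆ := hOmega c hcZ hcp
      have hkc : k * c = c * k := hcent k hk c hcD
      have hkz : k * z * k⁻¹ = z * c := by rw [hc]; group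
      have hpow : ∀ j : ℕ, k ^ j * z * (k ^ j)⁻¹ = z * c ^ j := by
        intro j
        induction j with
        | zero => simp
        | succ j ihj =>
          have hkc' : k * c * k⁻¹ = c := by rw [hkc]; group
          calc k ^ (j + 1) * z * (k ^ (j + 1))⁻¹ = k * (k ^ j * z * (k ^ j)⁻¹) * k⁻¹ := by
                rw [pow_succ']; group
            _ = k * (z * c ^ j) * k⁻¹ := by rw [ihj]
            _ = (k * z * k⁻¹) * (k * c ^ j * k⁻¹) := by group
            _ = z * c * c ^ j := by rw [hkz, ← conj_pow, hkc']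
            _ = z * c ^ (j + 1) := by rw [pow_succ', mul_assoc]
      have h2 := hpow (orderOf k)
      rw [pow_orderOf_eq_one] at h2
      simp only [one_mul, inv_one, mul_one] at h2
      have h3 : c ^ orderOf k = 1 := by
        apply mul_left_cancel (a := z)
        rw [← h2, mul_one]
      have hcop' : (orderOf k).Coprime p := by
        have h5 : orderOf k ∣ Nat.card K := by
          have h6 := orderOf_dvd_natCard (⟨k, hk⟩ : K)
          rwa [Subgroup.orderOf_mk] at h6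
        exact Nat.Coprime.coprime_dvd_left h5 hcop
      have h4 : c ^ (orderOf k).gcd p = 1 := pow_gcd_eq_one.mpr ⟨h3, hcp⟩
      rw [hcop'.gcd_eq_one, pow_one] at h4
      rw [h4, mul_one] at hkz
      calc k * z = (k * z * k⁻¹) * k := by group
        _ = z * k := by rw [hkz]
  -- Step 4
  have hZD : Z ≤ ⁅P, P⁆ := by
    intro z hz
    have hzP : z ∈ P := ((hZmem z).mp hz).1
    obtain ⟨e, he⟩ := hP ⟨z, hzP⟩
    have hze : z ^ (p ^ e) = 1 := by simpa using congrArg Subtype.val he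
    exact hfix z hzP (fun k hk => hfixall e z hz hze k hk)
  have hZeq : Z = ⁅P, P⁆ := le_antisymm hZD hDZ
  rw [hcard, hZeq, hd]
  ring

end Cfsg.Agent.Helper39
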