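import Cfsg.Agent.Helper16.HeightZero
import Cfsg.Agent.Helper16.DefectGroup
import Cfsg.Agent.Helper77.PrincipalDefect
import Cfsg.Agent.Helper78.BlockCount
import Cfsg.Agent.Helper15.CharScalar

/-!
# General block lemmas: central involutions, characters of degree prime to `p`
-/

set_option autoImplicit false
open Cfsg

namespace Cfsg.Agent.Helper39

section general

variable {G : Type*} [Group G] [Finite G]

omit [Finite G] in
/-- A central involution acts by a sign in every irreducible character. -/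
theorem irr_central_sign (χ : IrrCharacter G) {z : G} (hz : z ∈ Subgroup.center G)
    (hz2 : z * z = 1) :
    ∃ ε : ℂ, (ε = 1 ∨ ε = -1) ∧ ∀ g, (χ : G → ℂ) (z * g) = ε * (χ : G → ℂ) g := by
  obtain ⟨n, ρ, hirr, hχ⟩ := χ.2
  have := hirr
  obtain ⟨c, hc⟩ := Helper15.rep_central_scalar ρ hz
  have hpos := Cfsg.Agent.Helper80.rep_finrank_pos ρ
  have hc2 : c * c = 1 := by
    have h1 : ρ z * ρ z = 1 := by rw [← map_mul, hz2, map_one]
    rw [hc, smul_mul_smul_comm, one_mul] at h1
    have h3 := congrArg (LinearMap.trace ℂ (Fin n → ℂ)) h1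
    rw [map_smul, LinearMap.trace_one, smul_eq_mul] at h3
    have h4 : (Module.finrank ℂ (Fin n → ℂ) : ℂ) ≠ 0 := by exact_mod_cast hpos.ne'
    have h5 : (c * c - 1) * (Module.finrank ℂ (Fin n → ℂ) : ℂ) = 0 := by
      rw [sub_mul, h3, one_mul, sub_self]
    rcases mul_eq_zero.mp h5 with h6 | h6
    · exact sub_eq_zero.mp h6
    · exact absurd h6 h4
  refine ⟨c, ?_, fun g => ?_⟩
  · have : (c - 1) * (c + 1) = 0 := by linear_combination hc2
    rcases mul_eq_zero.1 this with h | h
    · left; linear_combination h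
    · right; linear_combination h
  · rw [← hχ]; exact Helper15.char_mul_of_rep_scalar ρ hc g

/-- Central characters of characters of degree prime to `p` vanish modulo `M` on classes of size
divisible by `p`. -/
theorem centralChar_memLocalIdeal_of_dvd {p : ℕ} {M : Ideal AlgInt} (hM : IsPModular p M)
    (φ : IrrCharacter G) (hφ : ¬ p ∣ charDegree (φ : G → ℂ)) {g : G}
    (hdvd : p ∣ (Subgroup.centralizer ({g} : Set G)).index) :
    MemLocalIdeal M (centralChar (φ : G → ℂ) g) := by
  have := Fintype.ofFinite G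
  have := Helper78.centralChar_mem_of_factorization_lt hM φ g (by
    rw [Nat.factorization_eq_zero_of_not_dvd hφ]
    exact (hM.1.factorization_pos_of_dvd Subgroup.index_ne_zero_of_finite hdvd))
  exact Helper77.memLocalIdeal_of_mem hM.2.1 this

/-- Same-block criterion for two irreducible characters of degree prime to `p`. -/
theorem sameBlock_of_pprime_degree {p : ℕ} {M : Ideal AlgInt} (hM : IsPModular p M)
    (χ ψ : IrrCharacter G) (hχ : ¬ p ∣ charDegree (χ : G → ℂ))
    (hψ : ¬ p ∣ charDegree (ψ : G → ℂ))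
    (h : ∀ g : G, p ∣ (Subgroup.centralizer ({g} : Set G)).index ∨
      ∃ x z : G, g = x * z ∧ (∃ k : ℕ, orderOf x = p ^ k) ∧ Commute x z ∧
        (χ : G → ℂ) z * (ψ : G → ℂ) 1 = (ψ : G → ℂ) z * (χ : G → ℂ) 1) :
    SameBlock M (χ : G → ℂ) (ψ : G → ℂ) := by
  intro g
  rcases h g with hdvd | ⟨x, z, rfl, hx, hxz, hval⟩
  · exact Helper77.memLocalIdeal_sub hM.2.1 (centralChar_memLocalIdeal_of_dvd hM χ hχ hdvd)
      (centralChar_memLocalIdeal_of_dvd hM ψ hψ hdvd)
  · have hχ1 := Helper81.irr_one_eq_charDegree χ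
    have hψ1 := Helper81.irr_one_eq_charDegree ψ
    have e1 := Helper16.irr_mul_sub_memLocalIdeal hM χ hx hxz
    have e2 := Helper16.irr_mul_sub_memLocalIdeal hM ψ hx hxz
    have hinvχ := Helper77.memLocalRing_natCast_inv hM hχ
    have hinvψ := Helper77.memLocalRing_natCast_inv hM hψ
    have hc1 : ((charDegree (χ : G → ℂ) : ℕ) : ℂ) ≠ 0 := by
      exact_mod_cast (Helper81.charDegree_pos χ).ne'
    have hc2 : ((charDegree (ψ : G → ℂ) : ℕ) : ℂ) ≠ 0 := by
      exact_mod_cast (Helper81.charDegree_pos ψ).ne'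
    have key : centralChar (χ : G → ℂ) (x * z) - centralChar (ψ : G → ℂ) (x * z) =
        (((χ : G → ℂ) (x * z) - (χ : G → ℂ) z) * ((charDegree (χ : G → ℂ) : ℕ) : ℂ)⁻¹ -
           ((ψ : G → ℂ) (x * z) - (ψ : G → ℂ) z) * ((charDegree (ψ : G → ℂ) : ℕ) : ℂ)⁻¹) *
        (((Subgroup.centralizer ({x * z} : Set G)).index : ℕ) : ℂ) := by
      unfold centralChar
      rw [hχ1, hψ1] at hval ⊢
      field_simp
      linear_combination (((Subgroup.centralizer ({x * z} : Set G)).index : ℕ) : ℂ) * hval
    rw [key]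
    refine Helper77.memLocalIdeal_mul' hM.2.1 (Helper77.memLocalIdeal_sub hM.2.1
      (Helper77.memLocalIdeal_mul' hM.2.1 e1 hinvχ) (Helper77.memLocalIdeal_mul' hM.2.1 e2 hinvψ)) ?_
    exact Helper77.memLocalRing_of_isIntegral hM.2.1 (isIntegral_algebraMap (R := ℤ) (x := ((Subgroup.centralizer ({x * z} : Set G)).index : ℤ)) |> fun h => by simpa using h)

omit [Finite G] in
/-- The defect of a block containing a character of degree prime to `p` is maximal. -/
theorem blockDefect_of_pprime {p : ℕ} {B : Set (IrrCharacter G)} {χ : IrrCharacter G}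
    (hχ : χ ∈ B) (hdeg : ¬ p ∣ charDegree (χ : G → ℂ)) :
    blockDefect p B = (Nat.card G).factorization p := by
  unfold Cfsg.blockDefect
  have h0 : sInf ((fun χ : Cfsg.IrrCharacter G =>
      (Cfsg.charDegree (χ : G → ℂ)).factorization p) '' B) = 0 := by
    apply Nat.eq_zero_of_le_zero
    apply Nat.sInf_le
    exact ⟨χ, hχ, Nat.factorization_eq_zero_of_not_dvd hdeg⟩
  rw [h0, Nat.sub_zero]

/-- Every Sylow `p`-subgroup is a defect group of a block containing a character of degree
prime to `p`. -/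
theorem isDefectGroup_sylow_of_pprime {p : ℕ} [Fact p.Prime] {M : Ideal AlgInt}
    (hM : IsPModular p M) {B : Set (IrrCharacter G)} (hB : IsPBlock M B) {χ : IrrCharacter G}
    (hχ : χ ∈ B) (hdeg : ¬ p ∣ charDegree (χ : G → ℂ)) (S : Sylow p G) :
    IsDefectGroup p M B (S : Subgroup G) := by
  have := Fintype.ofFinite G
  obtain ⟨D', hD'⟩ := Helper16.exists_isDefectGroup (p := p) hM.2.1 hB
  have hcard := Helper77.card_of_isDefectGroup hM hB hD'
  rw [blockDefect_of_pprime hχ hdeg] at hcard
  obtain ⟨g, -, -, -, hDp⟩ := Helper16.isDefectGroup_exists_data hD'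
  obtain ⟨S', hS'⟩ := hDp.exists_le_sylow
  have hS'' : (S' : Subgroup G) = D' := by
    symm
    apply Subgroup.eq_of_le_of_card_ge hS'
    rw [hcard, S'.card_eq_multiplicity]
  obtain ⟨g, hg⟩ := MulAction.exists_smul_eq G S' S
  have h1 := Helper16.isDefectGroup_conj hD' g
  have h2 : (S : Subgroup G) = D'.map (MulAut.conj g).toMonoidHom := by
    rw [← hg, ← hS'', Sylow.coe_subgroup_smul]
    rfl
  rw [h2]
  exact h1

end general

end Cfsg.Agent.Helper39
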