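import Mathlib
import Cfsg.Agent.Helper39.SL2Half

/-!
# The conjugacy classes of the Borel subgroup of `SL₂(q)`, `q` odd (helper39)
-/

set_option autoImplicit false

namespace Cfsg.Agent.Helper39

open Cfsg.Agent.Helper38

section BorelClasses

variable {F : Type*} [Field F]

theorem triBSL_mul (a a' : Fˣ) (c c' : F) :
    triBSL a c * triBSL a' c' = triBSL (a * a') ((a : F) * c' + c * ((a'⁻¹ : Fˣ) : F)) := by
  apply Subtype.ext
  apply Subtype.ext
  show (triSL a c : Matrix (Fin 2) (Fin 2) F) * (triSL a' c' : Matrix (Fin 2) (Fin 2) F) = _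
  rw [triSL_coe, triSL_coe, triBSL_coe, triSL_coe, Matrix.mul_fin_two]
  simp [mul_comm]

theorem triBSL_injective {a a' : Fˣ} {c c' : F} (h : triBSL a c = triBSL a' c') :
    a = a' ∧ c = c' := by
  have := (triSLEquiv (F := F)).injective (a₁ := (a, c)) (a₂ := (a', c')) h
  exact ⟨(Prod.mk.inj this).1, (Prod.mk.inj this).2⟩

theorem isConj_triBSL_iff (a a₁ : Fˣ) (c c₁ : F) :
    IsConj (triBSL a c) (triBSL a₁ c₁) ↔
      a = a₁ ∧ ∃ (a' : Fˣ) (c' : F),
        c₁ = (a' : F) ^ 2 * c + (a' : F) * c' * (((a⁻¹ : Fˣ) : F) - (a : F)) := by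
  rw [isConj_iff]
  constructor
  · rintro ⟨g, hg⟩
    obtain ⟨⟨a', c'⟩, rfl⟩ := (triSLEquiv (F := F)).surjective g
    have h1 : triBSL a' c' * triBSL a c = triBSL a₁ c₁ * triBSL a' c' := by
      rw [← hg]
      show triBSL a' c' * triBSL a c = triBSL a' c' * triBSL a c * (triBSL a' c')⁻¹ * triBSL a' c'
      group
    rw [triBSL_mul, triBSL_mul] at h1
    obtain ⟨h2, h3⟩ := triBSL_injective h1
    have ha : a = a₁ := by
      have : a' * a = a' * a₁ := by rw [h2, mul_comm]
      exact mul_left_cancel this
    subst ha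
    refine ⟨rfl, a', c', ?_⟩
    have ha' : (a' : F) ≠ 0 := a'.ne_zero
    have hinv : ((a'⁻¹ : Fˣ) : F) = (a' : F)⁻¹ := Units.val_inv_eq_inv_val a'
    rw [hinv] at h3
    field_simp at h3
    linear_combination -h3
  · rintro ⟨rfl, a', c', hc⟩
    refine ⟨triBSL a' c', ?_⟩
    have h1 : triBSL a' c' * triBSL a c = triBSL a c₁ * triBSL a' c' := by
      rw [triBSL_mul, triBSL_mul, hc, mul_comm a' a]
      congr 1
      have ha' : (a' : F) ≠ 0 := a'.ne_zero
      have hinv : ((a'⁻¹ : Fˣ) : F) = (a' : F)⁻¹ := Units.val_inv_eq_inv_val a'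
      rw [hinv]
      field_simp
      ring
    rw [h1]
    group

end BorelClasses

section Count

variable {F : Type*} [Field F] [Fintype F] [DecidableEq F]

/-- The parametrisation of the conjugacy classes of the Borel subgroup of `SL₂(q)`, `q` odd. -/
noncomputable def borelClassMap (ε : F) :
    {a : Fˣ // (a : F) ^ 2 ≠ 1} ⊕ ({a : Fˣ // (a : F) ^ 2 = 1} × Fin 3) →
      ConjClasses ↥(borelSL F)
  | Sum.inl a => ConjClasses.mk (triBSL a.1 0)
  | Sum.inr (a, i) => ConjClasses.mk (triBSL a.1 (![0, 1, ε] i))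

omit [Fintype F] [DecidableEq F] in
theorem units_inv_sub_self {a : Fˣ} (ha : (a : F) ^ 2 = 1) :
    ((a⁻¹ : Fˣ) : F) - (a : F) = 0 := by
  have ha0 : (a : F) ≠ 0 := a.ne_zero
  rw [Units.val_inv_eq_inv_val]
  field_simp
  linear_combination -ha

omit [Fintype F] [DecidableEq F] in
theorem borelClassMap_injective {ε : F} (hε : ¬ IsSquare ε) :
    Function.Injective (borelClassMap ε) := by
  have hε0 : ε ≠ 0 := by rintro rfl; exact hε IsSquare.zero
  rintro (a | ⟨a, i⟩) (b | ⟨b, j⟩) h
  · simp only [borelClassMap, ConjClasses.mk_eq_mk_iff_isConj, isConj_triBSL_iff] at h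
    exact congrArg Sum.inl (Subtype.ext h.1)
  · exfalso
    simp only [borelClassMap, ConjClasses.mk_eq_mk_iff_isConj, isConj_triBSL_iff] at h
    apply a.2
    rw [h.1]
    exact b.2
  · exfalso
    simp only [borelClassMap, ConjClasses.mk_eq_mk_iff_isConj, isConj_triBSL_iff] at h
    apply b.2
    rw [← h.1]
    exact a.2
  · simp only [borelClassMap, ConjClasses.mk_eq_mk_iff_isConj, isConj_triBSL_iff] at h
    obtain ⟨hab, a', c', hc⟩ := h
    have hab' : a = b := Subtype.ext hab
    subst hab'
    rw [units_inv_sub_self a.2, mul_zero, add_zero] at hc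
    have ha' : (a' : F) ≠ 0 := a'.ne_zero
    have hij : i = j := by
      classical
      have hτ : ∀ i : Fin 3, (if (![0, 1, ε] i : F) = 0 then (0 : Fin 3)
          else if IsSquare (![0, 1, ε] i : F) then 1 else 2) = i := by
        intro i
        fin_cases i <;> simp [hε, hε0]
      have hsq : IsSquare ((a' : F) ^ 2 * (![0, 1, ε] i : F)) ↔ IsSquare (![0, 1, ε] i : F) := by
        constructor
        · rintro ⟨r, hr⟩
          refine ⟨r / (a' : F), ?_⟩
          field_simp
          linear_combination hr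
        · rintro ⟨r, hr⟩
          exact ⟨(a' : F) * r, by rw [hr]; ring⟩
      have hz : (a' : F) ^ 2 * (![0, 1, ε] i : F) = 0 ↔ (![0, 1, ε] i : F) = 0 := by
        constructor
        · intro h
          rcases mul_eq_zero.mp h with h | h
          · exact absurd (pow_eq_zero_iff two_ne_zero |>.mp h) ha'
          · exact h
        · intro h
          rw [h, mul_zero]
      rw [← hτ i, ← hτ j, hc, hz, hsq]
    rw [hij]

omit [DecidableEq F] in
theorem borelClassMap_surjective (hF : ringChar F ≠ 2) {ε : F} (hε : ¬ IsSquare ε) :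
    Function.Surjective (borelClassMap ε) := by
  have hε0 : ε ≠ 0 := by rintro rfl; exact hε IsSquare.zero
  intro C
  obtain ⟨g, rfl⟩ := ConjClasses.exists_rep C
  obtain ⟨⟨a, c⟩, rfl⟩ := (triSLEquiv (F := F)).surjective g
  show ∃ x, borelClassMap ε x = ConjClasses.mk (triBSL a c)
  by_cases ha : (a : F) ^ 2 = 1
  · by_cases hc0 : c = 0
    · refine ⟨Sum.inr (⟨a, ha⟩, 0), ?_⟩
      simp [borelClassMap, hc0]
    · by_cases hsq : IsSquare c
      · obtain ⟨r, hr⟩ := hsq
        have hr0 : r ≠ 0 := by
          rintro rfl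
          exact hc0 (by rw [hr, mul_zero])
        refine ⟨Sum.inr (⟨a, ha⟩, 1), ?_⟩
        simp only [borelClassMap, ConjClasses.mk_eq_mk_iff_isConj, isConj_triBSL_iff]
        refine ⟨trivial, Units.mk0 r hr0, 0, ?_⟩
        simp [hr]
        ring
      · obtain ⟨r, hr⟩ := isSquare_mul_of_not_isSquare hF hsq hε
        have hr0 : r ≠ 0 := by
          rintro rfl
          rw [mul_zero] at hr
          rcases mul_eq_zero.mp hr with h | h
          · exact hc0 h
          · exact hε0 h
        refine ⟨Sum.inr (⟨a, ha⟩, 2), ?_⟩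
        simp only [borelClassMap, ConjClasses.mk_eq_mk_iff_isConj, isConj_triBSL_iff]
        refine ⟨trivial, Units.mk0 (r / ε) (div_ne_zero hr0 hε0), 0, ?_⟩
        simp
        field_simp
        linear_combination hr
  · refine ⟨Sum.inl ⟨a, ha⟩, ?_⟩
    simp only [borelClassMap, ConjClasses.mk_eq_mk_iff_isConj, isConj_triBSL_iff]
    have h1 : ((a⁻¹ : Fˣ) : F) - (a : F) ≠ 0 := by
      intro h
      apply ha
      have ha0 : (a : F) ≠ 0 := a.ne_zero
      rw [Units.val_inv_eq_inv_val] at h
      field_simp at h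
      linear_combination -h
    refine ⟨trivial, 1, c / (((a⁻¹ : Fˣ) : F) - (a : F)), ?_⟩
    simp
    field_simp

/-- The Borel subgroup of `SL₂(q)`, `q` odd, has `q + 3` conjugacy classes. -/
theorem card_conjClasses_borelSL (hodd : Odd (Fintype.card F)) :
    Nat.card (ConjClasses ↥(borelSL F)) = Fintype.card F + 3 := by
  classical
  have hF := ringChar_ne_two_of_odd hodd
  have h2 : (2 : F) ≠ 0 := Ring.two_ne_zero hF
  obtain ⟨ε, hε⟩ := exists_nonsquare_of_odd hodd
  have e := Equiv.ofBijective (borelClassMap ε)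
    ⟨borelClassMap_injective hε, borelClassMap_surjective hF hε⟩
  rw [← Nat.card_congr e, Nat.card_eq_fintype_card, Fintype.card_sum, Fintype.card_prod,
    Fintype.card_subtype_compl, Fintype.card_units, Fintype.card_fin]
  have h3 : Fintype.card {a : Fˣ // (a : F) ^ 2 = 1} = 2 := by
    rw [Fintype.card_subtype]
    have h4 : Finset.univ.filter (fun a : Fˣ => (a : F) ^ 2 = 1) = {1, -1} := by
      ext a
      simp only [Finset.mem_filter, Finset.mem_univ, true_and, Finset.mem_insert,
        Finset.mem_singleton]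
      constructor
      · intro h
        have h5 : ((a : F) - 1) * ((a : F) + 1) = 0 := by linear_combination h
        rcases mul_eq_zero.mp h5 with h6 | h6
        · left
          apply Units.ext
          rw [Units.val_one]
          linear_combination h6
        · right
          apply Units.ext
          rw [Units.val_neg, Units.val_one]
          linear_combination h6
      · rintro (rfl | rfl) <;> simp
    rw [h4, Finset.card_pair]
    intro h
    have := congrArg Units.val h
    simp only [Units.val_neg, Units.val_one] at this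
    apply h2
    linear_combination this
  rw [h3]
  have hq : 3 ≤ Fintype.card F := by
    obtain ⟨k, hk⟩ := hodd
    have := Fintype.one_lt_card (α := F)
    omega
  omega

end Count

end Cfsg.Agent.Helper39
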