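import Mathlib
import Cfsg.Agent.Helper98.C2Defs

set_option autoImplicit false

namespace Cfsg.Agent.Helper39.C2Lib

open Matrix Cfsg.Agent.Helper98.C2
open scoped MatrixGroups

variable {K : Type*} [Field K]

/-- A linear relation among columns of an invertible matrix in which one column index occurs
only once, with non-zero coefficient, is impossible. -/
theorem c2_cols_rel {n : ℕ} (g : GL (Fin n) K) {ι : Type*} [Fintype ι] (rr : ι → Fin n)
    (cc : ι → K) (i0 : ι) (hc : cc i0 ≠ 0) (hr : ∀ i, i ≠ i0 → rr i ≠ rr i0)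
    (hrel : ∀ p, ∑ i, cc i * g.1 p (rr i) = 0) : False := by
  classical
  have hinv : ∀ j, ∑ p, (g⁻¹).1 (rr i0) p * g.1 p j = if rr i0 = j then 1 else 0 := by
    intro j
    have h1 : (g⁻¹).1 * g.1 = 1 := by
      rw [← Units.val_mul, inv_mul_cancel, Units.val_one]
    have h2 := congrFun (congrFun h1 (rr i0)) j
    rw [Matrix.mul_apply, Matrix.one_apply] at h2
    exact h2
  have h1 : ∑ p, (g⁻¹).1 (rr i0) p * ∑ i, cc i * g.1 p (rr i) = 0 := by
    apply Finset.sum_eq_zero
    intro p _
    rw [hrel p, mul_zero]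
  have h2 : ∑ p, (g⁻¹).1 (rr i0) p * ∑ i, cc i * g.1 p (rr i)
      = ∑ i, cc i * ∑ p, (g⁻¹).1 (rr i0) p * g.1 p (rr i) := by
    simp only [Finset.mul_sum]
    rw [Finset.sum_comm]
    apply Finset.sum_congr rfl
    intro i _
    apply Finset.sum_congr rfl
    intro p _
    ring
  rw [h2] at h1
  simp only [hinv] at h1
  rw [Finset.sum_eq_single i0] at h1
  · rw [if_pos rfl, mul_one] at h1
    exact hc h1
  · intro i _ hi
    rw [if_neg (fun h => hr i hi h.symm), mul_zero]
  · intro h
    exact absurd (Finset.mem_univ i0) h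

/-- Reading off the twisted-column identity of `nf_twist_cols` at fixed and moved points. -/
theorem c2_twist_eval {n : ℕ} (g : GL (Fin n) K) (l r : Fin n) (σ : Equiv.Perm (Fin n))
    (r' : Fin n) (c : K)
    (H : ∀ p, (if σ p = p then 1 else g.1 (σ p) l / g.1 p l) * g.1 p r = c * g.1 (σ p) r') :
    (∀ p, σ p = p → c * g.1 p r' = g.1 p r) ∧
      (∀ p q, σ p = q → q ≠ p → c * g.1 q r' = g.1 q l / g.1 p l * g.1 p r) := by
  constructor
  · intro p hp
    have h := H p
    rw [if_pos hp, one_mul, hp] at h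
    exact h.symm
  · intro p q hpq hne
    have h := H p
    rw [hpq, if_neg hne] at h
    exact h.symm

end Cfsg.Agent.Helper39.C2Lib
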