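-- helper39: piece I2a of CALL S5634 (helper98): under `NoFix`, the ratio of two columns of a
-- non-monomial element cannot take the pattern `(x, x, y, y)` with `x ≠ y`.
import Mathlib
import Cfsg.Agent.Helper98.C2Defs
import Cfsg.Agent.Helper39.C2Lib
import Cfsg.Agent.Helper14.C2T

set_option autoImplicit false
set_option linter.unusedSimpArgs false

namespace Cfsg.Agent.Helper39.C2I2a

open Matrix Cfsg.Agent.Helper98.C2 Cfsg.Agent.Helper39.C2Lib
open scoped MatrixGroups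

variable {K : Type*} [Field K]

/-- `nf_pat_a` with the twisted-column property (piece T) as a hypothesis. -/
theorem nf_pat_a_core (n : ℕ) (hn : 7 ≤ n) (g : GL (Fin n) K)
    (hD1 : ∀ t a b : Fin n, a ≠ b → g.1 a t = 0 → g.1 b t = 0 → False)
    (l r : Fin n)
    (hT : ∀ σ : Equiv.Perm (Fin n), Equiv.Perm.sign σ = 1 → (∀ p, σ p ≠ p → g.1 p l ≠ 0) →
      ∃ (r' : Fin n) (c : K), c ≠ 0 ∧
        ∀ p, (if σ p = p then 1 else g.1 (σ p) l / g.1 p l) * g.1 p r = c * g.1 (σ p) r')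
    (a b c d : Fin n)
    (hab : a ≠ b) (hac : a ≠ c) (had : a ≠ d) (hbc : b ≠ c) (hbd : b ≠ d) (hcd : c ≠ d)
    (ha : g.1 a l ≠ 0) (hb : g.1 b l ≠ 0) (hc : g.1 c l ≠ 0) (hd : g.1 d l ≠ 0)
    (h1 : g.1 a r * g.1 b l = g.1 b r * g.1 a l)
    (h2 : g.1 c r * g.1 d l = g.1 d r * g.1 c l) :
    g.1 a r * g.1 c l = g.1 c r * g.1 a l := by
  by_contra hxy
  -- a coordinate outside `{a, b, c, d}` where column `r` is non-zero
  obtain ⟨e, hea, heb, hec, hed, hfe⟩ :
      ∃ e, e ≠ a ∧ e ≠ b ∧ e ≠ c ∧ e ≠ d ∧ g.1 e r ≠ 0 := by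
    have hcard : 1 < (Finset.univ \ ({a, b, c, d} : Finset (Fin n))).card := by
      have h4 : ({a, b, c, d} : Finset (Fin n)).card ≤ 4 := Finset.card_le_four
      rw [Finset.card_univ_sdiff, Fintype.card_fin]
      omega
    obtain ⟨e1, he1, e2, he2, hne⟩ := Finset.one_lt_card.mp hcard
    simp only [Finset.mem_sdiff, Finset.mem_univ, true_and, Finset.mem_insert,
      Finset.mem_singleton, not_or] at he1 he2
    by_cases h : g.1 e1 r = 0
    · exact ⟨e2, he2.1, he2.2.1, he2.2.2.1, he2.2.2.2, fun h' => hD1 r e1 e2 hne h h'⟩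
    · exact ⟨e1, he1.1, he1.2.1, he1.2.2.1, he1.2.2.2, h⟩
  -- the three permutations
  have s1a : (Equiv.swap a c * Equiv.swap b d) a = c := by
    simp [Equiv.Perm.mul_apply, Equiv.swap_apply_def, hab, had]
  have s1b : (Equiv.swap a c * Equiv.swap b d) b = d := by
    simp [Equiv.Perm.mul_apply, Equiv.swap_apply_def, had.symm, hcd.symm]
  have s1c : (Equiv.swap a c * Equiv.swap b d) c = a := by
    simp [Equiv.Perm.mul_apply, Equiv.swap_apply_def, hbc.symm, hcd]
  have s1d : (Equiv.swap a c * Equiv.swap b d) d = b := by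
    simp [Equiv.Perm.mul_apply, Equiv.swap_apply_def, hab.symm, hbc]
  have s1o : ∀ p, p ≠ a → p ≠ b → p ≠ c → p ≠ d → (Equiv.swap a c * Equiv.swap b d) p = p := by
    intro p hpa hpb hpc hpd
    simp [Equiv.Perm.mul_apply, Equiv.swap_apply_def, hpa, hpb, hpc, hpd]
  have s2a : (Equiv.swap b c * Equiv.swap c d) a = a := by
    simp [Equiv.Perm.mul_apply, Equiv.swap_apply_def, hab, hac, had]
  have s2b : (Equiv.swap b c * Equiv.swap c d) b = c := by
    simp [Equiv.Perm.mul_apply, Equiv.swap_apply_def, hbc, hbd]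
  have s2c : (Equiv.swap b c * Equiv.swap c d) c = d := by
    simp [Equiv.Perm.mul_apply, Equiv.swap_apply_def, hbd.symm, hcd.symm]
  have s2d : (Equiv.swap b c * Equiv.swap c d) d = b := by
    simp [Equiv.Perm.mul_apply, Equiv.swap_apply_def, hcd.symm]
  have s2o : ∀ p, p ≠ a → p ≠ b → p ≠ c → p ≠ d → (Equiv.swap b c * Equiv.swap c d) p = p := by
    intro p hpa hpb hpc hpd
    simp [Equiv.Perm.mul_apply, Equiv.swap_apply_def, hpa, hpb, hpc, hpd]
  have s3a : (Equiv.swap a d * Equiv.swap d c) a = d := by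
    simp [Equiv.Perm.mul_apply, Equiv.swap_apply_def, had, hac]
  have s3b : (Equiv.swap a d * Equiv.swap d c) b = b := by
    simp [Equiv.Perm.mul_apply, Equiv.swap_apply_def, hab.symm, hbc, hbd]
  have s3c : (Equiv.swap a d * Equiv.swap d c) c = a := by
    simp [Equiv.Perm.mul_apply, Equiv.swap_apply_def, hcd]
  have s3d : (Equiv.swap a d * Equiv.swap d c) d = c := by
    simp [Equiv.Perm.mul_apply, Equiv.swap_apply_def, hac.symm, hcd]
  have s3o : ∀ p, p ≠ a → p ≠ b → p ≠ c → p ≠ d → (Equiv.swap a d * Equiv.swap d c) p = p := by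
    intro p hpa hpb hpc hpd
    simp [Equiv.Perm.mul_apply, Equiv.swap_apply_def, hpa, hpb, hpc, hpd]
  have hu : ∀ σ : Equiv.Perm (Fin n), (∀ p, p ≠ a → p ≠ b → p ≠ c → p ≠ d → σ p = p) →
      ∀ p, σ p ≠ p → g.1 p l ≠ 0 := by
    intro σ hσ p hp
    by_cases hpa : p = a
    · rw [hpa]
      exact ha
    by_cases hpb : p = b
    · rw [hpb]
      exact hb
    by_cases hpc : p = c
    · rw [hpc]
      exact hc
    by_cases hpd : p = d
    · rw [hpd]
      exact hd
    exact absurd (hσ p hpa hpb hpc hpd) hp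
  obtain ⟨r1, c1, hc1, H1⟩ := hT (Equiv.swap a c * Equiv.swap b d)
    (by rw [Equiv.Perm.sign_mul, Equiv.Perm.sign_swap hac, Equiv.Perm.sign_swap hbd]; rfl)
    (hu _ s1o)
  obtain ⟨r2, c2, hc2, H2⟩ := hT (Equiv.swap b c * Equiv.swap c d)
    (by rw [Equiv.Perm.sign_mul, Equiv.Perm.sign_swap hbc, Equiv.Perm.sign_swap hcd]; rfl)
    (hu _ s2o)
  obtain ⟨r3, c3, hc3, H3⟩ := hT (Equiv.swap a d * Equiv.swap d c)
    (by rw [Equiv.Perm.sign_mul, Equiv.Perm.sign_swap had, Equiv.Perm.sign_swap hcd.symm]; rfl)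
    (hu _ s3o)
  obtain ⟨F1, M1⟩ := c2_twist_eval g l r _ r1 c1 H1
  obtain ⟨F2, M2⟩ := c2_twist_eval g l r _ r2 c2 H2
  obtain ⟨F3, M3⟩ := c2_twist_eval g l r _ r3 c3 H3
  -- the relation `v0 + v1 = v2 + v3`
  have key : ∀ p, g.1 p r + c1 * g.1 p r1 - c2 * g.1 p r2 - c3 * g.1 p r3 = 0 := by
    intro p
    by_cases hpa : p = a
    · rw [hpa, M1 c a s1c hac, F2 a s2a, M3 c a s3c hac]
      ring
    by_cases hpb : p = b
    · rw [hpb, M1 d b s1d hbd, M2 d b s2d hbd, F3 b s3b]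
      ring
    by_cases hpc : p = c
    · rw [hpc, M1 a c s1a hac.symm, M2 b c s2b hbc.symm, M3 d c s3d hcd]
      field_simp
      linear_combination (g.1 c l * g.1 d l) * h1 + (g.1 a l * g.1 b l) * h2
    by_cases hpd : p = d
    · rw [hpd, M1 b d s1b hbd.symm, M2 c d s2c hcd.symm, M3 a d s3a had.symm]
      field_simp
      linear_combination (-(g.1 c l * g.1 d l)) * h1 - (g.1 a l * g.1 b l) * h2
    · rw [F1 p (s1o p hpa hpb hpc hpd), F2 p (s2o p hpa hpb hpc hpd),
        F3 p (s3o p hpa hpb hpc hpd)]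
      ring
  -- the columns `r1, r2, r3` differ from `r`
  have hr1 : r1 ≠ r := by
    intro h
    have he1 := F1 e (s1o e hea heb hec hed)
    rw [h] at he1
    have hc1' : c1 = 1 := mul_right_cancel₀ hfe (by rw [he1, one_mul])
    have h' := M1 c a s1c hac
    rw [h, hc1', one_mul] at h'
    apply hxy
    rw [h']
    field_simp
  have hr2 : r2 ≠ r := by
    intro h
    have he1 := F2 e (s2o e hea heb hec hed)
    rw [h] at he1
    have hc2' : c2 = 1 := mul_right_cancel₀ hfe (by rw [he1, one_mul])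
    have h' := M2 d b s2d hbd
    rw [h, hc2', one_mul] at h'
    have h'' : g.1 b r * g.1 d l = g.1 d r * g.1 b l := by
      rw [h']
      field_simp
    apply hxy
    have h3 : (g.1 a r * g.1 c l - g.1 c r * g.1 a l) * (g.1 b l * g.1 d l) = 0 := by
      linear_combination (g.1 c l * g.1 d l) * h1 + (g.1 a l * g.1 c l) * h''
        - (g.1 a l * g.1 b l) * h2
    rcases mul_eq_zero.mp h3 with h4 | h4
    · exact sub_eq_zero.mp h4
    · exact absurd h4 (mul_ne_zero hb hd)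
  have hr3 : r3 ≠ r := by
    intro h
    have he1 := F3 e (s3o e hea heb hec hed)
    rw [h] at he1
    have hc3' : c3 = 1 := mul_right_cancel₀ hfe (by rw [he1, one_mul])
    have h' := M3 c a s3c hac
    rw [h, hc3', one_mul] at h'
    apply hxy
    rw [h']
    field_simp
  refine c2_cols_rel g ![r, r1, r2, r3] ![1, c1, -c2, -c3] 0 (by simp) ?_ ?_
  · intro i hi
    fin_cases i
    · exact absurd rfl hi
    · exact hr1
    · exact hr2
    · exact hr3
  · intro p
    rw [Fin.sum_univ_four]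
    simp only [Matrix.cons_val_zero, Matrix.cons_val_one, Matrix.cons_val]
    linear_combination key p

/-- PIECE I2a: no pattern `(x, x, y, y)` -/
theorem nf_pat_a (n : ℕ) (hn : 7 ≤ n)
    (M : Subgroup (GL (Fin n) K)) (hH : MonSLLE M) (hNF : NoFix M)
    (g : GL (Fin n) K) (hg : g ∈ M)
    (hD1 : ∀ t a b : Fin n, a ≠ b → g.1 a t = 0 → g.1 b t = 0 → False)
    (l r : Fin n) (hlr : l ≠ r) (a b c d : Fin n)
    (hab : a ≠ b) (hac : a ≠ c) (had : a ≠ d) (hbc : b ≠ c) (hbd : b ≠ d) (hcd : c ≠ d)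
    (ha : g.1 a l ≠ 0) (hb : g.1 b l ≠ 0) (hc : g.1 c l ≠ 0) (hd : g.1 d l ≠ 0)
    (h1 : g.1 a r * g.1 b l = g.1 b r * g.1 a l)
    (h2 : g.1 c r * g.1 d l = g.1 d r * g.1 c l) :
    g.1 a r * g.1 c l = g.1 c r * g.1 a l :=
  nf_pat_a_core n hn g hD1 l r
    (fun σ hσ hu => Cfsg.Agent.Helper14.C2T.nf_twist_cols n M hH hNF g hg l σ hσ hu r)
    a b c d hab hac had hbc hbd hcd ha hb hc hd h1 h2

end Cfsg.Agent.Helper39.C2I2a
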