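-- helper39: piece I2b of CALL S5634 (helper98): under `NoFix`, the ratio of two columns of a
-- non-monomial element cannot take three distinct values in the pattern of the statement.
import Mathlib
import Cfsg.Agent.Helper98.C2Defs
import Cfsg.Agent.Helper39.C2Lib
import Cfsg.Agent.Helper14.C2T

set_option autoImplicit false
set_option linter.unusedSimpArgs false
set_option linter.unusedVariables false

namespace Cfsg.Agent.Helper39.C2I2b

open Matrix Cfsg.Agent.Helper98.C2 Cfsg.Agent.Helper39.C2Lib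
open scoped MatrixGroups

variable {K : Type*} [Field K]

/-- `nf_pat_b` with the twisted-column property (piece T) as a hypothesis. -/
theorem nf_pat_b_core (n : ℕ) (hn : 7 ≤ n) (g : GL (Fin n) K)
    (hD1 : ∀ t a b : Fin n, a ≠ b → g.1 a t = 0 → g.1 b t = 0 → False)
    (l r : Fin n)
    (hT : ∀ σ : Equiv.Perm (Fin n), Equiv.Perm.sign σ = 1 → (∀ p, σ p ≠ p → g.1 p l ≠ 0) →
      ∃ (r' : Fin n) (c : K), c ≠ 0 ∧
        ∀ p, (if σ p = p then 1 else g.1 (σ p) l / g.1 p l) * g.1 p r = c * g.1 (σ p) r')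
    (a b c d : Fin n)
    (hab : a ≠ b) (hac : a ≠ c) (had : a ≠ d) (hbc : b ≠ c) (hbd : b ≠ d) (hcd : c ≠ d)
    (ha : g.1 a l ≠ 0) (hb : g.1 b l ≠ 0) (hc : g.1 c l ≠ 0) (hd : g.1 d l ≠ 0)
    (h1 : g.1 a r * g.1 c l ≠ g.1 c r * g.1 a l)
    (h2 : g.1 a r * g.1 d l ≠ g.1 d r * g.1 a l)
    (h3 : g.1 c r * g.1 d l ≠ g.1 d r * g.1 c l)
    (h5 : g.1 b r * g.1 d l ≠ g.1 d r * g.1 b l) : False := by
  -- a coordinate outside `{a, b, c, d}` where column `r` is non-zero
  obtain ⟨e, hea, heb, hec, hed, hfe⟩ :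
      ∃ e, e ≠ a ∧ e ≠ b ∧ e ≠ c ∧ e ≠ d ∧ g.1 e r ≠ 0 := by
    have hcard : 1 < (Finset.univ \ ({a, b, c, d} : Finset (Fin n))).card := by
      have h4 : ({a, b, c, d} : Finset (Fin n)).card ≤ 4 := Finset.card_le_four
      rw [Finset.card_univ_sdiff, Fintype.card_fin]
      omega
    obtain ⟨e1, he1, e2, he2, hne⟩ := Finset.one_lt_card.mp hcard
    simp only [Finset.mem_sdiff, Finset.mem_univ, true_and, Finset.mem_insert,
      Finset.mem_singleton, not_or] at he1 he2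
    by_cases h : g.1 e1 r = 0
    · exact ⟨e2, he2.1, he2.2.1, he2.2.2.1, he2.2.2.2, fun h' => hD1 r e1 e2 hne h h'⟩
    · exact ⟨e1, he1.1, he1.2.1, he1.2.2.1, he1.2.2.2, h⟩
  have hu : ∀ σ : Equiv.Perm (Fin n), (∀ p, p ≠ a → p ≠ b → p ≠ c → p ≠ d → σ p = p) →
      ∀ p, σ p ≠ p → g.1 p l ≠ 0 := by
    intro σ hσ p hp
    by_cases hpa : p = a
    · rw [hpa]
      exact ha
    by_cases hpb : p = b
    · rw [hpb]
      exact hb
    by_cases hpc : p = c
    · rw [hpc]
      exact hc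
    by_cases hpd : p = d
    · rw [hpd]
      exact hd
    exact absurd (hσ p hpa hpb hpc hpd) hp
  have s1a : (Equiv.swap a b * Equiv.swap c d) a = b := by
    simp [Equiv.Perm.mul_apply, Equiv.swap_apply_def, hab, hac, had, hbc, hbd, hcd, hab.symm, hac.symm, had.symm, hbc.symm, hbd.symm, hcd.symm]
  have s1b : (Equiv.swap a b * Equiv.swap c d) b = a := by
    simp [Equiv.Perm.mul_apply, Equiv.swap_apply_def, hab, hac, had, hbc, hbd, hcd, hab.symm, hac.symm, had.symm, hbc.symm, hbd.symm, hcd.symm]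
  have s1c : (Equiv.swap a b * Equiv.swap c d) c = d := by
    simp [Equiv.Perm.mul_apply, Equiv.swap_apply_def, hab, hac, had, hbc, hbd, hcd, hab.symm, hac.symm, had.symm, hbc.symm, hbd.symm, hcd.symm]
  have s1d : (Equiv.swap a b * Equiv.swap c d) d = c := by
    simp [Equiv.Perm.mul_apply, Equiv.swap_apply_def, hab, hac, had, hbc, hbd, hcd, hab.symm, hac.symm, had.symm, hbc.symm, hbd.symm, hcd.symm]
  have s1o : ∀ p, p ≠ a → p ≠ b → p ≠ c → p ≠ d → (Equiv.swap a b * Equiv.swap c d) p = p := by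
    intro p hpa hpb hpc hpd
    simp [Equiv.Perm.mul_apply, Equiv.swap_apply_def, hpa, hpb, hpc, hpd]
  have s2a : (Equiv.swap a c * Equiv.swap b d) a = c := by
    simp [Equiv.Perm.mul_apply, Equiv.swap_apply_def, hab, hac, had, hbc, hbd, hcd, hab.symm, hac.symm, had.symm, hbc.symm, hbd.symm, hcd.symm]
  have s2b : (Equiv.swap a c * Equiv.swap b d) b = d := by
    simp [Equiv.Perm.mul_apply, Equiv.swap_apply_def, hab, hac, had, hbc, hbd, hcd, hab.symm, hac.symm, had.symm, hbc.symm, hbd.symm, hcd.symm]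
  have s2c : (Equiv.swap a c * Equiv.swap b d) c = a := by
    simp [Equiv.Perm.mul_apply, Equiv.swap_apply_def, hab, hac, had, hbc, hbd, hcd, hab.symm, hac.symm, had.symm, hbc.symm, hbd.symm, hcd.symm]
  have s2d : (Equiv.swap a c * Equiv.swap b d) d = b := by
    simp [Equiv.Perm.mul_apply, Equiv.swap_apply_def, hab, hac, had, hbc, hbd, hcd, hab.symm, hac.symm, had.symm, hbc.symm, hbd.symm, hcd.symm]
  have s2o : ∀ p, p ≠ a → p ≠ b → p ≠ c → p ≠ d → (Equiv.swap a c * Equiv.swap b d) p = p := by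
    intro p hpa hpb hpc hpd
    simp [Equiv.Perm.mul_apply, Equiv.swap_apply_def, hpa, hpb, hpc, hpd]
  have s3a : (Equiv.swap a d * Equiv.swap b c) a = d := by
    simp [Equiv.Perm.mul_apply, Equiv.swap_apply_def, hab, hac, had, hbc, hbd, hcd, hab.symm, hac.symm, had.symm, hbc.symm, hbd.symm, hcd.symm]
  have s3b : (Equiv.swap a d * Equiv.swap b c) b = c := by
    simp [Equiv.Perm.mul_apply, Equiv.swap_apply_def, hab, hac, had, hbc, hbd, hcd, hab.symm, hac.symm, had.symm, hbc.symm, hbd.symm, hcd.symm]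
  have s3c : (Equiv.swap a d * Equiv.swap b c) c = b := by
    simp [Equiv.Perm.mul_apply, Equiv.swap_apply_def, hab, hac, had, hbc, hbd, hcd, hab.symm, hac.symm, had.symm, hbc.symm, hbd.symm, hcd.symm]
  have s3d : (Equiv.swap a d * Equiv.swap b c) d = a := by
    simp [Equiv.Perm.mul_apply, Equiv.swap_apply_def, hab, hac, had, hbc, hbd, hcd, hab.symm, hac.symm, had.symm, hbc.symm, hbd.symm, hcd.symm]
  have s3o : ∀ p, p ≠ a → p ≠ b → p ≠ c → p ≠ d → (Equiv.swap a d * Equiv.swap b c) p = p := by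
    intro p hpa hpb hpc hpd
    simp [Equiv.Perm.mul_apply, Equiv.swap_apply_def, hpa, hpb, hpc, hpd]
  have s4a : (Equiv.swap a b * Equiv.swap b c) a = b := by
    simp [Equiv.Perm.mul_apply, Equiv.swap_apply_def, hab, hac, had, hbc, hbd, hcd, hab.symm, hac.symm, had.symm, hbc.symm, hbd.symm, hcd.symm]
  have s4b : (Equiv.swap a b * Equiv.swap b c) b = c := by
    simp [Equiv.Perm.mul_apply, Equiv.swap_apply_def, hab, hac, had, hbc, hbd, hcd, hab.symm, hac.symm, had.symm, hbc.symm, hbd.symm, hcd.symm]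
  have s4c : (Equiv.swap a b * Equiv.swap b c) c = a := by
    simp [Equiv.Perm.mul_apply, Equiv.swap_apply_def, hab, hac, had, hbc, hbd, hcd, hab.symm, hac.symm, had.symm, hbc.symm, hbd.symm, hcd.symm]
  have s4d : (Equiv.swap a b * Equiv.swap b c) d = d := by
    simp [Equiv.Perm.mul_apply, Equiv.swap_apply_def, hab, hac, had, hbc, hbd, hcd, hab.symm, hac.symm, had.symm, hbc.symm, hbd.symm, hcd.symm]
  have s4o : ∀ p, p ≠ a → p ≠ b → p ≠ c → p ≠ d → (Equiv.swap a b * Equiv.swap b c) p = p := by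
    intro p hpa hpb hpc hpd
    simp [Equiv.Perm.mul_apply, Equiv.swap_apply_def, hpa, hpb, hpc, hpd]
  have s5a : (Equiv.swap a c * Equiv.swap c d) a = c := by
    simp [Equiv.Perm.mul_apply, Equiv.swap_apply_def, hab, hac, had, hbc, hbd, hcd, hab.symm, hac.symm, had.symm, hbc.symm, hbd.symm, hcd.symm]
  have s5b : (Equiv.swap a c * Equiv.swap c d) b = b := by
    simp [Equiv.Perm.mul_apply, Equiv.swap_apply_def, hab, hac, had, hbc, hbd, hcd, hab.symm, hac.symm, had.symm, hbc.symm, hbd.symm, hcd.symm]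
  have s5c : (Equiv.swap a c * Equiv.swap c d) c = d := by
    simp [Equiv.Perm.mul_apply, Equiv.swap_apply_def, hab, hac, had, hbc, hbd, hcd, hab.symm, hac.symm, had.symm, hbc.symm, hbd.symm, hcd.symm]
  have s5d : (Equiv.swap a c * Equiv.swap c d) d = a := by
    simp [Equiv.Perm.mul_apply, Equiv.swap_apply_def, hab, hac, had, hbc, hbd, hcd, hab.symm, hac.symm, had.symm, hbc.symm, hbd.symm, hcd.symm]
  have s5o : ∀ p, p ≠ a → p ≠ b → p ≠ c → p ≠ d → (Equiv.swap a c * Equiv.swap c d) p = p := by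
    intro p hpa hpb hpc hpd
    simp [Equiv.Perm.mul_apply, Equiv.swap_apply_def, hpa, hpb, hpc, hpd]
  have s6a : (Equiv.swap b d * Equiv.swap d c) a = a := by
    simp [Equiv.Perm.mul_apply, Equiv.swap_apply_def, hab, hac, had, hbc, hbd, hcd, hab.symm, hac.symm, had.symm, hbc.symm, hbd.symm, hcd.symm]
  have s6b : (Equiv.swap b d * Equiv.swap d c) b = d := by
    simp [Equiv.Perm.mul_apply, Equiv.swap_apply_def, hab, hac, had, hbc, hbd, hcd, hab.symm, hac.symm, had.symm, hbc.symm, hbd.symm, hcd.symm]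
  have s6c : (Equiv.swap b d * Equiv.swap d c) c = b := by
    simp [Equiv.Perm.mul_apply, Equiv.swap_apply_def, hab, hac, had, hbc, hbd, hcd, hab.symm, hac.symm, had.symm, hbc.symm, hbd.symm, hcd.symm]
  have s6d : (Equiv.swap b d * Equiv.swap d c) d = c := by
    simp [Equiv.Perm.mul_apply, Equiv.swap_apply_def, hab, hac, had, hbc, hbd, hcd, hab.symm, hac.symm, had.symm, hbc.symm, hbd.symm, hcd.symm]
  have s6o : ∀ p, p ≠ a → p ≠ b → p ≠ c → p ≠ d → (Equiv.swap b d * Equiv.swap d c) p = p := by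
    intro p hpa hpb hpc hpd
    simp [Equiv.Perm.mul_apply, Equiv.swap_apply_def, hpa, hpb, hpc, hpd]
  have s7a : (Equiv.swap a d * Equiv.swap d b) a = d := by
    simp [Equiv.Perm.mul_apply, Equiv.swap_apply_def, hab, hac, had, hbc, hbd, hcd, hab.symm, hac.symm, had.symm, hbc.symm, hbd.symm, hcd.symm]
  have s7b : (Equiv.swap a d * Equiv.swap d b) b = a := by
    simp [Equiv.Perm.mul_apply, Equiv.swap_apply_def, hab, hac, had, hbc, hbd, hcd, hab.symm, hac.symm, had.symm, hbc.symm, hbd.symm, hcd.symm]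
  have s7c : (Equiv.swap a d * Equiv.swap d b) c = c := by
    simp [Equiv.Perm.mul_apply, Equiv.swap_apply_def, hab, hac, had, hbc, hbd, hcd, hab.symm, hac.symm, had.symm, hbc.symm, hbd.symm, hcd.symm]
  have s7d : (Equiv.swap a d * Equiv.swap d b) d = b := by
    simp [Equiv.Perm.mul_apply, Equiv.swap_apply_def, hab, hac, had, hbc, hbd, hcd, hab.symm, hac.symm, had.symm, hbc.symm, hbd.symm, hcd.symm]
  have s7o : ∀ p, p ≠ a → p ≠ b → p ≠ c → p ≠ d → (Equiv.swap a d * Equiv.swap d b) p = p := by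
    intro p hpa hpb hpc hpd
    simp [Equiv.Perm.mul_apply, Equiv.swap_apply_def, hpa, hpb, hpc, hpd]
  obtain ⟨r1, c1, hc1, H1⟩ := hT (Equiv.swap a b * Equiv.swap c d)
    (by rw [Equiv.Perm.sign_mul, Equiv.Perm.sign_swap hab, Equiv.Perm.sign_swap hcd]; rfl)
    (hu _ s1o)
  obtain ⟨r2, c2, hc2, H2⟩ := hT (Equiv.swap a c * Equiv.swap b d)
    (by rw [Equiv.Perm.sign_mul, Equiv.Perm.sign_swap hac, Equiv.Perm.sign_swap hbd]; rfl)
    (hu _ s2o)
  obtain ⟨r3, c3, hc3, H3⟩ := hT (Equiv.swap a d * Equiv.swap b c)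
    (by rw [Equiv.Perm.sign_mul, Equiv.Perm.sign_swap had, Equiv.Perm.sign_swap hbc]; rfl)
    (hu _ s3o)
  obtain ⟨r4, c4, hc4, H4⟩ := hT (Equiv.swap a b * Equiv.swap b c)
    (by rw [Equiv.Perm.sign_mul, Equiv.Perm.sign_swap hab, Equiv.Perm.sign_swap hbc]; rfl)
    (hu _ s4o)
  obtain ⟨r5, c5, hc5, H5⟩ := hT (Equiv.swap a c * Equiv.swap c d)
    (by rw [Equiv.Perm.sign_mul, Equiv.Perm.sign_swap hac, Equiv.Perm.sign_swap hcd]; rfl)
    (hu _ s5o)
  obtain ⟨r6, c6, hc6, H6⟩ := hT (Equiv.swap b d * Equiv.swap d c)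
    (by rw [Equiv.Perm.sign_mul, Equiv.Perm.sign_swap hbd, Equiv.Perm.sign_swap hcd.symm]; rfl)
    (hu _ s6o)
  obtain ⟨r7, c7, hc7, H7⟩ := hT (Equiv.swap a d * Equiv.swap d b)
    (by rw [Equiv.Perm.sign_mul, Equiv.Perm.sign_swap had, Equiv.Perm.sign_swap hbd.symm]; rfl)
    (hu _ s7o)
  obtain ⟨F1, M1⟩ := c2_twist_eval g l r _ r1 c1 H1
  obtain ⟨F2, M2⟩ := c2_twist_eval g l r _ r2 c2 H2
  obtain ⟨F3, M3⟩ := c2_twist_eval g l r _ r3 c3 H3
  obtain ⟨F4, M4⟩ := c2_twist_eval g l r _ r4 c4 H4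
  obtain ⟨F5, M5⟩ := c2_twist_eval g l r _ r5 c5 H5
  obtain ⟨F6, M6⟩ := c2_twist_eval g l r _ r6 c6 H6
  obtain ⟨F7, M7⟩ := c2_twist_eval g l r _ r7 c7 H7
  -- the relation `v0 + v1 + v2 + v3 = v4 + v5 + v6 + v7`
  have key : ∀ p, g.1 p r + c1 * g.1 p r1 + c2 * g.1 p r2 + c3 * g.1 p r3
      - c4 * g.1 p r4 - c5 * g.1 p r5 - c6 * g.1 p r6 - c7 * g.1 p r7 = 0 := by
    intro p
    by_cases hpa : p = a
    · rw [hpa, M1 b a s1b hab, M2 c a s2c hac, M3 d a s3d had, M4 c a s4c hac, M5 d a s5d had, F6 a s6a, M7 b a s7b hab]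
      ring
    by_cases hpb : p = b
    · rw [hpb, M1 a b s1a hab.symm, M2 d b s2d hbd, M3 c b s3c hbc, M4 a b s4a hab.symm, F5 b s5b, M6 c b s6c hbc, M7 d b s7d hbd]
      ring
    by_cases hpc : p = c
    · rw [hpc, M1 d c s1d hcd, M2 a c s2a hac.symm, M3 b c s3b hbc.symm, M4 b c s4b hbc.symm, M5 a c s5a hac.symm, M6 d c s6d hcd, F7 c s7c]
      ring
    by_cases hpd : p = d
    · rw [hpd, M1 c d s1c hcd.symm, M2 b d s2b hbd.symm, M3 a d s3a had.symm, F4 d s4d, M5 c d s5c hcd.symm, M6 b d s6b hbd.symm, M7 a d s7a had.symm]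
      ring
    · rw [F1 p (s1o p hpa hpb hpc hpd), F2 p (s2o p hpa hpb hpc hpd), F3 p (s3o p hpa hpb hpc hpd), F4 p (s4o p hpa hpb hpc hpd), F5 p (s5o p hpa hpb hpc hpd), F6 p (s6o p hpa hpb hpc hpd), F7 p (s7o p hpa hpb hpc hpd)]
      ring
  have hr1 : r1 ≠ r := by
    intro h
    have he1 := F1 e (s1o e hea heb hec hed)
    rw [h] at he1
    have hc' : c1 = 1 := mul_right_cancel₀ hfe (by rw [he1, one_mul])
    have h' := M1 d c s1d hcd
    rw [h, hc', one_mul] at h'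
    apply h3
    rw [h']
    field_simp
  have hr2 : r2 ≠ r := by
    intro h
    have he1 := F2 e (s2o e hea heb hec hed)
    rw [h] at he1
    have hc' : c2 = 1 := mul_right_cancel₀ hfe (by rw [he1, one_mul])
    have h' := M2 c a s2c hac
    rw [h, hc', one_mul] at h'
    apply h1
    rw [h']
    field_simp
  have hr3 : r3 ≠ r := by
    intro h
    have he1 := F3 e (s3o e hea heb hec hed)
    rw [h] at he1
    have hc' : c3 = 1 := mul_right_cancel₀ hfe (by rw [he1, one_mul])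
    have h' := M3 d a s3d had
    rw [h, hc', one_mul] at h'
    apply h2
    rw [h']
    field_simp
  have hr4 : r4 ≠ r := by
    intro h
    have he1 := F4 e (s4o e hea heb hec hed)
    rw [h] at he1
    have hc' : c4 = 1 := mul_right_cancel₀ hfe (by rw [he1, one_mul])
    have h' := M4 c a s4c hac
    rw [h, hc', one_mul] at h'
    apply h1
    rw [h']
    field_simp
  have hr5 : r5 ≠ r := by
    intro h
    have he1 := F5 e (s5o e hea heb hec hed)
    rw [h] at he1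
    have hc' : c5 = 1 := mul_right_cancel₀ hfe (by rw [he1, one_mul])
    have h' := M5 d a s5d had
    rw [h, hc', one_mul] at h'
    apply h2
    rw [h']
    field_simp
  have hr6 : r6 ≠ r := by
    intro h
    have he1 := F6 e (s6o e hea heb hec hed)
    rw [h] at he1
    have hc' : c6 = 1 := mul_right_cancel₀ hfe (by rw [he1, one_mul])
    have h' := M6 d c s6d hcd
    rw [h, hc', one_mul] at h'
    apply h3
    rw [h']
    field_simp
  have hr7 : r7 ≠ r := by
    intro h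
    have he1 := F7 e (s7o e hea heb hec hed)
    rw [h] at he1
    have hc' : c7 = 1 := mul_right_cancel₀ hfe (by rw [he1, one_mul])
    have h' := M7 d b s7d hbd
    rw [h, hc', one_mul] at h'
    apply h5
    rw [h']
    field_simp
  refine c2_cols_rel g ![r, r1, r2, r3, r4, r5, r6, r7] ![1, c1, c2, c3, -c4, -c5, -c6, -c7] 0
    (by simp) ?_ ?_
  · intro i hi
    fin_cases i
    · exact absurd rfl hi
    · exact hr1
    · exact hr2
    · exact hr3
    · exact hr4
    · exact hr5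
    · exact hr6
    · exact hr7
  · intro p
    rw [Fin.sum_univ_eight]
    simp only [Matrix.cons_val_zero, Matrix.cons_val_one, Matrix.cons_val]
    linear_combination key p

/-- PIECE I2b: no pattern with three distinct values -/
theorem nf_pat_b (n : ℕ) (hn : 7 ≤ n)
    (M : Subgroup (GL (Fin n) K)) (hH : MonSLLE M) (hNF : NoFix M)
    (g : GL (Fin n) K) (hg : g ∈ M)
    (hD1 : ∀ t a b : Fin n, a ≠ b → g.1 a t = 0 → g.1 b t = 0 → False)
    (l r : Fin n) (hlr : l ≠ r) (a b c d : Fin n)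
    (hab : a ≠ b) (hac : a ≠ c) (had : a ≠ d) (hbc : b ≠ c) (hbd : b ≠ d) (hcd : c ≠ d)
    (ha : g.1 a l ≠ 0) (hb : g.1 b l ≠ 0) (hc : g.1 c l ≠ 0) (hd : g.1 d l ≠ 0)
    (h1 : g.1 a r * g.1 c l ≠ g.1 c r * g.1 a l)
    (h2 : g.1 a r * g.1 d l ≠ g.1 d r * g.1 a l)
    (h3 : g.1 c r * g.1 d l ≠ g.1 d r * g.1 c l)
    (h4 : g.1 b r * g.1 c l ≠ g.1 c r * g.1 b l)
    (h5 : g.1 b r * g.1 d l ≠ g.1 d r * g.1 b l) : False :=
  nf_pat_b_core n hn g hD1 l r
    (fun σ hσ hu => Cfsg.Agent.Helper14.C2T.nf_twist_cols n M hH hNF g hg l σ hσ hu r)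
    a b c d hab hac had hbc hbd hcd ha hb hc hd h1 h2 h3 h5

end Cfsg.Agent.Helper39.C2I2b
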