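/-
helper39: CALL S5975 piece R3.
-/
import Mathlib
import Cfsg.Prelude.Def_GeometricClasses
import Cfsg.Prelude.Def_ClassicalGeometry
import Cfsg.Agent.Helper96.C3SDefs
import Cfsg.Agent.Helper81.C3SPHI
import Cfsg.Agent.Helper81.C3SWLIB
import Cfsg.Agent.Helper94.SpGen
import Cfsg.Agent.Helper13.TIBad
import Cfsg.Agent.Helper59.TIMAXTI
import Cfsg.Agent.Helper11.TIFIX
import Cfsg.Agent.Helper70.TISCAL
import Cfsg.Agent.Helper51.TIORD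
import Cfsg.Agent.Helper5.SympCard
import Cfsg.Agent.Helper58.TICW


set_option autoImplicit false

namespace Cfsg.Agent.Helper39

open Matrix Module


/-- PIECE R3 (JMAT is the hypothesis `hjmat`; Chevalley–Warning = `Helper58 ti_cw`):
`x² = -1` with `-1` a non-square -/
theorem c3e_r3 {F : Type*} [Field F] [Fintype F]
    (hjmat : ∀ (n : F) (e₁ e₂ f₁ f₂ : Fin 2 ⊕ Fin 2 → F), Cfsg.sympForm 2 F e₁ f₁ = 1 →
      Cfsg.sympForm 2 F e₂ f₂ = 1 → Cfsg.sympForm 2 F e₁ f₂ = 0 → Cfsg.sympForm 2 F e₂ f₁ = 0 →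
      Cfsg.sympForm 2 F e₁ e₂ = 0 → Cfsg.sympForm 2 F f₁ f₂ = 0 →
      ∃ J' : Matrix (Fin 2 ⊕ Fin 2) (Fin 2 ⊕ Fin 2) F, J' * J' = n • (1 : Matrix _ _ F) ∧
        (∀ u v, Cfsg.sympForm 2 F (J' *ᵥ u) v = Cfsg.sympForm 2 F u (J' *ᵥ v)) ∧
        J' *ᵥ e₁ = e₂ ∧ J' *ᵥ e₂ = n • e₁ ∧ J' *ᵥ f₁ = n • f₂ ∧ J' *ᵥ f₂ = f₁ ∧
        ∀ M M' : Matrix (Fin 2 ⊕ Fin 2) (Fin 2 ⊕ Fin 2) F, M *ᵥ e₁ = M' *ᵥ e₁ →
          M *ᵥ e₂ = M' *ᵥ e₂ → M *ᵥ f₁ = M' *ᵥ f₁ → M *ᵥ f₂ = M' *ᵥ f₂ → M = M')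
    (h2 : (2 : F) ≠ 0) (hns : ¬ IsSquare (-1 : F))
    (x : GL (Fin 2 ⊕ Fin 2) F) (hx : x ∈ Cfsg.spGL 2 F)
    (hx2 : ((x ^ 2 : GL (Fin 2 ⊕ Fin 2) F) : Matrix (Fin 2 ⊕ Fin 2) (Fin 2 ⊕ Fin 2) F) =
      (-1 : F) • 1) :
    ∃ J' : Matrix (Fin 2 ⊕ Fin 2) (Fin 2 ⊕ Fin 2) F, J' * J' = (-1 : F) • (1 : Matrix _ _ F) ∧
      (∀ u v, Cfsg.sympForm 2 F (J' *ᵥ u) v = Cfsg.sympForm 2 F u (J' *ᵥ v)) ∧
      (x : Matrix (Fin 2 ⊕ Fin 2) (Fin 2 ⊕ Fin 2) F) * J' =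
        J' * (x : Matrix (Fin 2 ⊕ Fin 2) (Fin 2 ⊕ Fin 2) F) := by
  classical
  obtain ⟨X, hXdef⟩ : ∃ X : Matrix (Fin 2 ⊕ Fin 2) (Fin 2 ⊕ Fin 2) F,
      X = (x : Matrix (Fin 2 ⊕ Fin 2) (Fin 2 ⊕ Fin 2) F) := ⟨_, rfl⟩
  rw [← hXdef]
  have hX2 : X * X = (-1 : F) • (1 : Matrix (Fin 2 ⊕ Fin 2) (Fin 2 ⊕ Fin 2) F) := by
    rw [← hx2, Units.val_pow_eq_pow_val, pow_two, hXdef]
  have hXX : ∀ v : Fin 2 ⊕ Fin 2 → F, X *ᵥ (X *ᵥ v) = -v := by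
    intro v
    rw [Matrix.mulVec_mulVec, hX2, Matrix.smul_mulVec, Matrix.one_mulVec, neg_one_smul]
  obtain ⟨Bf, hB⟩ : ∃ Bf : LinearMap.BilinForm F (Fin 2 ⊕ Fin 2 → F),
      ∀ u v, Bf u v = Cfsg.sympForm 2 F u v :=
    ⟨Cfsg.Agent.Helper94.sympB 2 F, fun u v => Cfsg.Agent.Helper94.sympB_apply u v⟩
  have hpres : ∀ u v, Bf (X *ᵥ u) (X *ᵥ v) = Bf u v := by
    intro u v
    rw [hB, hB, hXdef]
    exact hx u v
  have hself : ∀ v, Bf v v = 0 := fun v => by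
    rw [hB]; exact Cfsg.Agent.Helper94.symp_self v
  have hskew : ∀ u v, Bf u v = - Bf v u := fun u v => by
    rw [hB, hB]; exact Cfsg.Agent.Helper94.symp_skew u v
  have hadj : ∀ u v, Bf (X *ᵥ u) v = - Bf u (X *ᵥ v) := by
    intro u v
    have h := hpres u (X *ᵥ v)
    rw [hXX, map_neg] at h
    rw [← h, neg_neg]
  have hfr : 2 * ({1} : Finset ℕ).card <
      finrank F (⊤ : Submodule F (Fin 2 ⊕ Fin 2 → F)) := by
    rw [finrank_top, Module.finrank_fintype_fun_eq_card, Fintype.card_sum, Fintype.card_fin,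
      Finset.card_singleton]
    norm_num
  obtain ⟨u, -, hu0, hu⟩ := Cfsg.Agent.Helper58.TI5955.ti_cw Bf (Matrix.toLin' X) ⊤ {1} hfr
  have hu1 : Bf u (X *ᵥ u) = 0 := by
    have h := hu 1 (Finset.mem_singleton_self 1)
    rw [pow_one, Matrix.toLin'_apply] at h
    exact h
  obtain ⟨y, hy⟩ := Cfsg.Agent.Helper94.sf_exists_ne u hu0
  rw [← hB] at hy
  obtain ⟨a, ha⟩ : ∃ a : F, a = Bf u y := ⟨_, rfl⟩
  obtain ⟨b, hb⟩ : ∃ b : F, b = Bf (X *ᵥ u) y := ⟨_, rfl⟩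
  rw [← ha] at hy
  have hab : a * a + b * b ≠ 0 := by
    intro h
    apply hns
    refine ⟨b / a, ?_⟩
    rw [div_mul_div_comm, eq_div_iff (mul_ne_zero hy hy)]
    linear_combination (-1 : F) * h
  have huXy : Bf u (X *ᵥ y) = -b := by
    have h := hadj u y
    rw [← hb] at h
    rw [h, neg_neg]
  have hXuXy : Bf (X *ᵥ u) (X *ᵥ y) = a := by rw [hpres, ha]
  obtain ⟨w, hw⟩ : ∃ w : Fin 2 ⊕ Fin 2 → F,
      w = (a / (a * a + b * b)) • y + (-b / (a * a + b * b)) • (X *ᵥ y) := ⟨_, rfl⟩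
  have hw1 : Bf u w = 1 := by
    rw [hw, map_add, map_smul, map_smul, huXy, ← ha, smul_eq_mul, smul_eq_mul,
      div_mul_eq_mul_div, div_mul_eq_mul_div, ← add_div, div_eq_one_iff_eq hab]
    ring
  have hw2 : Bf (X *ᵥ u) w = 0 := by
    rw [hw, map_add, map_smul, map_smul, hXuXy, ← hb, smul_eq_mul, smul_eq_mul]
    field_simp
    ring
  obtain ⟨c, hc⟩ : ∃ c : F, c = - Bf w (X *ᵥ w) / 2 := ⟨_, rfl⟩
  obtain ⟨w', hw'⟩ : ∃ w' : Fin 2 ⊕ Fin 2 → F, w' = w + c • (X *ᵥ u) := ⟨_, rfl⟩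
  have h11 : Bf u w' = 1 := by
    rw [hw', map_add, map_smul, hw1, hu1, smul_zero, add_zero]
  have h21 : Bf (X *ᵥ u) w' = 0 := by
    rw [hw', map_add, map_smul, hw2, hself, smul_zero, add_zero]
  have hXw' : X *ᵥ w' = X *ᵥ w + c • (-u) := by
    rw [hw', Matrix.mulVec_add, Matrix.mulVec_smul, hXX]
  have hwu : Bf w u = -1 := by rw [hskew, hw1]
  have hXuu : Bf (X *ᵥ u) u = 0 := by rw [hskew, hu1, neg_zero]
  have hff : Bf w' (X *ᵥ w') = 0 := by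
    rw [hXw', hw']
    simp only [map_add, map_smul, map_neg, LinearMap.add_apply, LinearMap.smul_apply,
      smul_eq_mul, hpres, hw1, hwu, hXuu]
    rw [hc]
    field_simp
    ring
  have h12 : Bf u (X *ᵥ w') = 0 := by
    have h := hadj u w'
    rw [h21] at h
    exact neg_eq_zero.mp h.symm
  have h22 : Bf (X *ᵥ u) (X *ᵥ w') = 1 := by rw [hpres, h11]
  rw [hB] at h11 h21 hff h12 h22 hu1
  obtain ⟨J', hJ2, hJsa, hJe1, hJe2, hJf1, hJf2, hJu⟩ :=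
    hjmat (-1) u (X *ᵥ u) w' (X *ᵥ w') h11 h22 h12 h21 hu1 hff
  refine ⟨J', hJ2, hJsa, ?_⟩
  apply hJu (X * J') (J' * X)
  · rw [← Matrix.mulVec_mulVec, ← Matrix.mulVec_mulVec, hJe1, hXX, hJe2, neg_one_smul]
  · rw [← Matrix.mulVec_mulVec, ← Matrix.mulVec_mulVec, hJe2, hXX, Matrix.mulVec_smul,
      Matrix.mulVec_neg, hJe1, neg_one_smul]
  · rw [← Matrix.mulVec_mulVec, ← Matrix.mulVec_mulVec, hJf1, hJf2, Matrix.mulVec_smul, hXX,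
      neg_one_smul, neg_neg]
  · rw [← Matrix.mulVec_mulVec, ← Matrix.mulVec_mulVec, hJf2, hXX, Matrix.mulVec_neg, hJf1,
      neg_one_smul, neg_neg]

end Cfsg.Agent.Helper39
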