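import Mathlib
import Cfsg.Agent.Helper43.C3ODefs

/-!
CALL C3O (helper43, S5977 + S5978), piece AEV: an involution of determinant one has an even-dimensional `-1`-eigenspace (helper39).
-/

set_option autoImplicit false

namespace Cfsg.Agent.Helper39

open Matrix Module Polynomial
open Cfsg.Agent.Helper43.C3O

universe u

section quad

variable {F : Type u} [Field F] [Fintype F] {ι : Type} [Fintype ι] [DecidableEq ι]

theorem aev39_lin {V : Type*} [AddCommGroup V] [Module F V] [FiniteDimensional F V]
    (h2 : (2 : F) ≠ 0) (f : V →ₗ[F] V) (hff : ∀ v, f (f v) = v) :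
    LinearMap.det f = (-1) ^ Module.finrank F (LinearMap.ker (f + 1)) := by
  have hcompl : IsCompl (LinearMap.ker (f - 1)) (LinearMap.ker (f + 1)) := by
    constructor
    · rw [Submodule.disjoint_def]
      intro v hv1 hv2
      rw [LinearMap.mem_ker, LinearMap.sub_apply, Module.End.one_apply, sub_eq_zero] at hv1
      rw [LinearMap.mem_ker, LinearMap.add_apply, Module.End.one_apply, hv1] at hv2
      have h3 : (2 : F) • v = 0 := by rw [two_smul]; exact hv2
      exact (smul_eq_zero.mp h3).resolve_left h2
    · rw [codisjoint_iff, eq_top_iff]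
      intro v _
      have h3 : v = (2 : F)⁻¹ • (v + f v) + (2 : F)⁻¹ • (v - f v) := by
        rw [← smul_add, show v + f v + (v - f v) = (2 : F) • v by rw [two_smul]; abel,
          smul_smul, inv_mul_cancel₀ h2, one_smul]
      rw [h3]
      apply Submodule.add_mem_sup
      · rw [LinearMap.mem_ker, LinearMap.sub_apply, Module.End.one_apply, map_smul, map_add, hff,
          add_comm (f v) v, sub_self]
      · rw [LinearMap.mem_ker, LinearMap.add_apply, Module.End.one_apply, map_smul, map_sub, hff,
          ← smul_add]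
        have h4 : f v - v + (v - f v) = 0 := by abel
        rw [h4, smul_zero]
  obtain ⟨e, he⟩ : ∃ e : (↥(LinearMap.ker (f - 1)) × ↥(LinearMap.ker (f + 1))) ≃ₗ[F] V,
      e = Submodule.prodEquivOfIsCompl _ _ hcompl := ⟨_, rfl⟩
  obtain ⟨g, hg⟩ : ∃ g : (↥(LinearMap.ker (f - 1)) × ↥(LinearMap.ker (f + 1))) →ₗ[F]
      (↥(LinearMap.ker (f - 1)) × ↥(LinearMap.ker (f + 1))),
      g = LinearMap.prodMap LinearMap.id ((-1 : F) • LinearMap.id) := ⟨_, rfl⟩
  have hconj : f = (e : _ →ₗ[F] V) ∘ₗ g ∘ₗ (e.symm : V →ₗ[F] _) := by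
    apply LinearMap.ext
    intro v
    obtain ⟨⟨a, b⟩, rfl⟩ := e.surjective v
    rw [LinearMap.comp_apply, LinearMap.comp_apply, LinearEquiv.coe_coe, LinearEquiv.coe_coe,
      LinearEquiv.symm_apply_apply, hg, LinearMap.prodMap_apply, he,
      Submodule.coe_prodEquivOfIsCompl', Submodule.coe_prodEquivOfIsCompl']
    have ha : f (a : V) = a := by
      have h5 := a.2
      rw [LinearMap.mem_ker, LinearMap.sub_apply, Module.End.one_apply, sub_eq_zero] at h5
      exact h5
    have hb : f (b : V) = -(b : V) := by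
      have h5 := b.2
      rw [LinearMap.mem_ker, LinearMap.add_apply, Module.End.one_apply] at h5
      exact eq_neg_of_add_eq_zero_left h5
    simp only [map_add, ha, hb, LinearMap.id_apply, LinearMap.smul_apply, neg_smul, one_smul,
      Submodule.coe_neg]
  have hdetf : LinearMap.det f = LinearMap.det g :=
    (congrArg (fun h => LinearMap.det h) hconj).trans (LinearMap.det_conj g e)
  rw [hdetf, hg, LinearMap.det_prodMap, LinearMap.det_id, one_mul,
    LinearMap.det_smul, LinearMap.det_id, mul_one]

/-- PIECE AEV -/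
theorem c3o_aev {ι' : Type*} [Fintype ι'] [DecidableEq ι'] (h2 : (2 : F) ≠ 0)
    (M : Matrix ι' ι' F) (hM : M * M = 1) (hdet : M.det = 1) :
    Even (Module.finrank F (LinearMap.ker (Matrix.toLin' M + 1))) := by
  have hff : ∀ v, Matrix.toLin' M (Matrix.toLin' M v) = v := by
    intro v
    rw [← LinearMap.comp_apply, ← Matrix.toLin'_mul, hM, Matrix.toLin'_one, LinearMap.id_apply]
  have h3 := aev39_lin h2 (Matrix.toLin' M) hff
  rw [LinearMap.det_toLin', hdet] at h3
  have hne : (-1 : F) ≠ 1 := by
    intro h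
    apply h2
    have h4 : (2 : F) = 1 - (-1) := by norm_num
    rw [h4, h, sub_self]
  exact (neg_one_pow_eq_one_iff_even hne).mp h3.symm

end quad

end Cfsg.Agent.Helper39
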