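import Mathlib
import Cfsg.Agent.Helper43.C3ODefs

/-!
CALL C3O (helper43, S5977 + S5978), pieces FFSQ0 and FFSQ: squares in the quadratic extension `F(√n)` in coordinates (helper39).
-/

set_option autoImplicit false

namespace Cfsg.Agent.Helper39

open Matrix Module Polynomial
open Cfsg.Agent.Helper43.C3O

universe u

section quad

variable {F : Type u} [Field F] [Fintype F] {ι : Type} [Fintype ι] [DecidableEq ι]

/-- In a finite field with a nonsquare `n`, a nonzero element is a square or `n` times a square. -/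
theorem ffsq39_dich (n : F) (hn : ¬ IsSquare n) (a : F) (ha : a ≠ 0) :
    ∃ c : F, c ≠ 0 ∧ (a = c ^ 2 ∨ a = n * c ^ 2) := by
  classical
  have hn0 : n ≠ 0 := by
    rintro rfl
    exact hn ⟨0, by ring⟩
  by_cases hsq : IsSquare a
  · obtain ⟨c, hc⟩ := hsq
    refine ⟨c, ?_, Or.inl (by rw [hc]; ring)⟩
    rintro rfl
    apply ha
    rw [hc]; ring
  · have h1 : quadraticChar F a = -1 := quadraticChar_neg_one_iff_not_isSquare.mpr hsq
    have h2 : quadraticChar F n = -1 := quadraticChar_neg_one_iff_not_isSquare.mpr hn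
    have h3 : quadraticChar F (a * n) = 1 := by
      rw [map_mul, h1, h2]; norm_num
    have h4 : IsSquare (a * n) := (quadraticChar_one_iff_isSquare (mul_ne_zero ha hn0)).mp h3
    obtain ⟨d, hd⟩ := h4
    have hd0 : d ≠ 0 := by
      rintro rfl
      rw [mul_zero] at hd
      exact mul_ne_zero ha hn0 hd
    refine ⟨d / n, div_ne_zero hd0 hn0, Or.inr ?_⟩
    field_simp
    rw [hd]; ring

theorem ffsq39_aux (h2 : (2 : F) ≠ 0) (n : F) (hn : ¬ IsSquare n) (a b Y : F) (ha : a ≠ 0)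
    (hab : 4 * (a * b) = n * Y ^ 2) : ∃ x y : F, x ^ 2 + n * y ^ 2 = a + b ∧ 2 * x * y = Y := by
  have hn0 : n ≠ 0 := by
    rintro rfl
    exact hn ⟨0, by ring⟩
  obtain ⟨c, hc0, hc | hc⟩ := ffsq39_dich n hn a ha
  · refine ⟨c, Y / (2 * c), ?_, ?_⟩
    · have hb : n * (Y / (2 * c)) ^ 2 = b := by
        rw [div_pow, mul_div_assoc', div_eq_iff (pow_ne_zero 2 (mul_ne_zero h2 hc0))]
        rw [hc] at hab
        linear_combination -hab
      rw [hb, hc]
    · field_simp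
  · refine ⟨Y / (2 * c), c, ?_, ?_⟩
    · have hb : (Y / (2 * c)) ^ 2 = b := by
        rw [div_pow, div_eq_iff (pow_ne_zero 2 (mul_ne_zero h2 hc0))]
        rw [hc] at hab
        have h3 : n * (Y ^ 2 - b * (2 * c) ^ 2) = 0 := by linear_combination -hab
        have h4 := (mul_eq_zero.mp h3).resolve_left hn0
        linear_combination h4
      rw [hb, hc]
      ring
    · field_simp

/-- PIECE FFSQ0 -/
theorem c3o_ffsq0 (h2 : (2 : F) ≠ 0) (n : F) (hn : ¬ IsSquare n) (X Y s : F) (hs : s ≠ 0)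
    (h : X ^ 2 - n * Y ^ 2 = s ^ 2) : ∃ x y : F, x ^ 2 + n * y ^ 2 = X ∧ 2 * x * y = Y := by
  have h4ab : 4 * ((X + s) / 2 * ((X - s) / 2)) = n * Y ^ 2 := by
    have h5 : 4 * ((X + s) / 2 * ((X - s) / 2)) = X ^ 2 - s ^ 2 := by
      field_simp
      ring
    rw [h5]
    linear_combination h
  have hsum : (X + s) / 2 + (X - s) / 2 = X := by
    field_simp
    ring
  by_cases ha : (X + s) / 2 = 0
  · have hb : (X - s) / 2 ≠ 0 := by
      intro hb
      apply hs
      have h6 : s = (X + s) / 2 - (X - s) / 2 := by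
        field_simp
        ring
      rw [h6, ha, hb, sub_zero]
    obtain ⟨x, y, h7, h8⟩ := ffsq39_aux h2 n hn ((X - s) / 2) ((X + s) / 2) Y hb
      (by rw [mul_comm ((X - s) / 2)]; exact h4ab)
    exact ⟨x, y, by rw [h7, add_comm, hsum], h8⟩
  · obtain ⟨x, y, h7, h8⟩ := ffsq39_aux h2 n hn ((X + s) / 2) ((X - s) / 2) Y ha h4ab
    exact ⟨x, y, by rw [h7, hsum], h8⟩

/-- PIECE FFSQ (FFSQ0 is a hypothesis) -/
theorem c3o_ffsq (h2 : (2 : F) ≠ 0) (n : F) (hn : ¬ IsSquare n)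
    (h0 : ∀ X Y s : F, s ≠ 0 → X ^ 2 - n * Y ^ 2 = s ^ 2 →
      ∃ x y : F, x ^ 2 + n * y ^ 2 = X ∧ 2 * x * y = Y)
    (A B A' B' s : F) (hs : s ≠ 0) (hAB : ¬ (A = 0 ∧ B = 0))
    (h : A' ^ 2 - n * B' ^ 2 = s ^ 2 * (A ^ 2 - n * B ^ 2)) :
    ∃ x y : F, A' = (x ^ 2 + n * y ^ 2) * A + 2 * n * x * y * B ∧
      B' = (x ^ 2 + n * y ^ 2) * B + 2 * x * y * A := by
  have hN : A ^ 2 - n * B ^ 2 ≠ 0 := by
    intro hN
    by_cases hB : B = 0
    · rw [hB] at hN
      have hA : A = 0 := by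
        have h3 : A ^ 2 = 0 := by linear_combination hN
        exact pow_eq_zero_iff (two_ne_zero) |>.mp h3
      exact hAB ⟨hA, hB⟩
    · apply hn
      refine ⟨A / B, ?_⟩
      field_simp
      linear_combination -hN
  obtain ⟨N, hNdef⟩ : ∃ N : F, N = A ^ 2 - n * B ^ 2 := ⟨_, rfl⟩
  rw [← hNdef] at hN h
  obtain ⟨x, y, hx, hy⟩ := h0 ((A' * A - n * B' * B) / N) ((B' * A - A' * B) / N) s hs (by
    field_simp
    rw [hNdef]
    rw [hNdef] at h
    linear_combination (A ^ 2 - n * B ^ 2) * h)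
  refine ⟨x, y, ?_, ?_⟩
  · rw [hx]
    have h3 : 2 * n * x * y * B = n * (2 * x * y) * B := by ring
    rw [h3, hy]
    field_simp
    rw [hNdef]
    ring
  · rw [hx, hy]
    field_simp
    rw [hNdef]
    ring

end quad

end Cfsg.Agent.Helper39
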