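import Mathlib
import Cfsg.Agent.Helper43.C3ODefs
import Cfsg.Agent.Helper45.Spinor
import Cfsg.Agent.Helper45.Eich

/-!
CALL C3O (helper43, S5977 + S5978), piece SIEGEL (helper39): the Eichler / Siegel transformation
attached to a singular vector `e` and a non-singular `w ⊥ e` is an isometry `u` with `u ^ p = 1`
and `(u - 1)² = e ⊗ φ`, `φ ≠ 0`.
-/

set_option autoImplicit false

namespace Cfsg.Agent.Helper39

open Matrix Module Polynomial
open Cfsg.Agent.Helper43.C3O

universe u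

section quad

variable {F : Type u} [Field F] [Fintype F] {ι : Type} [Fintype ι] [DecidableEq ι]

/-- PIECE SIEGEL -/
theorem c3o_siegel (h2 : (2 : F) ≠ 0) (Q : QuadraticForm F (ι → F))
    (hQ : (QuadraticMap.polarBilin Q).Nondegenerate) (p : ℕ) [Fact p.Prime] [CharP F p]
    (e w : ι → F) (he : Q e = 0) (he0 : e ≠ 0) (hw : Q w ≠ 0)
    (hew : QuadraticMap.polar ⇑Q e w = 0) :
    ∃ (u : ↥(Cfsg.isometryGroup F ⇑Q)) (φ : ι → F), u ^ p = 1 ∧ φ ≠ 0 ∧
      (gm u - 1) * (gm u - 1) = Matrix.vecMulVec e φ := by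
  classical
  have hpow : ∀ k : ℕ, ∀ x,
      Cfsg.Agent.Helper45.mv ⇑Q ((Cfsg.Agent.Helper45.eichO Q e w he hew) ^ k) x
        = Cfsg.Agent.Helper44.eich Q e ((k : F) • w) x := by
    intro k
    induction k with
    | zero =>
      intro x
      rw [pow_zero, Cfsg.Agent.Helper45.mv_one, Nat.cast_zero, zero_smul,
        Cfsg.Agent.Helper45.eich_zero]
    | succ k ih =>
      intro x
      rw [pow_succ, Cfsg.Agent.Helper45.mv_mul, Cfsg.Agent.Helper45.mv_eichO, ih,
        Cfsg.Agent.Helper44.eich_comp Q e ((k : F) • w) w he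
          (by rw [QuadraticMap.polar_smul_right, hew, smul_zero]) hew]
      congr 1
      rw [Nat.cast_succ, add_smul, one_smul]
  have hee : QuadraticMap.polar ⇑Q e e = 0 := by
    rw [Cfsg.Agent.Helper44.polar_self_eq, he, mul_zero]
  have hwe : QuadraticMap.polar ⇑Q w e = 0 := by
    rw [QuadraticMap.polar_comm]; exact hew
  have hww : QuadraticMap.polar ⇑Q w w = 2 * Q w := Cfsg.Agent.Helper44.polar_self_eq Q w
  refine ⟨Cfsg.Agent.Helper45.eichO Q e w he hew, -(2 * Q w) • Cfsg.polarVec ⇑Q e, ?_, ?_, ?_⟩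
  · apply Cfsg.Agent.Helper45.ext_mv
    intro x
    rw [hpow p x, CharP.cast_eq_zero F p, zero_smul, Cfsg.Agent.Helper45.eich_zero,
      Cfsg.Agent.Helper45.mv_one]
  · intro h0
    have h3 : Cfsg.polarVec ⇑Q e = 0 := by
      rcases smul_eq_zero.mp h0 with h | h
      · exfalso
        rw [neg_eq_zero] at h
        exact (mul_ne_zero h2 hw) h
      · exact h
    apply he0
    apply hQ.1 e
    intro y
    show QuadraticMap.polar ⇑Q e y = 0
    rw [← Cfsg.Agent.Helper13.polarVec_dotProduct, h3, zero_dotProduct]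
  · have hgm : gm (Cfsg.Agent.Helper45.eichO Q e w he hew) = Cfsg.Agent.Helper45.eichMat Q e w :=
      rfl
    rw [hgm, Cfsg.Agent.Helper45.eichMat]
    have hN : (1 + Matrix.vecMulVec e (Cfsg.polarVec ⇑Q w - Q w • Cfsg.polarVec ⇑Q e)
          - Matrix.vecMulVec w (Cfsg.polarVec ⇑Q e)) - 1
        = Matrix.vecMulVec e (Cfsg.polarVec ⇑Q w - Q w • Cfsg.polarVec ⇑Q e)
          - Matrix.vecMulVec w (Cfsg.polarVec ⇑Q e) := by abel
    have hαe : (Cfsg.polarVec ⇑Q w - Q w • Cfsg.polarVec ⇑Q e) ⬝ᵥ e = 0 := by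
      rw [sub_dotProduct, smul_dotProduct, Cfsg.Agent.Helper13.polarVec_dotProduct,
        Cfsg.Agent.Helper13.polarVec_dotProduct, hwe, hee, smul_zero, sub_zero]
    have hαw : (Cfsg.polarVec ⇑Q w - Q w • Cfsg.polarVec ⇑Q e) ⬝ᵥ w = 2 * Q w := by
      rw [sub_dotProduct, smul_dotProduct, Cfsg.Agent.Helper13.polarVec_dotProduct,
        Cfsg.Agent.Helper13.polarVec_dotProduct, hww, hew, smul_zero, sub_zero]
    have hβe : Cfsg.polarVec ⇑Q e ⬝ᵥ e = 0 := by
      rw [Cfsg.Agent.Helper13.polarVec_dotProduct, hee]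
    have hβw : Cfsg.polarVec ⇑Q e ⬝ᵥ w = 0 := by
      rw [Cfsg.Agent.Helper13.polarVec_dotProduct, hew]
    rw [hN, Matrix.sub_mul, Matrix.mul_sub, Matrix.mul_sub, Matrix.vecMulVec_mul_vecMulVec,
      Matrix.vecMulVec_mul_vecMulVec, Matrix.vecMulVec_mul_vecMulVec,
      Matrix.vecMulVec_mul_vecMulVec, hαe, hαw, hβe, hβw]
    ext i j
    simp only [Matrix.sub_apply, Matrix.vecMulVec_apply, Pi.smul_apply, Pi.sub_apply,
      smul_eq_mul, zero_mul, mul_zero, sub_zero, zero_sub, Pi.neg_apply]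
    ring

end quad

end Cfsg.Agent.Helper39
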