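import Mathlib
import Cfsg.Agent.Helper96.C3SDefs

/-!
# CALL S5664, piece TYPE2 (self-contained: local copies of the small facts it needs)
-/

set_option autoImplicit false

namespace Cfsg.Agent.Helper39.C3S

open Module Cfsg.Agent.Helper96.C3S

variable {F K V : Type*} [Field F] [Field K] [Algebra F K] [AddCommGroup V] [Module F V]
  [Module K V] [IsScalarTower F K V]

theorem t2_kT_iso (φ : LinearMap.BilinForm K V) (alt : ∀ v, φ v v = 0) (a : V) (c : K) (u v : V) :
    φ (kT φ a c u) (kT φ a c v) = φ u v := by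
  rw [kT_apply, kT_apply]
  simp only [map_add, map_smul, LinearMap.add_apply, LinearMap.smul_apply, smul_eq_mul, alt]
  rw [skew alt a v]
  ring

theorem t2_fT_nd [Finite F] [Finite K] (φ : LinearMap.BilinForm K V)
    (nd : ∀ u, (∀ v, φ u v = 0) → u = 0) (u : V) (h : ∀ v, fT (F := F) φ u v = 0) : u = 0 := by
  apply nd
  intro v
  apply trace_nd (F := F)
  intro k
  have := h (k • v)
  rw [fT_apply, map_smul, smul_eq_mul] at this
  exact this

theorem t2_inj [Finite F] [Finite K] {φ : LinearMap.BilinForm K V}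
    {P : Module.End F V → Prop} (h : Hyp φ P) (g : Module.End F V) (hg : P g) :
    Function.Injective g := by
  rw [injective_iff_map_eq_zero]
  intro v hv
  apply t2_fT_nd (F := F) φ h.nd
  intro u
  rw [← h.iso g hg, hv, map_zero, LinearMap.zero_apply]

theorem t2_p_inv [Fintype F] [Finite K] [Module.Finite K V] {φ : LinearMap.BilinForm K V}
    {P : Module.End F V → Prop} (h : Hyp φ P) (g : Module.End F V) (hg : P g) :
    ∃ g' : Module.End F V, g * g' = 1 ∧ g' * g = 1 ∧ P g' := by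
  haveI : Module.Finite F K := Module.Finite.of_finite
  haveI : Module.Finite F V := Module.Finite.trans K V
  have hinj := t2_inj h g hg
  have hsurj : Function.Surjective g := LinearMap.surjective_of_injective hinj
  obtain ⟨e, he⟩ : ∃ e : V ≃ₗ[F] V, ∀ v, e v = g v :=
    ⟨LinearEquiv.ofBijective g ⟨hinj, hsurj⟩, fun v => rfl⟩
  have h1 : g * e.symm.toLinearMap = 1 := by
    ext v
    rw [Module.End.mul_apply, LinearEquiv.coe_coe, ← he, LinearEquiv.apply_symm_apply,
      Module.End.one_apply]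
  have h2 : e.symm.toLinearMap * g = 1 := by
    ext v
    rw [Module.End.mul_apply, LinearEquiv.coe_coe, ← he, LinearEquiv.symm_apply_apply,
      Module.End.one_apply]
  exact ⟨e.symm.toLinearMap, h1, h2, h.grp.inv g _ hg h1 h2⟩

theorem t2_inW_facts [Finite F] [Finite K] {φ : LinearMap.BilinForm K V}
    {P : Module.End F V → Prop} (h : Hyp φ P) (X : Set V) (hX : InW K P X) :
    (0 : V) ∈ X ∧ (∀ x ∈ X, ∀ y ∈ X, x + y ∈ X) ∧ (∀ (t : F), ∀ x ∈ X, t • x ∈ X) ∧
      X.ncard = Nat.card K ∧ (∀ x ∈ X, ∀ y ∈ X, fT (F := F) φ x y = 0) := by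
  obtain ⟨g, a, hPg, ha, rfl⟩ := hX
  have hinj := t2_inj h g hPg
  refine ⟨⟨0, by simp⟩, ?_, ?_, ?_, ?_⟩
  · rintro _ ⟨k, rfl⟩ _ ⟨k', rfl⟩
    exact ⟨k + k', by rw [add_smul, map_add]⟩
  · rintro t _ ⟨k, rfl⟩
    refine ⟨t • k, ?_⟩
    rw [smul_assoc t k a, LinearMap.map_smul]
  · have hset : {x | ∃ k : K, x = g (k • a)} = (fun k : K => g (k • a)) '' Set.univ := by
      ext x; constructor
      · rintro ⟨k, rfl⟩; exact ⟨k, Set.mem_univ _, rfl⟩
      · rintro ⟨k, -, rfl⟩; exact ⟨k, rfl⟩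
    have hf : Function.Injective (fun k : K => g (k • a)) := by
      intro k k' hkk
      exact smul_left_injective K ha (hinj hkk)
    rw [hset, Set.ncard_image_of_injective _ hf, Set.ncard_univ]
  · rintro _ ⟨k, rfl⟩ _ ⟨k', rfl⟩
    rw [h.iso g hPg, fT_apply]
    simp only [map_smul, LinearMap.smul_apply, h.alt, smul_zero, map_zero]

theorem t2_inW_image {φ : LinearMap.BilinForm K V} {P : Module.End F V → Prop} (h : Hyp φ P)
    (X : Set V) (hX : InW K P X) (g : Module.End F V) (hg : P g) : InW K P (g '' X) := by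
  obtain ⟨g₁, a, hPg₁, ha, rfl⟩ := hX
  refine ⟨g * g₁, a, h.grp.mul g g₁ hg hPg₁, ha, ?_⟩
  ext x
  constructor
  · rintro ⟨_, ⟨k, rfl⟩, rfl⟩
    exact ⟨k, rfl⟩
  · rintro ⟨k, rfl⟩
    exact ⟨g₁ (k • a), ⟨k, rfl⟩, rfl⟩

theorem t2_inW_kline {φ : LinearMap.BilinForm K V} {P : Module.End F V → Prop} (h : Hyp φ P)
    (a : V) (ha : a ≠ 0) : InW K P (Kline K a) :=
  ⟨1, a, h.grp.one, ha, rfl⟩

theorem t2_exists_dual_vec [Module.Finite K V] (φ : LinearMap.BilinForm K V)
    (alt : ∀ v, φ v v = 0) (nd : ∀ u, (∀ v, φ u v = 0) → u = 0) (x y : V)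
    (hy : ∀ k : K, y ≠ k • x) : ∃ u : V, φ x u = 0 ∧ φ y u = 1 := by
  obtain ⟨χ, hχx, hχy⟩ := Helper98.c3_exists_dual (K := K) x y hy
  have hinj : Function.Injective (φ.flip : V →ₗ[K] Module.Dual K V) := by
    rw [injective_iff_map_eq_zero]
    intro u hu
    apply nd
    intro v
    have hvu : φ v u = 0 := congrArg (fun f : Module.Dual K V => f v) hu
    rw [skew alt u v, hvu, neg_zero]
  have hsurj : Function.Surjective (φ.flip : V →ₗ[K] Module.Dual K V) :=
    (LinearMap.injective_iff_surjective_of_finrank_eq_finrank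
      (Subspace.dual_finrank_eq (K := K) (V := V)).symm).1 hinj
  obtain ⟨u, hu⟩ := hsurj χ
  refine ⟨u, ?_, ?_⟩
  · rw [← hχx, ← hu]; rfl
  · rw [← hχy, ← hu]; rfl

/-- PIECE TYPE2 -/
theorem type2_false [Fintype F] [Finite K] [Module.Finite K V] {φ : LinearMap.BilinForm K V}
    {P : Module.End F V → Prop} (h : Hyp φ P) (a : V) (ha : a ≠ 0) (X : Set V) (hX : InW K P X)
    (hne : X ≠ Kline K a) (hint : ∃ x ∈ X, x ≠ 0 ∧ x ∈ Kline K a)
    (hmax : ∀ Y Z : Set V, InW K P Y → InW K P Z → Y ≠ Z →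
      (Y ∩ Z).ncard ≤ (X ∩ Kline K a).ncard)
    (hall : ∀ (a' : V) (X' : Set V), a' ≠ 0 → InW K P X' → X' ≠ Kline K a' →
      (X' ∩ Kline K a').ncard = (X ∩ Kline K a).ncard → ∀ x ∈ X', φ x a' = 0) : False := by
  classical
  haveI : Module.Finite F K := Module.Finite.of_finite
  haveI : Module.Finite F V := Module.Finite.trans K V
  haveI : Finite V := Module.finite_of_finite F
  obtain ⟨h0, hadd, hsm, hcard, hts⟩ := t2_inW_facts h X hX
  have hKl := t2_inW_kline h a ha
  obtain ⟨-, -, -, hcardK, -⟩ := t2_inW_facts h _ hKl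
  -- step 1
  obtain ⟨w₂, hw₂X, hw₂K⟩ : ∃ w₂ ∈ X, w₂ ∉ Kline K a := by
    by_contra hcon
    push Not at hcon
    exact hne (Set.eq_of_subset_of_ncard_le hcon (by rw [hcard, hcardK]) (Set.toFinite _))
  have hφX : ∀ x ∈ X, φ x a = 0 := hall a X ha hX hne rfl
  have hw₂a : φ w₂ a = 0 := hφX w₂ hw₂X
  -- step 2
  obtain ⟨u₁, hu₁a, hu₁w⟩ :=
    t2_exists_dual_vec φ h.alt h.nd a w₂ (fun k hk => hw₂K ⟨k, hk⟩)
  -- step 3
  obtain ⟨k, hk⟩ : ∃ k : K, ∀ l : K, l ≠ 0 → l • (u₁ + k • a) ∉ X := by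
    by_contra hcon
    push Not at hcon
    choose lam hlam0 hlamX using hcon
    have hφf : ∀ k, φ w₂ (lam k • (u₁ + k • a)) = lam k := by
      intro k
      rw [map_smul, map_add, map_smul, hu₁w, hw₂a, smul_zero, add_zero, smul_eq_mul, mul_one]
    have hfinj : Function.Injective (fun k : K => lam k • (u₁ + k • a)) := by
      intro k k' hkk
      have hkk' : lam k • (u₁ + k • a) = lam k' • (u₁ + k' • a) := hkk
      have h1 : lam k = lam k' := by rw [← hφf k, ← hφf k', hkk']
      rw [← h1] at hkk'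
      have h3 := smul_right_injective V (hlam0 k) hkk'
      have h4 : k • a = k' • a := add_left_cancel h3
      exact smul_left_injective K ha h4
    have hrange : (fun k : K => lam k • (u₁ + k • a)) '' Set.univ ⊆ X \ {0} := by
      rintro _ ⟨k, -, rfl⟩
      refine ⟨hlamX k, ?_⟩
      intro h0'
      have h5 := hφf k
      have h6 : lam k • (u₁ + k • a) = 0 := Set.mem_singleton_iff.1 h0'
      rw [h6, map_zero] at h5
      exact hlam0 k h5.symm
    have hc1 : ((fun k : K => lam k • (u₁ + k • a)) '' Set.univ).ncard = Nat.card K := by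
      rw [Set.ncard_image_of_injective _ hfinj, Set.ncard_univ]
    have hc2 : (X \ {0}).ncard = Nat.card K - 1 := by
      rw [Set.ncard_sdiff_singleton_of_mem h0, hcard]
    have hc3 := Set.ncard_le_ncard hrange (Set.toFinite _)
    have hpos : 0 < Nat.card K := Nat.card_pos
    omega
  obtain ⟨u, hu⟩ : ∃ u : V, u = u₁ + k • a := ⟨_, rfl⟩
  rw [← hu] at hk
  have hau : φ a u = 0 := by
    rw [hu, map_add, map_smul, hu₁a, h.alt, smul_zero, add_zero]
  have hw₂u : φ w₂ u = 1 := by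
    rw [hu, map_add, map_smul, hu₁w, hw₂a, smul_zero, add_zero]
  -- step 4: every nonzero element has trace zero
  have key : ∀ c : K, c ≠ 0 → Algebra.trace F K c = 0 := by
    intro c hc
    obtain ⟨y, hy⟩ : ∃ y : Module.End F V, y = (kT φ u c).restrictScalars F := ⟨_, rfl⟩
    have hPy : P y := by
      rw [hy]; exact h.lin _ (t2_kT_iso φ h.alt u c)
    have hyapp : ∀ v, y v = v + (c * φ v u) • u := by
      intro v; rw [hy]; exact kT_apply φ u c v
    have hyfix : ∀ x ∈ Kline K a, y x = x := by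
      rintro x ⟨z, rfl⟩
      rw [hyapp, map_smul, LinearMap.smul_apply, hau, smul_zero, mul_zero, zero_smul, add_zero]
    have hyw₂ : y w₂ = w₂ + c • u := by rw [hyapp, hw₂u, mul_one]
    have hyne : y '' X ≠ X := by
      intro heq
      have h1 : y w₂ ∈ X := by
        rw [← heq]; exact Set.mem_image_of_mem y hw₂X
      have h2 : c • u ∈ X := by
        have h3 := hadd _ h1 _ (hsm (-1) _ hw₂X)
        rw [hyw₂] at h3
        have h4 : w₂ + c • u + (-1 : F) • w₂ = c • u := by
          rw [neg_one_smul]; abel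
        rwa [h4] at h3
      exact hk c hc h2
    have hYin : InW K P (y '' X) := t2_inW_image h X hX y hPy
    have hsub : X ∩ Kline K a ⊆ y '' X ∩ X := by
      rintro x ⟨hxX, hxK⟩
      exact ⟨⟨x, hxX, hyfix x hxK⟩, hxX⟩
    have hcardeq : (y '' X ∩ X).ncard = (X ∩ Kline K a).ncard :=
      le_antisymm (hmax _ _ hYin hX hyne) (Set.ncard_le_ncard hsub (Set.toFinite _))
    -- pull back to a `K`-line
    obtain ⟨g₁, a₁, hPg₁, ha₁, hXeq⟩ := id hX
    obtain ⟨g₁', hg1, hg2, hPg₁'⟩ := t2_p_inv h g₁ hPg₁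
    have hg₁'inj : Function.Injective g₁' := t2_inj h g₁' hPg₁'
    have hg2app : ∀ v, g₁' (g₁ v) = v := by
      intro v
      have := congrArg (fun e : Module.End F V => e v) hg2
      simpa [Module.End.mul_apply] using this
    have hg1app : ∀ v, g₁ (g₁' v) = v := by
      intro v
      have := congrArg (fun e : Module.End F V => e v) hg1
      simpa [Module.End.mul_apply] using this
    have hXK : g₁' '' X = Kline K a₁ := by
      ext x
      constructor
      · rintro ⟨x', hx', rfl⟩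
        rw [hXeq] at hx'
        obtain ⟨k', rfl⟩ := hx'
        exact ⟨k', hg2app _⟩
      · rintro ⟨k', rfl⟩
        refine ⟨g₁ (k' • a₁), ?_, hg2app _⟩
        rw [hXeq]; exact ⟨k', rfl⟩
    have hX'in : InW K P (g₁' '' (y '' X)) := t2_inW_image h _ hYin g₁' hPg₁'
    have hX'ne : g₁' '' (y '' X) ≠ Kline K a₁ := by
      rw [← hXK]
      intro heq
      exact hyne (hg₁'inj.image_injective heq)
    have hX'card : (g₁' '' (y '' X) ∩ Kline K a₁).ncard = (X ∩ Kline K a).ncard := by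
      rw [← hXK, ← Set.image_inter hg₁'inj, Set.ncard_image_of_injective _ hg₁'inj, hcardeq]
    have hperp := hall a₁ _ ha₁ hX'in hX'ne hX'card
    have hp1 : φ (g₁' (y w₂)) a₁ = 0 :=
      hperp _ (Set.mem_image_of_mem _ (Set.mem_image_of_mem _ hw₂X))
    obtain ⟨k₂, hk₂⟩ : ∃ k₂ : K, w₂ = g₁ (k₂ • a₁) := by
      have := hw₂X
      rw [hXeq] at this
      exact this
    have hp2 : fT (F := F) φ (y w₂) w₂ = 0 := by
      have h6 : fT (F := F) φ (g₁ (g₁' (y w₂))) (g₁ (k₂ • a₁)) = 0 := by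
        rw [h.iso g₁ hPg₁, fT_apply, map_smul, hp1, smul_zero, map_zero]
      rw [hg1app, ← hk₂] at h6
      exact h6
    rw [hyw₂, fT_apply, map_add, LinearMap.add_apply, h.alt, zero_add, map_smul,
      LinearMap.smul_apply, skew h.alt u w₂, hw₂u, smul_eq_mul, mul_neg, mul_one, map_neg,
      neg_eq_zero] at hp2
    exact hp2
  obtain ⟨e, he⟩ := trace_surj (F := F) (K := K) (1 : F)
  by_cases he0 : e = 0
  · rw [he0, map_zero] at he
    exact zero_ne_one he
  · rw [key e he0] at he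
    exact zero_ne_one he

end Cfsg.Agent.Helper39.C3S
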