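import Mathlib
import Cfsg.Agent.Helper96.C3SDefs
import Cfsg.Agent.Helper39.C3STYPE2
import Cfsg.Agent.Helper28.C3STRANS
import Cfsg.Agent.Helper28.C3SCONJ
import Cfsg.Agent.Helper83.C3SHEIS
import Cfsg.Agent.Helper83.C3SFND

/-!
# CALL S5664, piece FINB3
-/

set_option autoImplicit false

namespace Cfsg.Agent.Helper39.C3S

open Module Cfsg.Agent.Helper96.C3S

variable {F K V : Type*} [Field F] [Field K] [Algebra F K] [AddCommGroup V] [Module F V]
  [Module K V] [IsScalarTower F K V]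

/-- conjugating a Siegel element in `P` by an element of `P` -/
theorem fb3_conj [Fintype F] [Finite K] [Module.Finite K V] {φ : LinearMap.BilinForm K V}
    {P : Module.End F V → Prop} (h : Hyp φ P) (g : Module.End F V) (hg : P g) (u w : V)
    (hE : P (eF φ u w)) : P (eF φ (g u) (g w)) := by
  obtain ⟨g', h1, h2, hg'⟩ := t2_p_inv h g hg
  rw [← Helper28.C3S.eF_conj φ g g' h1 h2 (h.iso g hg) u w]
  exact h.grp.mul _ _ (h.grp.mul _ _ hg hE) hg'

/-- PIECE FINB3 -/
theorem fin_B3 [Fintype F] [Finite K] [Module.Finite K V] (hr : (finrank F K).Prime)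
    {φ : LinearMap.BilinForm K V} {P : Module.End F V → Prop} (h : Hyp φ P) (a b : V)
    (hab : φ a b = 1) (hW : InW K P (Wstar F K a b))
    (hE : ∀ k₁ k₂ : K, P (eF φ (k₁ • a) (k₂ • a))) :
    ∃ u₀ : V, u₀ ≠ 0 ∧ ∀ s : F, P (tF φ u₀ s) := by
  classical
  have ha : a ≠ 0 := by
    intro ha0
    rw [ha0, map_zero, LinearMap.zero_apply] at hab
    exact zero_ne_one hab
  have hba : φ b a = -1 := by rw [skew h.alt b a, hab]
  obtain ⟨g, a₀, hPg, ha₀, hWeq⟩ := hW
  -- all `eF x y` with `x, y ∈ Wstar` are in `P`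
  obtain ⟨n, hniso, hna⟩ := Helper28.C3S.k_trans φ h.alt h.nd a a₀ ha ha₀
  have hPn : P (n.restrictScalars F) := h.lin n hniso
  have hE0 : ∀ k₁ k₂ : K, P (eF φ (k₁ • a₀) (k₂ • a₀)) := by
    intro k₁ k₂
    have := fb3_conj h _ hPn _ _ (hE k₁ k₂)
    rw [LinearMap.restrictScalars_apply, LinearMap.restrictScalars_apply, map_smul, map_smul,
      hna] at this
    exact this
  have hEW : ∀ x ∈ Wstar F K a b, ∀ y ∈ Wstar F K a b, P (eF φ x y) := by
    intro x hx y hy
    rw [hWeq] at hx hy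
    obtain ⟨k₁, rfl⟩ := hx
    obtain ⟨k₂, rfl⟩ := hy
    exact fb3_conj h g hPg _ _ (hE0 k₁ k₂)
  -- a nonzero trace-zero element
  obtain ⟨ζ, hζ0, hζ⟩ := Helper83.C3S.exists_trace_zero (F := F) (K := K) hr.two_le
  have hζW : ζ • a ∈ Wstar F K a b := ⟨ζ, 0, hζ, by rw [zero_smul, add_zero]⟩
  have hbW : b ∈ Wstar F K a b := ⟨0, 1, map_zero _, by rw [zero_smul, zero_add, one_smul]⟩
  have hP1 : P (eF φ (ζ • a) b) := hEW _ hζW _ hbW
  refine ⟨ζ • a, smul_ne_zero hζ0 ha, fun s => ?_⟩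
  obtain ⟨e, he⟩ := trace_surj (F := F) (K := K) s
  -- conjugate by `kT φ a (-e)`
  have hPx : P ((kT φ a (-e)).restrictScalars F) := h.lin _ (t2_kT_iso φ h.alt a (-e))
  have hx1 : (kT φ a (-e)).restrictScalars F (ζ • a) = ζ • a := by
    rw [LinearMap.restrictScalars_apply, kT_apply, map_smul, LinearMap.smul_apply, h.alt,
      smul_zero, mul_zero, zero_smul, add_zero]
  have hx2 : (kT φ a (-e)).restrictScalars F b = b + e • a := by
    rw [LinearMap.restrictScalars_apply, kT_apply, hba, mul_neg, mul_one, neg_neg]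
  have hP2 : P (eF φ (ζ • a) (b + e • a)) := by
    have := fb3_conj h _ hPx _ _ hP1
    rw [hx1, hx2] at this
    exact this
  -- the three orthogonality relations
  have hf1 : fT (F := F) φ (ζ • a) b = 0 := by
    rw [fT_apply, map_smul, LinearMap.smul_apply, hab, smul_eq_mul, mul_one, hζ]
  have hf2 : fT (F := F) φ (ζ • a) (e • a) = 0 := by
    rw [fT_apply]
    simp only [map_smul, LinearMap.smul_apply, h.alt, smul_zero, map_zero]
  have hf3 : fT (F := F) φ (ζ • a) (b + e • a) = 0 := by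
    rw [map_add, hf1, hf2, add_zero]
  have hf4 : fT (F := F) φ (e • a) b = s := by
    rw [fT_apply, map_smul, LinearMap.smul_apply, hab, smul_eq_mul, mul_one, he]
  -- the inverse of `eF (ζ a) (b + e a)`
  obtain ⟨hi1, hi2⟩ := Helper83.C3S.eF_inv (F := F) φ h.alt (ζ • a) (b + e • a) hf3
  have hP3 : P (eF φ (ζ • a) (-(b + e • a))) := h.grp.inv _ _ hP2 hi1 hi2
  have hheis := Helper83.C3S.eF_heis (F := F) φ h.alt (ζ • a) b (e • a) hf1 hf2
  rw [hf4] at hheis
  rw [← hheis]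
  exact h.grp.mul _ _ (h.grp.mul _ _ hP1 (hE ζ e)) hP3

end Cfsg.Agent.Helper39.C3S
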