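import Mathlib
import Cfsg.Prelude.Def_Sporadic
import Cfsg.Prelude.Def_Classical

set_option autoImplicit false

namespace Cfsg.Agent.Helper39

open Nat

theorem cube_lt_four_pow (p : ℕ) (hp : 5 ≤ p) : p ^ 3 < 4 ^ (p - 1) := by
  induction p, hp using Nat.le_induction with
  | base => norm_num
  | succ p hp ih =>
    have e0 : p + 1 - 1 = (p - 1) + 1 := by omega
    rw [e0, pow_succ 4 (p - 1)]
    have h1 : 5 * p ≤ p ^ 2 := by nlinarith
    have h2 : 5 * p ^ 2 ≤ p ^ 3 := by nlinarith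
    have e : (p + 1) ^ 3 = p ^ 3 + 3 * p ^ 2 + 3 * p + 1 := by ring
    rw [e]
    linarith

theorem alt_cube_aux (n N p : ℕ) (hN : 2 * N = n !) (hp : p.Prime) (hodd : p ≠ 2)
    (h3 : N.factorization p = 3) : p ^ 3 < 2 ^ N.factorization 2 := by
  have hN0 : N ≠ 0 := by
    rintro rfl
    rw [mul_zero] at hN
    exact (Nat.factorial_ne_zero n) hN.symm
  have hfac : (n !).factorization = (2 : ℕ).factorization + N.factorization := by
    rw [← hN, Nat.factorization_mul two_ne_zero hN0]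
  have h2fac : (2 : ℕ).factorization = Finsupp.single 2 1 := Nat.prime_two.factorization
  have hp3 : (n !).factorization p = 3 := by
    rw [hfac, h2fac, Finsupp.add_apply, Finsupp.single_apply, if_neg (Ne.symm hodd), zero_add, h3]
  have h22 : (n !).factorization 2 = 1 + N.factorization 2 := by
    rw [hfac, h2fac, Finsupp.add_apply, Finsupp.single_apply, if_pos rfl]
  have hp2 := hp.two_le
  have hp3' : 3 ≤ p := by omega
  have hn3p : 3 * p ≤ n := by
    by_contra hlt
    push Not at hlt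
    have hlog : Nat.log p n < 2 := Nat.log_lt_of_lt_pow (by
      rintro rfl
      rw [Nat.factorial_zero] at hp3
      simp at hp3) (by nlinarith)
    have h := Nat.factorization_factorial hp hlog
    rw [hp3] at h
    have e : ∑ i ∈ Finset.Ico 1 2, n / p ^ i = n / p := by
      rw [show Finset.Ico 1 2 = {1} from rfl, Finset.sum_singleton, pow_one]
    rw [e] at h
    have : n / p < 3 := Nat.div_lt_of_lt_mul (by linarith)
    omega
  have hp5 : 5 ≤ p := by
    by_contra hlt
    have : p = 3 ∨ p = 4 := by omega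
    rcases this with rfl | rfl
    · have h9 : (9 : ℕ) ! ∣ n ! := Nat.factorial_dvd_factorial (by omega)
      have h81 : 3 ^ 4 ∣ (9 : ℕ) ! := by decide
      have := (Nat.Prime.pow_dvd_iff_le_factorization hp (Nat.factorial_ne_zero n)).1
        (dvd_trans h81 h9)
      omega
    · exact absurd hp (by norm_num)
  have hv2 : n / 2 + n / 4 ≤ (n !).factorization 2 := by
    have hlog : Nat.log 2 n < n + 3 := lt_of_le_of_lt (Nat.log_le_self 2 n) (by omega)
    rw [Nat.factorization_factorial Nat.prime_two hlog]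
    have hsub : Finset.Ico 1 3 ⊆ Finset.Ico 1 (n + 3) := Finset.Ico_subset_Ico_right (by omega)
    have h := Finset.sum_le_sum_of_subset (f := fun i => n / 2 ^ i) hsub
    have e : ∑ i ∈ Finset.Ico 1 3, n / 2 ^ i = n / 2 + n / 4 := by
      rw [show Finset.Ico 1 3 = {1, 2} from rfl, Finset.sum_pair (by norm_num)]
      norm_num
    rw [e] at h
    exact h
  have hpodd : p % 2 = 1 := by
    rcases hp.eq_two_or_odd with h | h
    · exact absurd h hodd
    · exact h
  have hexp : 2 * (p - 1) ≤ N.factorization 2 := by omega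
  calc p ^ 3 < 4 ^ (p - 1) := cube_lt_four_pow p hp5
    _ = 2 ^ (2 * (p - 1)) := by rw [pow_mul]; norm_num
    _ ≤ 2 ^ N.factorization 2 := Nat.pow_le_pow_right (by norm_num) hexp

theorem alt_cube {G : Type*} [Group G] (hA : Cfsg.IsAlternating G)
    (p : ℕ) (hp : p.Prime) (hodd : p ≠ 2) (h3 : (Nat.card G).factorization p = 3) :
    p ^ 3 < 2 ^ (Nat.card G).factorization 2 := by
  obtain ⟨n, hn, ⟨e⟩⟩ := hA
  have : Nontrivial (Fin n) := Fin.nontrivial_iff_two_le.2 (by omega)
  have hcard : 2 * Nat.card G = n ! := by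
    rw [Nat.card_congr e.toEquiv, Nat.card_eq_fintype_card, two_mul_card_alternatingGroup,
      Fintype.card_perm, Fintype.card_fin]
  exact alt_cube_aux n (Nat.card G) p hcard hp hodd h3

theorem fact_prod (l : List (ℕ × ℕ)) (hl : ∀ x ∈ l, x.1.Prime) (q : ℕ) :
    (l.map (fun x : ℕ × ℕ => x.1 ^ x.2)).prod.factorization q =
      (l.map (fun x : ℕ × ℕ => if x.1 = q then x.2 else 0)).sum := by
  induction l with
  | nil => simp
  | cons x l ih =>
    have hx : x.1.Prime := hl x List.mem_cons_self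
    have hl' : ∀ y ∈ l, y.1.Prime := fun y hy => hl y (List.mem_cons_of_mem _ hy)
    have h0 : (l.map (fun x : ℕ × ℕ => x.1 ^ x.2)).prod ≠ 0 := by
      intro h
      rw [List.prod_eq_zero_iff, List.mem_map] at h
      obtain ⟨y, hy, hy0⟩ := h
      exact pow_ne_zero _ (hl' y hy).ne_zero hy0
    rw [List.map_cons, List.prod_cons, List.map_cons, List.sum_cons,
      Nat.factorization_mul (pow_ne_zero _ hx.ne_zero) h0, Finsupp.add_apply, ih hl',
      hx.factorization_pow, Finsupp.single_apply]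

theorem spor_aux (l : List (ℕ × ℕ)) (hl : ∀ x ∈ l, x.1.Prime) (N : ℕ)
    (hN : N = (l.map (fun x : ℕ × ℕ => x.1 ^ x.2)).prod)
    (hcheck : ∀ x ∈ l, x.1 ≠ 2 → (l.map (fun y : ℕ × ℕ => if y.1 = x.1 then y.2 else 0)).sum = 3 →
      x.1 ^ 3 < 2 ^ (l.map (fun y : ℕ × ℕ => if y.1 = 2 then y.2 else 0)).sum)
    (p : ℕ) (hodd : p ≠ 2) (h3 : N.factorization p = 3) : p ^ 3 < 2 ^ N.factorization 2 := by
  subst hN
  rw [fact_prod l hl] at h3 ⊢
  by_cases hmem : ∃ x ∈ l, x.1 = p
  · obtain ⟨x, hx, rfl⟩ := hmem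
    exact hcheck x hx hodd h3
  · exfalso
    push Not at hmem
    have : (l.map (fun x : ℕ × ℕ => if x.1 = p then x.2 else 0)).sum = 0 := by
      apply List.sum_eq_zero
      intro y hy
      rw [List.mem_map] at hy
      obtain ⟨x, hx, rfl⟩ := hy
      rw [if_neg (hmem x hx)]
    omega

theorem spor_cube_M11 (p : ℕ) (hodd : p ≠ 2) (h3 : (7920 : ℕ).factorization p = 3) :
    p ^ 3 < 2 ^ (7920 : ℕ).factorization 2 :=
  spor_aux [(2, 4), (3, 2), (5, 1), (11, 1)]
    (by intro x hx; fin_cases hx <;> norm_num) 7920 (by norm_num)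
    (by decide) p hodd h3

theorem spor_cube_M12 (p : ℕ) (hodd : p ≠ 2) (h3 : (95040 : ℕ).factorization p = 3) :
    p ^ 3 < 2 ^ (95040 : ℕ).factorization 2 :=
  spor_aux [(2, 6), (3, 3), (5, 1), (11, 1)]
    (by intro x hx; fin_cases hx <;> norm_num) 95040 (by norm_num)
    (by decide) p hodd h3

theorem spor_cube_M22 (p : ℕ) (hodd : p ≠ 2) (h3 : (443520 : ℕ).factorization p = 3) :
    p ^ 3 < 2 ^ (443520 : ℕ).factorization 2 :=
  spor_aux [(2, 7), (3, 2), (5, 1), (7, 1), (11, 1)]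
    (by intro x hx; fin_cases hx <;> norm_num) 443520 (by norm_num)
    (by decide) p hodd h3

theorem spor_cube_M23 (p : ℕ) (hodd : p ≠ 2) (h3 : (10200960 : ℕ).factorization p = 3) :
    p ^ 3 < 2 ^ (10200960 : ℕ).factorization 2 :=
  spor_aux [(2, 7), (3, 2), (5, 1), (7, 1), (11, 1), (23, 1)]
    (by intro x hx; fin_cases hx <;> norm_num) 10200960 (by norm_num)
    (by decide) p hodd h3

theorem spor_cube_M24 (p : ℕ) (hodd : p ≠ 2) (h3 : (244823040 : ℕ).factorization p = 3) :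
    p ^ 3 < 2 ^ (244823040 : ℕ).factorization 2 :=
  spor_aux [(2, 10), (3, 3), (5, 1), (7, 1), (11, 1), (23, 1)]
    (by intro x hx; fin_cases hx <;> norm_num) 244823040 (by norm_num)
    (by decide) p hodd h3

theorem spor_cube_J1 (p : ℕ) (hodd : p ≠ 2) (h3 : (175560 : ℕ).factorization p = 3) :
    p ^ 3 < 2 ^ (175560 : ℕ).factorization 2 :=
  spor_aux [(2, 3), (3, 1), (5, 1), (7, 1), (11, 1), (19, 1)]
    (by intro x hx; fin_cases hx <;> norm_num) 175560 (by norm_num)
    (by decide) p hodd h3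

theorem spor_cube_J2 (p : ℕ) (hodd : p ≠ 2) (h3 : (604800 : ℕ).factorization p = 3) :
    p ^ 3 < 2 ^ (604800 : ℕ).factorization 2 :=
  spor_aux [(2, 7), (3, 3), (5, 2), (7, 1)]
    (by intro x hx; fin_cases hx <;> norm_num) 604800 (by norm_num)
    (by decide) p hodd h3

theorem spor_cube_J3 (p : ℕ) (hodd : p ≠ 2) (h3 : (50232960 : ℕ).factorization p = 3) :
    p ^ 3 < 2 ^ (50232960 : ℕ).factorization 2 :=
  spor_aux [(2, 7), (3, 5), (5, 1), (17, 1), (19, 1)]
    (by intro x hx; fin_cases hx <;> norm_num) 50232960 (by norm_num)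
    (by decide) p hodd h3

theorem spor_cube_J4 (p : ℕ) (hodd : p ≠ 2) (h3 : (86775571046077562880 : ℕ).factorization p = 3) :
    p ^ 3 < 2 ^ (86775571046077562880 : ℕ).factorization 2 :=
  spor_aux [(2, 21), (3, 3), (5, 1), (7, 1), (11, 3), (23, 1), (29, 1), (31, 1), (37, 1), (43, 1)]
    (by intro x hx; fin_cases hx <;> norm_num) 86775571046077562880 (by norm_num)
    (by decide) p hodd h3

theorem spor_cube_Co1 (p : ℕ) (hodd : p ≠ 2) (h3 : (4157776806543360000 : ℕ).factorization p = 3) :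
    p ^ 3 < 2 ^ (4157776806543360000 : ℕ).factorization 2 :=
  spor_aux [(2, 21), (3, 9), (5, 4), (7, 2), (11, 1), (13, 1), (23, 1)]
    (by intro x hx; fin_cases hx <;> norm_num) 4157776806543360000 (by norm_num)
    (by decide) p hodd h3

theorem spor_cube_Co2 (p : ℕ) (hodd : p ≠ 2) (h3 : (42305421312000 : ℕ).factorization p = 3) :
    p ^ 3 < 2 ^ (42305421312000 : ℕ).factorization 2 :=
  spor_aux [(2, 18), (3, 6), (5, 3), (7, 1), (11, 1), (23, 1)]
    (by intro x hx; fin_cases hx <;> norm_num) 42305421312000 (by norm_num)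
    (by decide) p hodd h3

theorem spor_cube_Co3 (p : ℕ) (hodd : p ≠ 2) (h3 : (495766656000 : ℕ).factorization p = 3) :
    p ^ 3 < 2 ^ (495766656000 : ℕ).factorization 2 :=
  spor_aux [(2, 10), (3, 7), (5, 3), (7, 1), (11, 1), (23, 1)]
    (by intro x hx; fin_cases hx <;> norm_num) 495766656000 (by norm_num)
    (by decide) p hodd h3

theorem spor_cube_Fi22 (p : ℕ) (hodd : p ≠ 2) (h3 : (64561751654400 : ℕ).factorization p = 3) :
    p ^ 3 < 2 ^ (64561751654400 : ℕ).factorization 2 :=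
  spor_aux [(2, 17), (3, 9), (5, 2), (7, 1), (11, 1), (13, 1)]
    (by intro x hx; fin_cases hx <;> norm_num) 64561751654400 (by norm_num)
    (by decide) p hodd h3

theorem spor_cube_Fi23 (p : ℕ) (hodd : p ≠ 2) (h3 : (4089470473293004800 : ℕ).factorization p = 3) :
    p ^ 3 < 2 ^ (4089470473293004800 : ℕ).factorization 2 :=
  spor_aux [(2, 18), (3, 13), (5, 2), (7, 1), (11, 1), (13, 1), (17, 1), (23, 1)]
    (by intro x hx; fin_cases hx <;> norm_num) 4089470473293004800 (by norm_num)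
    (by decide) p hodd h3

theorem spor_cube_Fi24p (p : ℕ) (hodd : p ≠ 2) (h3 : (1255205709190661721292800 : ℕ).factorization p = 3) :
    p ^ 3 < 2 ^ (1255205709190661721292800 : ℕ).factorization 2 :=
  spor_aux [(2, 21), (3, 16), (5, 2), (7, 3), (11, 1), (13, 1), (17, 1), (23, 1), (29, 1)]
    (by intro x hx; fin_cases hx <;> norm_num) 1255205709190661721292800 (by norm_num)
    (by decide) p hodd h3

theorem spor_cube_HS (p : ℕ) (hodd : p ≠ 2) (h3 : (44352000 : ℕ).factorization p = 3) :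
    p ^ 3 < 2 ^ (44352000 : ℕ).factorization 2 :=
  spor_aux [(2, 9), (3, 2), (5, 3), (7, 1), (11, 1)]
    (by intro x hx; fin_cases hx <;> norm_num) 44352000 (by norm_num)
    (by decide) p hodd h3

theorem spor_cube_McL (p : ℕ) (hodd : p ≠ 2) (h3 : (898128000 : ℕ).factorization p = 3) :
    p ^ 3 < 2 ^ (898128000 : ℕ).factorization 2 :=
  spor_aux [(2, 7), (3, 6), (5, 3), (7, 1), (11, 1)]
    (by intro x hx; fin_cases hx <;> norm_num) 898128000 (by norm_num)
    (by decide) p hodd h3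

theorem spor_cube_He (p : ℕ) (hodd : p ≠ 2) (h3 : (4030387200 : ℕ).factorization p = 3) :
    p ^ 3 < 2 ^ (4030387200 : ℕ).factorization 2 :=
  spor_aux [(2, 10), (3, 3), (5, 2), (7, 3), (17, 1)]
    (by intro x hx; fin_cases hx <;> norm_num) 4030387200 (by norm_num)
    (by decide) p hodd h3

theorem spor_cube_Ru (p : ℕ) (hodd : p ≠ 2) (h3 : (145926144000 : ℕ).factorization p = 3) :
    p ^ 3 < 2 ^ (145926144000 : ℕ).factorization 2 :=
  spor_aux [(2, 14), (3, 3), (5, 3), (7, 1), (13, 1), (29, 1)]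
    (by intro x hx; fin_cases hx <;> norm_num) 145926144000 (by norm_num)
    (by decide) p hodd h3

theorem spor_cube_Suz (p : ℕ) (hodd : p ≠ 2) (h3 : (448345497600 : ℕ).factorization p = 3) :
    p ^ 3 < 2 ^ (448345497600 : ℕ).factorization 2 :=
  spor_aux [(2, 13), (3, 7), (5, 2), (7, 1), (11, 1), (13, 1)]
    (by intro x hx; fin_cases hx <;> norm_num) 448345497600 (by norm_num)
    (by decide) p hodd h3

theorem spor_cube_ON (p : ℕ) (hodd : p ≠ 2) (h3 : (460815505920 : ℕ).factorization p = 3) :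
    p ^ 3 < 2 ^ (460815505920 : ℕ).factorization 2 :=
  spor_aux [(2, 9), (3, 4), (5, 1), (7, 3), (11, 1), (19, 1), (31, 1)]
    (by intro x hx; fin_cases hx <;> norm_num) 460815505920 (by norm_num)
    (by decide) p hodd h3

theorem spor_cube_HN (p : ℕ) (hodd : p ≠ 2) (h3 : (273030912000000 : ℕ).factorization p = 3) :
    p ^ 3 < 2 ^ (273030912000000 : ℕ).factorization 2 :=
  spor_aux [(2, 14), (3, 6), (5, 6), (7, 1), (11, 1), (19, 1)]
    (by intro x hx; fin_cases hx <;> norm_num) 273030912000000 (by norm_num)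
    (by decide) p hodd h3

theorem spor_cube_Ly (p : ℕ) (hodd : p ≠ 2) (h3 : (51765179004000000 : ℕ).factorization p = 3) :
    p ^ 3 < 2 ^ (51765179004000000 : ℕ).factorization 2 :=
  spor_aux [(2, 8), (3, 7), (5, 6), (7, 1), (11, 1), (31, 1), (37, 1), (67, 1)]
    (by intro x hx; fin_cases hx <;> norm_num) 51765179004000000 (by norm_num)
    (by decide) p hodd h3

theorem spor_cube_Th (p : ℕ) (hodd : p ≠ 2) (h3 : (90745943887872000 : ℕ).factorization p = 3) :
    p ^ 3 < 2 ^ (90745943887872000 : ℕ).factorization 2 :=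
  spor_aux [(2, 15), (3, 10), (5, 3), (7, 2), (13, 1), (19, 1), (31, 1)]
    (by intro x hx; fin_cases hx <;> norm_num) 90745943887872000 (by norm_num)
    (by decide) p hodd h3

theorem spor_cube_B (p : ℕ) (hodd : p ≠ 2) (h3 : (4154781481226426191177580544000000 : ℕ).factorization p = 3) :
    p ^ 3 < 2 ^ (4154781481226426191177580544000000 : ℕ).factorization 2 :=
  spor_aux [(2, 41), (3, 13), (5, 6), (7, 2), (11, 1), (13, 1), (17, 1), (19, 1), (23, 1), (31, 1), (47, 1)]
    (by intro x hx; fin_cases hx <;> norm_num) 4154781481226426191177580544000000 (by norm_num)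
    (by decide) p hodd h3

theorem spor_cube_M (p : ℕ) (hodd : p ≠ 2) (h3 : (808017424794512875886459904961710757005754368000000000 : ℕ).factorization p = 3) :
    p ^ 3 < 2 ^ (808017424794512875886459904961710757005754368000000000 : ℕ).factorization 2 :=
  spor_aux [(2, 46), (3, 20), (5, 9), (7, 6), (11, 2), (13, 3), (17, 1), (19, 1), (23, 1), (29, 1), (31, 1), (41, 1), (47, 1), (59, 1), (71, 1)]
    (by intro x hx; fin_cases hx <;> norm_num) 808017424794512875886459904961710757005754368000000000 (by norm_num)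
    (by decide) p hodd h3

theorem spor_cube {G : Type*} [Group G] (hS : Cfsg.IsSporadic G)
    (p : ℕ) (hodd : p ≠ 2) (h3 : (Nat.card G).factorization p = 3) :
    p ^ 3 < 2 ^ (Nat.card G).factorization 2 := by
  unfold Cfsg.IsSporadic at hS
  rcases hS with ⟨-, h⟩ | ⟨-, h⟩ | ⟨-, h⟩ | ⟨-, h⟩ | ⟨-, h⟩ | ⟨-, h⟩ | ⟨-, h⟩ | ⟨-, h⟩ | ⟨-, h⟩ | ⟨-, h⟩ | ⟨-, h⟩ | ⟨-, h⟩ | ⟨-, h⟩ | ⟨-, h⟩ | ⟨-, h⟩ | ⟨-, h⟩ | ⟨-, h⟩ | ⟨-, h⟩ | ⟨-, h⟩ | ⟨-, h⟩ | ⟨-, h⟩ | ⟨-, h⟩ | ⟨-, h⟩ | ⟨-, h⟩ | ⟨-, h⟩ | ⟨-, h⟩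
  all_goals rw [h] at h3 ⊢
  · exact spor_cube_M11 p hodd h3
  · exact spor_cube_M12 p hodd h3
  · exact spor_cube_M22 p hodd h3
  · exact spor_cube_M23 p hodd h3
  · exact spor_cube_M24 p hodd h3
  · exact spor_cube_J1 p hodd h3
  · exact spor_cube_J2 p hodd h3
  · exact spor_cube_J3 p hodd h3
  · exact spor_cube_J4 p hodd h3
  · exact spor_cube_Co1 p hodd h3
  · exact spor_cube_Co2 p hodd h3
  · exact spor_cube_Co3 p hodd h3
  · exact spor_cube_Fi22 p hodd h3
  · exact spor_cube_Fi23 p hodd h3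
  · exact spor_cube_Fi24p p hodd h3
  · exact spor_cube_HS p hodd h3
  · exact spor_cube_McL p hodd h3
  · exact spor_cube_He p hodd h3
  · exact spor_cube_Ru p hodd h3
  · exact spor_cube_Suz p hodd h3
  · exact spor_cube_ON p hodd h3
  · exact spor_cube_HN p hodd h3
  · exact spor_cube_Ly p hodd h3
  · exact spor_cube_Th p hodd h3
  · exact spor_cube_B p hodd h3
  · exact spor_cube_M p hodd h3

end Cfsg.Agent.Helper39
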