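import Cfsg.Agent.Helper17.D4Defs

set_option autoImplicit false

open Matrix Cfsg Cfsg.Lie

namespace Cfsg.Agent.Helper39

open Cfsg.Agent.Helper17.D4

variable {F : Type*} [Field F]

-- P3
theorem d4_pair3 (v : Fin 8 → F) (hQ : Q8 v = 0) (h0 : v 0 = 0) (h4 : v 4 = 0)
    (h1 : v 1 = 0) (h5 : v 5 = 0) (hv : v 6 ≠ 0) :
    ∃ y ∈ G8 F, (y : Matrix (Fin 8) (Fin 8) F) *ᵥ ![1, 0, 0, 0, 0, 0, 0, 0] = ![1, 0, 0, 0, 0, 0, 0, 0] ∧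
      (y : Matrix (Fin 8) (Fin 8) F) *ᵥ ![0, 0, 0, 0, 1, 0, 0, 0] = ![0, 0, 0, 0, 1, 0, 0, 0] ∧
      (y : Matrix (Fin 8) (Fin 8) F) *ᵥ ![0, 1, 0, 0, 0, 0, 0, 0] = ![0, 1, 0, 0, 0, 0, 0, 0] ∧
      (y : Matrix (Fin 8) (Fin 8) F) *ᵥ ![0, 0, 0, 0, 0, 1, 0, 0] = ![0, 0, 0, 0, 0, 1, 0, 0] ∧
      (y : Matrix (Fin 8) (Fin 8) F) *ᵥ ![0, 0, 1, 0, 0, 0, 0, 0] = ![0, 0, 1, 0, 0, 0, 0, 0] ∧
      (y : Matrix (Fin 8) (Fin 8) F) *ᵥ v = ![0, 0, 0, 0, 0, 0, v 6, 0] := by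
  have hQ' : v 0 * v 4 + v 1 * v 5 + v 2 * v 6 + v 3 * v 7 = 0 := hQ
  rw [h0, h1, zero_mul, zero_mul, zero_add, zero_add] at hQ'
  obtain ⟨y, hy⟩ : ∃ y : GL (Fin 8) F, y = xg 13 (v 7 / v 6) * xg 12 (v 3 / v 6) := ⟨_, rfl⟩
  have hyG : y ∈ G8 F := by
    rw [hy]
    exact Subgroup.mul_mem _ (xg_mem_G8 _ _) (xg_mem_G8 _ _)
  have hmul : ∀ w : Fin 8 → F, (y : Matrix (Fin 8) (Fin 8) F) *ᵥ w =
      xm 13 (v 7 / v 6) *ᵥ (xm 12 (v 3 / v 6) *ᵥ w) := by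
    intro w
    rw [hy]
    simp only [Units.val_mul, xg_val, Matrix.mulVec_mulVec]
  refine ⟨y, hyG, ?_, ?_, ?_, ?_, ?_, ?_⟩
  · rw [hmul, xm_mulVec_12, xm_mulVec_13]
    funext i; fin_cases i <;> simp
  · rw [hmul, xm_mulVec_12, xm_mulVec_13]
    funext i; fin_cases i <;> simp
  · rw [hmul, xm_mulVec_12, xm_mulVec_13]
    funext i; fin_cases i <;> simp
  · rw [hmul, xm_mulVec_12, xm_mulVec_13]
    funext i; fin_cases i <;> simp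
  · rw [hmul, xm_mulVec_12, xm_mulVec_13]
    funext i; fin_cases i <;> simp
  · rw [hmul, xm_mulVec_12, xm_mulVec_13]
    funext i
    fin_cases i
    · simp [h0]
    · simp [h1]
    · simp
      field_simp
      linear_combination hQ'
    · simp; field_simp; ring
    · simp [h4]
    · simp [h5]
    · simp
    · simp; field_simp; ring

end Cfsg.Agent.Helper39
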