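import Mathlib
import Cfsg.Prelude.Def_GeometricClasses
import Cfsg.Prelude.Def_LieClassical
import Cfsg.Agent.Helper69.E4Def
import Cfsg.Agent.Helper69.E4UDef
import Cfsg.Agent.Helper97.UForm
import Cfsg.Agent.Helper67.HermGS

/-!
# S6001 piece CF3B: canonical form for the eigenvalue pattern `ω, ω², 1, 1`
-/

set_option autoImplicit false

namespace Cfsg.Agent.Helper39
open Cfsg.Agent.Helper69 Cfsg.Agent.Helper97
open scoped Matrix

theorem e4u_canon_form_two {F : Type*} [Field F] [Fintype F] {p : ℕ}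
    (hF : Fintype.card F = p ^ 2) (h3 : (3 : F) ≠ 0) (σ : F ≃+* F) (hσ : IsSigma p σ) (ω : F)
    (hω : ω ^ 2 + ω + 1 = 0) (hσω : σ ω = ω)
    (y B₀ : Matrix (Fin 4) (Fin 4) F) (hU : yᵀ * y.map σ = 1) (hB₀ : B₀.det ≠ 0)
    (hy : y * B₀ = B₀ * e4uD2 ω) :
    ∃ B : Matrix (Fin 4) (Fin 4) F, y * B = B * e4uD2 ω ∧ Bᵀ * B.map σ = e4uJ2 F := by
  classical
  -- facts on `ω`
  have hω1 : ω - 1 ≠ 0 := by
    intro h
    apply h3
    have h1 : ω = 1 := sub_eq_zero.mp h
    rw [h1] at hω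
    linear_combination hω
  have hω2 : ω ^ 2 - 1 ≠ 0 := by
    intro h
    apply h3
    have h1 : ω = -2 := by linear_combination hω - h
    rw [h1] at h
    linear_combination h
  have hω4 : ω ^ 2 * ω ^ 2 - 1 = ω - 1 := by
    linear_combination (ω ^ 2 - ω) * hω
  -- the Gram matrix
  obtain ⟨G, hG⟩ : ∃ G : Matrix (Fin 4) (Fin 4) F, G = B₀ᵀ * B₀.map σ := ⟨_, rfl⟩
  have hGh : ∀ i j, G j i = σ (G i j) := by
    intro i j
    rw [hG]
    simp only [Matrix.mul_apply, Matrix.transpose_apply, Matrix.map_apply, map_sum, map_mul,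
      hσ.inv]
    exact Finset.sum_congr rfl (fun k _ => mul_comm _ _)
  have hDσ : (e4uD2 ω).map σ = e4uD2 ω := by
    unfold e4uD2
    ext i j
    fin_cases i <;> fin_cases j <;> simp [Matrix.diagonal, hσω]
  have hinv : (e4uD2 ω)ᵀ * G * (e4uD2 ω) = G := by
    have h1 : (y * B₀)ᵀ * (y * B₀).map σ = G := by
      rw [Matrix.transpose_mul, Matrix.map_mul, hG]
      calc B₀ᵀ * yᵀ * (y.map σ * B₀.map σ) = B₀ᵀ * (yᵀ * y.map σ) * B₀.map σ := by
            simp only [Matrix.mul_assoc]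
        _ = B₀ᵀ * B₀.map σ := by rw [hU, Matrix.mul_one]
    rw [hy, Matrix.transpose_mul, Matrix.map_mul, hDσ] at h1
    calc (e4uD2 ω)ᵀ * G * (e4uD2 ω) = (e4uD2 ω)ᵀ * B₀ᵀ * (B₀.map σ * e4uD2 ω) := by
          rw [hG]
          simp only [Matrix.mul_assoc]
      _ = G := h1
  obtain ⟨d, hd⟩ : ∃ d : Fin 4 → F, d = ![ω, ω ^ 2, 1, 1] := ⟨_, rfl⟩
  have hent : ∀ i j, d i * G i j * d j = G i j := by
    intro i j
    have h1 := congrFun (congrFun hinv i) j
    unfold e4uD2 at h1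
    rw [Matrix.diagonal_transpose, Matrix.mul_diagonal, Matrix.diagonal_mul] at h1
    rw [hd]
    exact h1
  have hz : ∀ i j, d i * d j - 1 ≠ 0 → G i j = 0 := by
    intro i j hne
    have h := hent i j
    have h' : G i j * (d i * d j - 1) = 0 := by linear_combination h
    exact (mul_eq_zero.mp h').resolve_right hne
  have h00 : G 0 0 = 0 := hz 0 0 (by
    rw [hd]; show ω * ω - 1 ≠ 0
    intro h; exact hω2 (by linear_combination h))
  have h02 : G 0 2 = 0 := hz 0 2 (by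
    rw [hd]; show ω * 1 - 1 ≠ 0
    intro h; exact hω1 (by linear_combination h))
  have h03 : G 0 3 = 0 := hz 0 3 (by
    rw [hd]; show ω * 1 - 1 ≠ 0
    intro h; exact hω1 (by linear_combination h))
  have h11 : G 1 1 = 0 := hz 1 1 (by
    rw [hd]; show ω ^ 2 * ω ^ 2 - 1 ≠ 0
    rw [hω4]; exact hω1)
  have h12 : G 1 2 = 0 := hz 1 2 (by
    rw [hd]; show ω ^ 2 * 1 - 1 ≠ 0
    intro h; exact hω2 (by linear_combination h))
  have h13 : G 1 3 = 0 := hz 1 3 (by
    rw [hd]; show ω ^ 2 * 1 - 1 ≠ 0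
    intro h; exact hω2 (by linear_combination h))
  have h20 : G 2 0 = 0 := by rw [hGh 0 2, h02, map_zero]
  have h30 : G 3 0 = 0 := by rw [hGh 0 3, h03, map_zero]
  have h21 : G 2 1 = 0 := by rw [hGh 1 2, h12, map_zero]
  have h31 : G 3 1 = 0 := by rw [hGh 1 3, h13, map_zero]
  have h10 : G 1 0 = σ (G 0 1) := hGh 0 1
  -- `G` is invertible
  have hGdet : G.det ≠ 0 := by
    rw [hG, Matrix.det_mul, Matrix.det_transpose]
    have h1 : (B₀.map σ).det = σ B₀.det := by
      have h2 := (RingHom.map_det (σ : F →+* F) B₀).symm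
      simpa [RingHom.mapMatrix_apply] using h2
    rw [h1]
    exact mul_ne_zero hB₀ (fun h => hB₀ ((map_eq_zero_iff σ σ.injective).mp h))
  obtain ⟨a, ha⟩ : ∃ a : F, a = G 0 1 := ⟨_, rfl⟩
  have ha0 : a ≠ 0 := by
    intro h
    apply hGdet
    apply Matrix.det_eq_zero_of_row_eq_zero 0
    intro j
    fin_cases j
    · exact h00
    · show G 0 1 = 0
      rw [← ha, h]
    · exact h02
    · exact h03
  -- the lower block
  obtain ⟨M, hM⟩ : ∃ M : Matrix (Fin 2) (Fin 2) F, M = !![G 2 2, G 2 3; G 3 2, G 3 3] :=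
    ⟨_, rfl⟩
  have hMh : Mᵀ = M.map σ := by
    rw [hM]
    ext i j
    fin_cases i <;> fin_cases j
    · exact hGh 2 2
    · exact hGh 2 3
    · exact hGh 3 2
    · exact hGh 3 3
  have hMdet : M.det ≠ 0 := by
    intro h
    obtain ⟨v, hv0, hv⟩ := Matrix.exists_mulVec_eq_zero_iff.mpr h
    apply hGdet
    apply Matrix.exists_mulVec_eq_zero_iff.mp
    refine ⟨![0, 0, v 0, v 1], ?_, ?_⟩
    · intro h1
      apply hv0
      funext i
      fin_cases i
      · have := congrFun h1 2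
        simpa using this
      · have := congrFun h1 3
        simpa using this
    · have e0 := congrFun hv 0
      have e1 := congrFun hv 1
      rw [Matrix.mulVec, dotProduct, Fin.sum_univ_two] at e0 e1
      rw [hM] at e0 e1
      have e0' : G 2 2 * v 0 + G 2 3 * v 1 = 0 := e0
      have e1' : G 3 2 * v 0 + G 3 3 * v 1 = 0 := e1
      funext i
      rw [Matrix.mulVec, dotProduct, Fin.sum_univ_four]
      fin_cases i
      · show G 0 0 * 0 + G 0 1 * 0 + G 0 2 * v 0 + G 0 3 * v 1 = 0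
        rw [h02, h03]
        ring
      · show G 1 0 * 0 + G 1 1 * 0 + G 1 2 * v 0 + G 1 3 * v 1 = 0
        rw [h12, h13]
        ring
      · show G 2 0 * 0 + G 2 1 * 0 + G 2 2 * v 0 + G 2 3 * v 1 = 0
        linear_combination e0'
      · show G 3 0 * 0 + G 3 1 * 0 + G 3 2 * v 0 + G 3 3 * v 1 = 0
        linear_combination e1'
  obtain ⟨U, -, hUM⟩ := Cfsg.Agent.Helper67.herm_gram_schmidt p hF σ hσ.pow 2 M hMh hMdet
  have e00 := congrFun (congrFun hUM 0) 0
  have e01 := congrFun (congrFun hUM 0) 1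
  have e10 := congrFun (congrFun hUM 1) 0
  have e11 := congrFun (congrFun hUM 1) 1
  rw [hM] at e00 e01 e10 e11
  simp [Matrix.mul_apply, Fin.sum_univ_two] at e00 e01 e10 e11
  obtain ⟨c1, hc1a, hc1b⟩ : ∃ c1 : F, a * σ c1 = 1 ∧ c1 * σ a = 1 := by
    refine ⟨σ a⁻¹, ?_, ?_⟩
    · rw [hσ.inv, mul_inv_cancel₀ ha0]
    · rw [← map_mul, inv_mul_cancel₀ ha0, map_one]
  obtain ⟨C, hC⟩ : ∃ C : Matrix (Fin 4) (Fin 4) F,
      C = !![1, 0, 0, 0; 0, c1, 0, 0; 0, 0, U 0 0, U 0 1; 0, 0, U 1 0, U 1 1] := ⟨_, rfl⟩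
  have hDC : e4uD2 ω * C = C * e4uD2 ω := by
    unfold e4uD2
    rw [hC]
    ext i j
    rw [Matrix.diagonal_mul, Matrix.mul_diagonal]
    fin_cases i <;> fin_cases j <;> simp
    all_goals ring
  have hkey : Cᵀ * G * C.map σ = e4uJ2 F := by
    rw [hC]
    unfold e4uJ2
    ext i j
    fin_cases i <;> fin_cases j <;>
      simp [Matrix.mul_apply, Fin.sum_univ_four, h00, h02, h03, h11, h12, h13, h20, h21, h30,
        h31, h10, ← ha]
    all_goals
      first
        | exact hc1a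
        | exact hc1b
        | linear_combination hc1a
        | linear_combination hc1b
        | linear_combination e00
        | linear_combination e01
        | linear_combination e10
        | linear_combination e11
  refine ⟨B₀ * C, ?_, ?_⟩
  · rw [← Matrix.mul_assoc, hy, Matrix.mul_assoc, hDC, Matrix.mul_assoc]
  · rw [Matrix.transpose_mul, Matrix.map_mul, ← hkey, hG]
    simp only [Matrix.mul_assoc]

end Cfsg.Agent.Helper39
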