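import Mathlib
import Cfsg.Agent.Helper39.IrrCount
import Cfsg.Agent.Helper39.GL2Values
import Cfsg.Agent.Helper39.GL2Classes
import Cfsg.Agent.Helper80.CharOrtho

/-!
# The number of irreducible characters of `GL₂(q)` of each degree (helper39)
-/

set_option autoImplicit false

namespace Cfsg.Agent.Helper39

open scoped ComplexConjugate

section GL2Degrees

variable {F : Type*} [Field F] [Fintype F] [DecidableEq F]

omit [Fintype F] [DecidableEq F] in
theorem detChar_injective : Function.Injective (detChar (F := F)) := by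
  intro α β h
  apply MulChar.ext
  intro a
  have := congrFun h (triGL a 1 0)
  rw [detChar_triGL, detChar_triGL] at this
  simpa using this

theorem stGL_injective :
    Function.Injective (fun α : MulChar F ℂ => (psGL α α - detChar α : GL (Fin 2) F → ℂ)) := by
  intro α β h
  apply MulChar.ext
  intro a
  by_cases ha : a = 1
  · subst ha
    simp
  · have := congrFun h (triGL a 1 0)
    simp only at this
    rw [St_triGL α ha, St_triGL β ha] at this
    simpa using this

theorem psGL_eq_iff {α β α' β' : MulChar F ℂ} (h : α ≠ β) (h' : α' ≠ β') :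
    psGL α' β' = psGL α β ↔ ((α' = α ∧ β' = β) ∨ (α' = β ∧ β' = α)) := by
  constructor
  · intro e
    have h1 := Cfsg.Agent.Helper15.irr_inner_self (psGL_irr h)
    nth_rewrite 1 [← e] at h1
    rw [psGL_inner] at h1
    by_contra hcon
    push Not at hcon
    rw [if_neg (fun hh => hcon.1 hh.1 hh.2), if_neg (fun hh => hcon.2 hh.1 hh.2)] at h1
    norm_num at h1
  · rintro (⟨rfl, rfl⟩ | ⟨rfl, rfl⟩)
    · rfl
    · by_contra hne
      have := Cfsg.Agent.Helper15.irr_inner_ne (psGL_irr h') (psGL_irr h) hne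
      rw [psGL_inner] at this
      simp [h'] at this

/-- The number of irreducible characters of `GL₂(q)` of each degree, `q ≥ 3`. -/
theorem gl2_degree_count (hq : 3 ≤ Fintype.card F) :
    Nat.card {χ : Cfsg.IrrCharacter (GL (Fin 2) F) // (χ : GL (Fin 2) F → ℂ) 1 = 1} =
      Fintype.card F - 1 ∧
    Nat.card {χ : Cfsg.IrrCharacter (GL (Fin 2) F) //
      (χ : GL (Fin 2) F → ℂ) 1 = (Fintype.card F : ℂ)} = Fintype.card F - 1 ∧
    Nat.card {χ : Cfsg.IrrCharacter (GL (Fin 2) F) //
      (χ : GL (Fin 2) F → ℂ) 1 = (Fintype.card F : ℂ) + 1} =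
        (Fintype.card F - 1) * (Fintype.card F - 2) / 2 ∧
    Nat.card {χ : Cfsg.IrrCharacter (GL (Fin 2) F) //
      (χ : GL (Fin 2) F → ℂ) 1 = (Fintype.card F : ℂ) - 1} =
        Fintype.card F * (Fintype.card F - 1) / 2 := by
  classical
  have : Fintype (MulChar F ℂ) := Fintype.ofFinite _
  obtain ⟨m, hm⟩ := Nat.exists_eq_add_of_le hq
  have e0 : (1 : ℂ) = ((1 : ℕ) : ℂ) := by simp
  have e1 : (Fintype.card F : ℂ) = ((m + 3 : ℕ) : ℂ) := by rw [hm]; push_cast; ring
  have e2 : (Fintype.card F : ℂ) + 1 = ((m + 4 : ℕ) : ℂ) := by rw [hm]; push_cast; ring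
  have e3 : (Fintype.card F : ℂ) - 1 = ((m + 2 : ℕ) : ℂ) := by rw [hm]; push_cast; ring
  have hM : Nat.card (MulChar F ℂ) = m + 2 := by
    rw [Nat.card_eq_fintype_card, mulChar_card_nat, hm]
    omega
  -- degree 1
  have c1 : Nat.card {χ : Cfsg.IrrCharacter (GL (Fin 2) F) // (χ : GL (Fin 2) F → ℂ) 1 = 1} =
      m + 2 := by
    rw [← hM]
    apply natCard_subtype_of_injective _
      (fun α : MulChar F ℂ => (⟨detChar α, detChar_irr α⟩ : Cfsg.IrrCharacter (GL (Fin 2) F)))
    · intro α β h
      exact detChar_injective (congrArg Subtype.val h)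
    · intro α
      exact detChar_one α
    · intro χ hχ
      rcases gl2_irr_classification χ.2 with ⟨α, β, _, h⟩ | ⟨α, h⟩ | ⟨α, h⟩ | ⟨_, h1, _⟩
      · exfalso
        rw [h, psGL_one, e2, e0] at hχ
        have : m + 4 = 1 := by exact_mod_cast hχ
        omega
      · exact ⟨α, Subtype.ext h.symm⟩
      · exfalso
        rw [h, Pi.sub_apply, psGL_one, detChar_one, add_sub_cancel_right, e1, e0] at hχ
        have : m + 3 = 1 := by exact_mod_cast hχ
        omega
      · exfalso
        rw [h1, e3, e0] at hχ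
        have : m + 2 = 1 := by exact_mod_cast hχ
        omega
  -- degree q
  have c2 : Nat.card {χ : Cfsg.IrrCharacter (GL (Fin 2) F) //
      (χ : GL (Fin 2) F → ℂ) 1 = (Fintype.card F : ℂ)} = m + 2 := by
    rw [← hM]
    apply natCard_subtype_of_injective _
      (fun α : MulChar F ℂ => (⟨psGL α α - detChar α, psGL_self_sub_irr α⟩ :
        Cfsg.IrrCharacter (GL (Fin 2) F)))
    · intro α β h
      exact stGL_injective (congrArg Subtype.val h)
    · intro α
      show (psGL α α - detChar α : GL (Fin 2) F → ℂ) 1 = _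
      rw [Pi.sub_apply, psGL_one, detChar_one, add_sub_cancel_right]
    · intro χ hχ
      rcases gl2_irr_classification χ.2 with ⟨α, β, _, h⟩ | ⟨α, h⟩ | ⟨α, h⟩ | ⟨_, h1, _⟩
      · exfalso
        rw [h, psGL_one, e2, e1] at hχ
        have : m + 4 = m + 3 := by exact_mod_cast hχ
        omega
      · exfalso
        rw [h, detChar_one, e1, e0] at hχ
        have : 1 = m + 3 := by exact_mod_cast hχ
        omega
      · exact ⟨α, Subtype.ext h.symm⟩
      · exfalso
        rw [h1, e3, e1] at hχ
        have : m + 2 = m + 3 := by exact_mod_cast hχ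
        omega
  -- degree q + 1
  have c3 : 2 * Nat.card {χ : Cfsg.IrrCharacter (GL (Fin 2) F) //
      (χ : GL (Fin 2) F → ℂ) 1 = (Fintype.card F : ℂ) + 1} = (m + 2) * (m + 1) := by
    have hA : Nat.card {p : MulChar F ℂ × MulChar F ℂ // p.1 ≠ p.2} = (m + 2) * (m + 1) := by
      rw [natCard_offDiag, hM]
      apply Nat.sub_eq_of_eq_add
      ring
    rw [← hA]
    apply natCard_subtype_two_to_one _
      (fun p : {p : MulChar F ℂ × MulChar F ℂ // p.1 ≠ p.2} =>
        (⟨psGL p.1.1 p.1.2, psGL_irr p.2⟩ : Cfsg.IrrCharacter (GL (Fin 2) F)))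
      (fun p => ⟨(p.1.2, p.1.1), fun h => p.2 h.symm⟩)
    · rintro ⟨⟨α, β⟩, hp⟩ h
      simp only [Subtype.mk.injEq, Prod.mk.injEq] at h
      exact hp h.1.symm
    · intro p
      exact psGL_one _ _
    · intro χ hχ
      rcases gl2_irr_classification χ.2 with ⟨α, β, hab, h⟩ | ⟨α, h⟩ | ⟨α, h⟩ | ⟨_, h1, _⟩
      · exact ⟨⟨(α, β), hab⟩, Subtype.ext h.symm⟩
      · exfalso
        rw [h, detChar_one, e2, e0] at hχ
        have : 1 = m + 4 := by exact_mod_cast hχ
        omega
      · exfalso
        rw [h, Pi.sub_apply, psGL_one, detChar_one, add_sub_cancel_right, e2, e1] at hχ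
        have : m + 3 = m + 4 := by exact_mod_cast hχ
        omega
      · exfalso
        rw [h1, e3, e2] at hχ
        have : m + 2 = m + 4 := by exact_mod_cast hχ
        omega
    · rintro ⟨⟨α, β⟩, hp⟩ ⟨⟨α', β'⟩, hp'⟩
      simp only [Subtype.mk.injEq, Prod.mk.injEq]
      exact psGL_eq_iff hp hp'
  -- the total
  have htot : Nat.card (Cfsg.IrrCharacter (GL (Fin 2) F)) = (m + 3) ^ 2 - 1 := by
    rw [Cfsg.Agent.Helper80.natCard_irr_eq_card_conjClasses, card_conjClasses_gl2, hm]
    congr 2
    omega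
  have hsplit := natCard_eq_sum_fiber
    (fun χ : Cfsg.IrrCharacter (GL (Fin 2) F) => (χ : GL (Fin 2) F → ℂ) 1)
    ({1, (Fintype.card F : ℂ), (Fintype.card F : ℂ) + 1, (Fintype.card F : ℂ) - 1} : Finset ℂ)
    (by
      intro χ
      simp only [Finset.mem_insert, Finset.mem_singleton]
      rcases gl2_irr_degree_value χ.2 with h | h | h | h
      · exact Or.inr (Or.inr (Or.inl h.1))
      · exact Or.inl h.1
      · exact Or.inr (Or.inl h.1)
      · exact Or.inr (Or.inr (Or.inr h.1)))
  rw [Finset.sum_insert, Finset.sum_insert, Finset.sum_insert, Finset.sum_singleton, htot, c1,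
    c2] at hsplit
  · refine ⟨?_, ?_, ?_, ?_⟩
    · rw [c1, hm]; omega
    · rw [c2, hm]; omega
    · have e : (Fintype.card F - 1) * (Fintype.card F - 2) = (m + 2) * (m + 1) := by
        rw [hm]
        congr 1 <;> omega
      rw [e, ← c3]
      simp
    · have e : Fintype.card F * (Fintype.card F - 1) = (m + 3) * (m + 2) := by
        rw [hm]
        congr 1 <;> omega
      rw [e]
      have e' : (m + 3) * (m + 2) = 2 * Nat.card {χ : Cfsg.IrrCharacter (GL (Fin 2) F) //
          (χ : GL (Fin 2) F → ℂ) 1 = (Fintype.card F : ℂ) - 1} := by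
        have h5 : (m + 3) ^ 2 - 1 = m * m + 6 * m + 8 := by
          apply Nat.sub_eq_of_eq_add
          ring
        rw [h5] at hsplit
        have h6 : (m + 2) * (m + 1) = m * m + 3 * m + 2 := by ring
        have h7 : (m + 3) * (m + 2) = m * m + 5 * m + 6 := by ring
        rw [h6] at c3
        rw [h7]
        omega
      rw [e']
      simp
  · simp only [Finset.mem_singleton]
    rw [e2, e3]
    intro h
    have : m + 4 = m + 2 := by exact_mod_cast h
    omega
  · simp only [Finset.mem_insert, Finset.mem_singleton]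
    rw [e2, e3, e1]
    rintro (h | h)
    · have : m + 3 = m + 4 := by exact_mod_cast h
      omega
    · have : m + 3 = m + 2 := by exact_mod_cast h
      omega
  · simp only [Finset.mem_insert, Finset.mem_singleton]
    rw [e2, e3, e1, e0]
    rintro (h | h | h)
    · have : 1 = m + 3 := by exact_mod_cast h
      omega
    · have : 1 = m + 4 := by exact_mod_cast h
      omega
    · have : 1 = m + 2 := by exact_mod_cast h
      omega

end GL2Degrees

end Cfsg.Agent.Helper39
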