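import Mathlib
import Cfsg.Prelude.Def_GeometricClasses
import Cfsg.Prelude.Def_LieTypeDatum

set_option autoImplicit false

namespace Cfsg.Agent.Helper39

open Matrix Module

/-- CardPGO -/
theorem card_pgo_le {F : Type*} [Field F] [Fintype F] {ι : Type} [Fintype ι] [DecidableEq ι]
    (Q : QuadraticForm F (ι → F)) (hQ : ∃ v, Q v ≠ 0) :
    Nat.card (Cfsg.PGO F (⇑Q)) ≤ Nat.card (Cfsg.isometryGroup F (⇑Q)) := by
  classical
  obtain ⟨v₀, hv₀⟩ := hQ
  haveI : Nonempty ι := by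
    by_contra hne
    rw [not_nonempty_iff] at hne
    apply hv₀
    have : v₀ = 0 := Subsingleton.elim _ _
    rw [this, map_zero]
  obtain ⟨H, hH⟩ : ∃ H : Subgroup (GL ι F), H = Cfsg.Geo.quadSimilarityGroup (F := F) (⇑Q) :=
    ⟨_, rfl⟩
  have hmemH : ∀ g : GL ι F, g ∈ H ↔
      ∃ c : Fˣ, ∀ v, Q ((g : Matrix ι ι F) *ᵥ v) = (c : F) * Q v := by
    intro g; rw [hH]; rfl
  show Nat.card (↥(Cfsg.Geo.quadSimilarityGroup (F := F) (⇑Q)) ⧸
    (Cfsg.Geo.scalars ι F).subgroupOf (Cfsg.Geo.quadSimilarityGroup (F := F) (⇑Q))) ≤ _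
  rw [← hH]
  -- the multiplier
  have hex : ∀ g : H, ∃ c : Fˣ, ∀ v, Q (((g : GL ι F) : Matrix ι ι F) *ᵥ v) = (c : F) * Q v :=
    fun g => (hmemH g.1).1 g.2
  choose μ hμ using hex
  have hμ_unique : ∀ (g : H) (c : Fˣ),
      (∀ v, Q (((g : GL ι F) : Matrix ι ι F) *ᵥ v) = (c : F) * Q v) → μ g = c := by
    intro g c hc
    have h1 := hμ g v₀
    have h2 := hc v₀
    rw [h1] at h2
    exact Units.ext (mul_right_cancel₀ hv₀ h2)
  let μhom : H →* Fˣ :=
    { toFun := μ
      map_one' := hμ_unique 1 1 (fun v => by simp)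
      map_mul' := fun g h => hμ_unique (g * h) (μ g * μ h) (fun v => by
        rw [Subgroup.coe_mul, Units.val_mul, ← Matrix.mulVec_mulVec, hμ, hμ, Units.val_mul,
          mul_assoc]) }
  have hμhom : ∀ g : H, μhom g = μ g := fun g => rfl
  -- |H| = |H / ker| * |ker|
  have hL1 : Nat.card H = Nat.card (H ⧸ μhom.ker) * Nat.card μhom.ker :=
    Subgroup.card_eq_card_quotient_mul_card_subgroup _
  have hL2 : Nat.card (H ⧸ μhom.ker) ≤ Nat.card Fˣ :=
    Nat.card_le_card_of_injective _ (QuotientGroup.kerLift_injective μhom)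
  have hL3 : Nat.card μhom.ker ≤ Nat.card (Cfsg.isometryGroup F (⇑Q)) := by
    have hmem : ∀ x : μhom.ker, ((x : H) : GL ι F) ∈ Cfsg.isometryGroup F (⇑Q) := by
      intro x u v
      have hx : μhom (x : H) = 1 := x.2
      rw [hμhom] at hx
      have := hμ (x : H) u
      rw [hx, Units.val_one, one_mul] at this
      exact this
    refine Nat.card_le_card_of_injective (fun x => ⟨((x : H) : GL ι F), hmem x⟩) ?_
    intro x y hxy
    have : ((x : H) : GL ι F) = ((y : H) : GL ι F) :=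
      congrArg (fun z : Cfsg.isometryGroup F (⇑Q) => (z : GL ι F)) hxy
    exact Subtype.ext (Subtype.ext this)
  -- |H| = |H / N| * |N|
  have hL4 : Nat.card H = Nat.card (H ⧸ (Cfsg.Geo.scalars ι F).subgroupOf H) *
      Nat.card ((Cfsg.Geo.scalars ι F).subgroupOf H) :=
    Subgroup.card_eq_card_quotient_mul_card_subgroup _
  have hL5 : Nat.card Fˣ ≤ Nat.card ((Cfsg.Geo.scalars ι F).subgroupOf H) := by
    have hsH : ∀ a : Fˣ, Units.map (Matrix.scalar ι : F →+* Matrix ι ι F).toMonoidHom a ∈ H := by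
      intro a
      rw [hmemH]
      refine ⟨a * a, fun v => ?_⟩
      have h1 : ((Units.map (Matrix.scalar ι : F →+* Matrix ι ι F).toMonoidHom a : GL ι F) :
          Matrix ι ι F) *ᵥ v = (a : F) • v := by
        rw [Units.coe_map]
        show (Matrix.scalar ι (a : F)) *ᵥ v = (a : F) • v
        rw [Matrix.scalar_apply, ← Matrix.smul_one_eq_diagonal, Matrix.smul_mulVec,
          Matrix.one_mulVec]
      rw [h1, QuadraticMap.map_smul, Units.val_mul, smul_eq_mul]
    have hsS : ∀ a : Fˣ, (⟨Units.map (Matrix.scalar ι : F →+* Matrix ι ι F).toMonoidHom a,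
        hsH a⟩ : H) ∈ (Cfsg.Geo.scalars ι F).subgroupOf H := by
      intro a
      rw [Subgroup.mem_subgroupOf]
      exact ⟨a, rfl⟩
    refine Nat.card_le_card_of_injective (fun a => ⟨⟨_, hsH a⟩, hsS a⟩) ?_
    intro a b hab
    have h1 : Units.map (Matrix.scalar ι : F →+* Matrix ι ι F).toMonoidHom a =
        Units.map (Matrix.scalar ι : F →+* Matrix ι ι F).toMonoidHom b :=
      congrArg (fun x : ((Cfsg.Geo.scalars ι F).subgroupOf H) => ((x : H) : GL ι F)) hab
    have h2 := congrArg (fun x : GL ι F => (x : Matrix ι ι F)) h1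
    simp only [Units.coe_map] at h2
    have h3 : Matrix.scalar ι (a : F) = Matrix.scalar ι (b : F) := h2
    exact Units.ext (Matrix.scalar_inj.1 h3)
  have hpos : 0 < Nat.card Fˣ := Nat.card_pos
  have hfin : Nat.card (H ⧸ (Cfsg.Geo.scalars ι F).subgroupOf H) * Nat.card Fˣ ≤
      Nat.card (Cfsg.isometryGroup F (⇑Q)) * Nat.card Fˣ := by
    calc Nat.card (H ⧸ (Cfsg.Geo.scalars ι F).subgroupOf H) * Nat.card Fˣ
        ≤ Nat.card (H ⧸ (Cfsg.Geo.scalars ι F).subgroupOf H) *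
          Nat.card ((Cfsg.Geo.scalars ι F).subgroupOf H) := Nat.mul_le_mul_left _ hL5
      _ = Nat.card H := hL4.symm
      _ = Nat.card (H ⧸ μhom.ker) * Nat.card μhom.ker := hL1
      _ ≤ Nat.card Fˣ * Nat.card (Cfsg.isometryGroup F (⇑Q)) := Nat.mul_le_mul hL2 hL3
      _ = Nat.card (Cfsg.isometryGroup F (⇑Q)) * Nat.card Fˣ := Nat.mul_comm _ _
  exact Nat.le_of_mul_le_mul_right hfin hpos

end Cfsg.Agent.Helper39
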