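import Mathlib
import Cfsg.Prelude.Def_GeometricClasses
import Cfsg.Prelude.Def_LieTypeDatum

set_option autoImplicit false

namespace Cfsg.Agent.Helper39

open Matrix Module

/-- The block matrix `diag(1, !![1, a; 0, -1])`. -/
def gsminusReflMat {F : Type*} [Field F] (m : ℕ) (a : F) :
    Matrix ((Fin m ⊕ Fin m) ⊕ Fin 2) ((Fin m ⊕ Fin m) ⊕ Fin 2) F :=
  Matrix.fromBlocks (1 : Matrix (Fin m ⊕ Fin m) (Fin m ⊕ Fin m) F) 0 0 !![1, a; 0, -1]

theorem gsminusReflMat_mulVec {F : Type*} [Field F] (m : ℕ) (a : F)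
    (v : (Fin m ⊕ Fin m) ⊕ Fin 2 → F) :
    gsminusReflMat m a *ᵥ v =
      Sum.elim (fun i => v (Sum.inl i))
        ![v (Sum.inr 0) + a * v (Sum.inr 1), -v (Sum.inr 1)] := by
  unfold gsminusReflMat
  rw [Matrix.fromBlocks_mulVec]
  funext x
  rcases x with i | j
  · simp
  · fin_cases j
    · simp [dotProduct, Fin.sum_univ_two]
    · simp [dotProduct, Fin.sum_univ_two]

theorem gsminusReflMat_det {F : Type*} [Field F] (m : ℕ) (a : F) :
    (gsminusReflMat m a).det = -1 := by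
  unfold gsminusReflMat
  rw [Matrix.det_fromBlocks_zero₁₂, Matrix.det_one, one_mul, Matrix.det_fin_two_of]
  ring

/-- MinusRefl -/
theorem minus_refl_exists {F : Type*} [Field F] (m : ℕ) (a b : F) :
    ∃ h : GL ((Fin m ⊕ Fin m) ⊕ Fin 2) F,
      h ∈ Cfsg.Geo.quadSimilarityGroup (Cfsg.quadFormMinus m F a b) ∧
      (h : Matrix ((Fin m ⊕ Fin m) ⊕ Fin 2) ((Fin m ⊕ Fin m) ⊕ Fin 2) F).det = -1 := by
  have hdet := gsminusReflMat_det (F := F) m a
  have hne : (gsminusReflMat (F := F) m a).det ≠ 0 := by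
    rw [hdet]; simp
  refine ⟨Matrix.GeneralLinearGroup.mkOfDetNeZero _ hne, ?_, ?_⟩
  · refine ⟨1, fun v => ?_⟩
    have hcoe : ((Matrix.GeneralLinearGroup.mkOfDetNeZero _ hne :
        GL ((Fin m ⊕ Fin m) ⊕ Fin 2) F) :
        Matrix ((Fin m ⊕ Fin m) ⊕ Fin 2) ((Fin m ⊕ Fin m) ⊕ Fin 2) F) =
        gsminusReflMat m a := rfl
    rw [hcoe, gsminusReflMat_mulVec]
    simp only [Cfsg.quadFormMinus, Sum.elim_inl, Sum.elim_inr, Units.val_one,
      Matrix.cons_val_zero, Matrix.cons_val_one, one_mul]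
    ring
  · exact hdet

end Cfsg.Agent.Helper39
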