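import Mathlib
import Cfsg.Prelude.Def_GeometricClasses
import Cfsg.Prelude.Def_LieTypeDatum

set_option autoImplicit false

namespace Cfsg.Agent.Helper39

open Matrix Module Polynomial

/-- An anisotropic binary form `z₁² + a z₁ z₂ + b z₂²` over a finite field of odd characteristic
represents every element. -/
theorem gsminus_norm_represents {F : Type*} [Field F] [Finite F] (h2 : (2 : F) ≠ 0) (a b : F)
    (hab : ∀ z₁ z₂ : F, z₁ ^ 2 + a * z₁ * z₂ + b * z₂ ^ 2 = 0 → z₁ = 0 ∧ z₂ = 0) (c : F) :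
    ∃ u₁ u₂ : F, u₁ ^ 2 + a * u₁ * u₂ + b * u₂ ^ 2 = c := by
  classical
  haveI : Fintype F := Fintype.ofFinite F
  have h4 : (4 : F) ≠ 0 := by
    have : (4 : F) = 2 * 2 := by norm_num
    rw [this]; exact mul_ne_zero h2 h2
  set d : F := b - a ^ 2 / 4 with hd
  have hd0 : d ≠ 0 := by
    intro h0
    have h := hab (-a / 2) 1 (by
      have : (-a / 2) ^ 2 + a * (-a / 2) * 1 + b * 1 ^ 2 = d := by
        rw [hd]; field_simp; ring
      rw [this, h0])
    exact one_ne_zero h.2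
  have hchar : ringChar F ≠ 2 := by
    intro h
    apply h2
    have := CharP.cast_eq_zero F (ringChar F)
    rw [h] at this
    exact_mod_cast this
  have hodd : Fintype.card F % 2 = 1 := FiniteField.odd_card_of_char_ne_two hchar
  have hf : degree (X ^ 2 : F[X]) = 2 := by
    rw [degree_X_pow]; rfl
  have hg : degree (C d * X ^ 2 - C c : F[X]) = 2 := by
    rw [degree_sub_C (by rw [degree_C_mul_X_pow 2 hd0]; norm_num), degree_C_mul_X_pow 2 hd0]
    rfl
  obtain ⟨x, y, hxy⟩ := FiniteField.exists_root_sum_quadratic hf hg hodd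
  simp only [eval_pow, eval_X, eval_sub, eval_mul, eval_C] at hxy
  refine ⟨x - a * y / 2, y, ?_⟩
  have : (x - a * y / 2) ^ 2 + a * (x - a * y / 2) * y + b * y ^ 2 = x ^ 2 + d * y ^ 2 := by
    rw [hd]; field_simp; ring
  rw [this]
  linear_combination hxy

/-- The block matrix used for the minus-type similitude. -/
def gsminusMat {F : Type*} [Field F] (m : ℕ) (a b c u₁ u₂ : F) :
    Matrix ((Fin m ⊕ Fin m) ⊕ Fin 2) ((Fin m ⊕ Fin m) ⊕ Fin 2) F :=
  Matrix.fromBlocks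
    (Matrix.fromBlocks (1 : Matrix (Fin m) (Fin m) F) 0 0 (c • (1 : Matrix (Fin m) (Fin m) F)))
    0 0 !![u₁, -b * u₂; u₂, u₁ + a * u₂]

theorem gsminusMat_mulVec {F : Type*} [Field F] (m : ℕ) (a b c u₁ u₂ : F)
    (v : (Fin m ⊕ Fin m) ⊕ Fin 2 → F) :
    gsminusMat m a b c u₁ u₂ *ᵥ v =
      Sum.elim (Sum.elim (fun i => v (Sum.inl (Sum.inl i))) (fun i => c * v (Sum.inl (Sum.inr i))))
        ![u₁ * v (Sum.inr 0) + -b * u₂ * v (Sum.inr 1),
          u₂ * v (Sum.inr 0) + (u₁ + a * u₂) * v (Sum.inr 1)] := by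
  unfold gsminusMat
  rw [Matrix.fromBlocks_mulVec, Matrix.fromBlocks_mulVec]
  funext x
  rcases x with (i | i) | j
  · simp
  · simp [Matrix.smul_mulVec]
  · fin_cases j
    · simp [Matrix.mulVec, dotProduct, Fin.sum_univ_two]
    · simp [Matrix.mulVec, dotProduct, Fin.sum_univ_two]

theorem gsminusMat_det {F : Type*} [Field F] (m : ℕ) (a b c u₁ u₂ : F)
    (hu : u₁ ^ 2 + a * u₁ * u₂ + b * u₂ ^ 2 = c) :
    (gsminusMat m a b c u₁ u₂).det = c ^ (m + 1) := by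
  unfold gsminusMat
  rw [Matrix.det_fromBlocks_zero₁₂, Matrix.det_fromBlocks_zero₁₂, Matrix.det_one, one_mul,
    Matrix.det_smul, Matrix.det_one, mul_one, Fintype.card_fin, Matrix.det_fin_two_of, pow_succ]
  congr 1
  linear_combination hu

/-- MinusSim -/
theorem minus_sim_exists {F : Type*} [Field F] [Finite F] (h2 : (2 : F) ≠ 0) (m : ℕ) (a b : F)
    (hab : ∀ z₁ z₂ : F, z₁ ^ 2 + a * z₁ * z₂ + b * z₂ ^ 2 = 0 → z₁ = 0 ∧ z₂ = 0) (c : F)
    (hc : c ≠ 0) :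
    ∃ h : GL ((Fin m ⊕ Fin m) ⊕ Fin 2) F,
      h ∈ Cfsg.Geo.quadSimilarityGroup (Cfsg.quadFormMinus m F a b) ∧
      (h : Matrix ((Fin m ⊕ Fin m) ⊕ Fin 2) ((Fin m ⊕ Fin m) ⊕ Fin 2) F).det = c ^ (m + 1) := by
  obtain ⟨u₁, u₂, hu⟩ := gsminus_norm_represents h2 a b hab c
  have hdet := gsminusMat_det m a b c u₁ u₂ hu
  have hne : (gsminusMat m a b c u₁ u₂).det ≠ 0 := by
    rw [hdet]; exact pow_ne_zero _ hc
  refine ⟨Matrix.GeneralLinearGroup.mkOfDetNeZero _ hne, ?_, ?_⟩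
  · refine ⟨Units.mk0 c hc, fun v => ?_⟩
    have hcoe : ((Matrix.GeneralLinearGroup.mkOfDetNeZero _ hne :
        GL ((Fin m ⊕ Fin m) ⊕ Fin 2) F) :
        Matrix ((Fin m ⊕ Fin m) ⊕ Fin 2) ((Fin m ⊕ Fin m) ⊕ Fin 2) F) =
        gsminusMat m a b c u₁ u₂ := rfl
    rw [hcoe, gsminusMat_mulVec]
    simp only [Cfsg.quadFormMinus, Sum.elim_inl, Sum.elim_inr, Units.val_mk0,
      Matrix.cons_val_zero, Matrix.cons_val_one]
    have hsum : ∑ i : Fin m, v (Sum.inl (Sum.inl i)) * (c * v (Sum.inl (Sum.inr i))) =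
        c * ∑ i : Fin m, v (Sum.inl (Sum.inl i)) * v (Sum.inl (Sum.inr i)) := by
      rw [Finset.mul_sum]
      refine Finset.sum_congr rfl fun i _ => ?_
      ring
    rw [hsum, ← hu]
    ring
  · exact hdet

end Cfsg.Agent.Helper39
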