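import Mathlib
import Cfsg.Prelude.Def_GeometricClasses
import Cfsg.Prelude.Def_LieTypeDatum

set_option autoImplicit false

namespace Cfsg.Agent.Helper39

open Matrix Module

/-- The action of the diagonal block matrix `diag(1, c)` on a vector. -/
theorem gsplus_diag_mulVec {F : Type*} [Field F] (m : ℕ) (c : F) (v : Fin m ⊕ Fin m → F) :
    (Matrix.fromBlocks (1 : Matrix (Fin m) (Fin m) F) 0 0 (c • (1 : Matrix (Fin m) (Fin m) F))) *ᵥ v
      = Sum.elim (fun i => v (Sum.inl i)) (fun i => c * v (Sum.inr i)) := by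
  rw [Matrix.fromBlocks_mulVec]
  funext x
  rcases x with i | i
  · simp
  · simp [Matrix.smul_mulVec]

/-- The determinant of the diagonal block matrix `diag(1, c)`. -/
theorem gsplus_diag_det {F : Type*} [Field F] (m : ℕ) (c : F) :
    (Matrix.fromBlocks (1 : Matrix (Fin m) (Fin m) F) 0 0 (c • (1 : Matrix (Fin m) (Fin m) F))).det
      = c ^ m := by
  rw [Matrix.det_fromBlocks_zero₁₂, Matrix.det_one, one_mul, Matrix.det_smul, Matrix.det_one,
    mul_one, Fintype.card_fin]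

/-- PlusSim (1/2) -/
theorem plus_sim_exists {F : Type*} [Field F] (m : ℕ) (c : F) (hc : c ≠ 0) :
    ∃ h : GL (Fin m ⊕ Fin m) F, h ∈ Cfsg.Geo.quadSimilarityGroup (Cfsg.quadFormPlus m F) ∧
      (h : Matrix (Fin m ⊕ Fin m) (Fin m ⊕ Fin m) F).det = c ^ m := by
  have hdet := gsplus_diag_det (F := F) m c
  have hne : (Matrix.fromBlocks (1 : Matrix (Fin m) (Fin m) F) 0 0
      (c • (1 : Matrix (Fin m) (Fin m) F))).det ≠ 0 := by
    rw [hdet]; exact pow_ne_zero _ hc
  refine ⟨Matrix.GeneralLinearGroup.mkOfDetNeZero _ hne, ?_, ?_⟩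
  · refine ⟨Units.mk0 c hc, fun v => ?_⟩
    have hcoe : ((Matrix.GeneralLinearGroup.mkOfDetNeZero _ hne : GL (Fin m ⊕ Fin m) F) :
        Matrix (Fin m ⊕ Fin m) (Fin m ⊕ Fin m) F) =
        Matrix.fromBlocks (1 : Matrix (Fin m) (Fin m) F) 0 0
          (c • (1 : Matrix (Fin m) (Fin m) F)) := rfl
    rw [hcoe, gsplus_diag_mulVec]
    simp only [Cfsg.quadFormPlus, Sum.elim_inl, Sum.elim_inr, Units.val_mk0]
    rw [Finset.mul_sum]
    refine Finset.sum_congr rfl fun i _ => ?_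
    ring
  · exact hdet

/-- PlusSim (2/2) -/
theorem plus_refl_exists {F : Type*} [Field F] (m : ℕ) (hm : 1 ≤ m) :
    ∃ h : GL (Fin m ⊕ Fin m) F, h ∈ Cfsg.Geo.quadSimilarityGroup (Cfsg.quadFormPlus m F) ∧
      (h : Matrix (Fin m ⊕ Fin m) (Fin m ⊕ Fin m) F).det = -1 := by
  obtain ⟨i₀⟩ : Nonempty (Fin m) := ⟨⟨0, hm⟩⟩
  set σ : Equiv.Perm (Fin m ⊕ Fin m) := Equiv.swap (Sum.inl i₀) (Sum.inr i₀) with hσ
  have hdet : (σ.permMatrix F).det = -1 := by
    rw [Matrix.det_permutation, hσ, Equiv.Perm.sign_swap (by simp)]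
    simp
  have hne : (σ.permMatrix F).det ≠ 0 := by
    rw [hdet]; simp
  refine ⟨Matrix.GeneralLinearGroup.mkOfDetNeZero _ hne, ?_, ?_⟩
  · refine ⟨1, fun v => ?_⟩
    have hcoe : ((Matrix.GeneralLinearGroup.mkOfDetNeZero _ hne : GL (Fin m ⊕ Fin m) F) :
        Matrix (Fin m ⊕ Fin m) (Fin m ⊕ Fin m) F) = σ.permMatrix F := rfl
    rw [hcoe, Matrix.permMatrix_mulVec]
    simp only [Cfsg.quadFormPlus, Units.val_one, one_mul, Function.comp_apply]
    refine Finset.sum_congr rfl fun i _ => ?_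
    by_cases hi : i = i₀
    · subst hi
      rw [hσ, Equiv.swap_apply_left, Equiv.swap_apply_right]
      ring
    · have h1 : σ (Sum.inl i) = Sum.inl i := by
        rw [hσ]
        exact Equiv.swap_apply_of_ne_of_ne (by simpa using hi) (by simp)
      have h2 : σ (Sum.inr i) = Sum.inr i := by
        rw [hσ]
        exact Equiv.swap_apply_of_ne_of_ne (by simp) (by simpa using hi)
      rw [h1, h2]
  · exact hdet

end Cfsg.Agent.Helper39
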