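import Mathlib
import Cfsg.Agent.Lead.LWDefs
import Cfsg.Agent.Helper28.LWA1

set_option autoImplicit false

namespace Cfsg.Agent.Helper39.LWA4

open Cfsg.Agent.Lead.LW
open Cfsg.Agent.Helper28.LWA1

variable {α : Type*} [Fintype α] [DecidableEq α]

-- PIECE A4  (assembly: A1)
theorem good_of_index_lt (G : Subgroup (Equiv.Perm α)) (k : ℕ) (hk : 4 ≤ k) (Γ : Finset α)
    (hΓ : Γ.card = k) (δ : α) (hδ : δ ∉ Γ)
    (h : (induced G (insert δ Γ)).index < k + 1) : Good G k := by
  have hcard : (insert δ Γ).card = k + 1 := by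
    rw [Finset.card_insert_of_notMem hδ, hΓ]
  have hfc : Fintype.card ↥(insert δ Γ) = k + 1 := by
    rw [Fintype.card_coe, hcard]
  have hle : alternatingGroup ↥(insert δ Γ) ≤ induced G (insert δ Γ) :=
    alt_le_of_index_lt (induced G (insert δ Γ)) (by rw [hfc]; omega) (by rw [hfc]; exact h)
  exact ⟨insert δ Γ, hcard, fun σ hσ => hle hσ⟩

end Cfsg.Agent.Helper39.LWA4
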