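import Mathlib
import Cfsg.Agent.Lead.LWDefs
import Cfsg.Agent.Helper61.LWA2
import Cfsg.Agent.Helper42.LWA3
import Cfsg.Agent.Helper39.LWA4

set_option autoImplicit false
set_option linter.unusedSectionVars false

namespace Cfsg.Agent.Helper39.LWA5

open Cfsg.Agent.Lead.LW
open Cfsg.Agent.Helper61.LWA2
open Cfsg.Agent.Helper42.LWA3
open Cfsg.Agent.Helper39.LWA4

variable {α : Type*} [Fintype α] [DecidableEq α]

/-- a `k`-set and a point outside it, when `k < card α` -/
theorem exists_kset_point (k : ℕ) (hkn : k < Fintype.card α) :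
    ∃ (Γ : Finset α) (δ : α), Γ.card = k ∧ δ ∉ Γ := by
  obtain ⟨Γ, -, hΓ⟩ := Finset.exists_subset_card_eq (s := (Finset.univ : Finset α))
    (n := k) (by rw [Finset.card_univ]; omega)
  have hex : ∃ δ, δ ∉ Γ := by
    by_contra hcon
    push Not at hcon
    have : Γ = Finset.univ := Finset.eq_univ_iff_forall.2 hcon
    rw [this, Finset.card_univ] at hΓ
    omega
  obtain ⟨δ, hδ⟩ := hex
  exact ⟨Γ, δ, hΓ, hδ⟩

-- PIECE A5  (assembly: A2 A3 A4)
theorem good_of_small (G : Subgroup (Equiv.Perm α)) (k : ℕ) (hk : 4 ≤ k)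
    (hkn : k < Fintype.card α) (hn : Fintype.card α ≤ 2 * k) (hG : KTrans G k) : Good G k := by
  obtain ⟨Γ, δ, hΓ, hδ⟩ := exists_kset_point (α := α) k hkn
  have h1 := index_le_ncard G k hG Γ hΓ δ hδ
  have h2 := ncard_cls_le G Γ δ
  rw [hΓ] at h2
  exact good_of_index_lt G k hk Γ hΓ δ hδ (by omega)

end Cfsg.Agent.Helper39.LWA5
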