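import Mathlib
import Cfsg.Agent.Lead.LWDefs
import Cfsg.Agent.Helper61.LWA2
import Cfsg.Agent.Helper42.LWA3
import Cfsg.Agent.Helper39.LWA4
import Cfsg.Agent.Helper48.LWA6
import Cfsg.Agent.Helper42.LWA7

set_option autoImplicit false
set_option linter.unusedSectionVars false

namespace Cfsg.Agent.Helper39.LWA8

open Cfsg.Agent.Lead.LW
open Cfsg.Agent.Helper61.LWA2
open Cfsg.Agent.Helper42.LWA3
open Cfsg.Agent.Helper39.LWA4
open Cfsg.Agent.Helper48.LWA6
open Cfsg.Agent.Helper42.LWA7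

variable {α : Type*} [Fintype α] [DecidableEq α]

/-- a `k`-set and a point outside it, when `k < card α` -/
theorem exists_kset_point' (k : ℕ) (hkn : k < Fintype.card α) :
    ∃ (Γ : Finset α) (δ : α), Γ.card = k ∧ δ ∉ Γ := by
  obtain ⟨Γ, -, hΓ⟩ := Finset.exists_subset_card_eq (s := (Finset.univ : Finset α))
    (n := k) (by rw [Finset.card_univ]; omega)
  have hex : ∃ δ, δ ∉ Γ := by
    by_contra hcon
    push Not at hcon
    have : Γ = Finset.univ := Finset.eq_univ_iff_forall.2 hcon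
    rw [this, Finset.card_univ] at hΓ
    omega
  obtain ⟨δ, hδ⟩ := hex
  exact ⟨Γ, δ, hΓ, hδ⟩

theorem cls_subset_compl (G : Subgroup (Equiv.Perm α)) (Γ : Finset α) (δ : α) :
    cls G Γ δ ⊆ ((Γᶜ : Finset α) : Set α) := by
  intro x hx
  rw [Finset.mem_coe, Finset.mem_compl]
  exact hx.1

-- PIECE A8  (assembly: A2 A3 A4 A6 A7)
theorem good_of_seven (G : Subgroup (Equiv.Perm α)) (k : ℕ) (hk : k = 4 ∨ k = 5)
    (hn : Fintype.card α = k + 7) (hG : KTrans G k)
    (hsharp : ∀ Γ : Finset α, Γ.card = k → pstab G Γ = ⊥) : Good G k := by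
  have hk4 : 4 ≤ k := by rcases hk with h | h <;> omega
  obtain ⟨Γ, δ₀, hΓ, hδ₀⟩ := exists_kset_point' (α := α) k (by omega)
  have hcompl : ((Γᶜ : Finset α) : Set α).ncard = 7 := by
    rw [Set.ncard_coe_finset, Finset.card_compl, hΓ, hn]
    omega
  have hE0 := ncard_cls_eq_index G k hG hsharp Γ hΓ δ₀ hδ₀
  have hE0le : (cls G Γ δ₀).ncard ≤ 7 := by
    rw [← hcompl]
    exact Set.ncard_le_ncard (cls_subset_compl G Γ δ₀) (Set.toFinite _)
  -- the index divides `(k+1)!`
  have hcardΔ : (insert δ₀ Γ).card = k + 1 := by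
    rw [Finset.card_insert_of_notMem hδ₀, hΓ]
  have hdvd : (induced G (insert δ₀ Γ)).index ∣ (k + 1).factorial := by
    have h1 := Subgroup.index_dvd_card (induced G (insert δ₀ Γ))
    rw [Nat.card_perm, Nat.card_eq_fintype_card, Fintype.card_coe, hcardΔ] at h1
    exact h1
  have hne7 : (cls G Γ δ₀).ncard ≠ 7 := by
    intro h7
    rw [hE0] at h7
    rw [h7] at hdvd
    rcases hk with h | h
    · rw [h] at hdvd
      revert hdvd; decide
    · rw [h] at hdvd
      revert hdvd; decide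
  by_cases hlt : (cls G Γ δ₀).ncard < k + 1
  · exact good_of_index_lt G k hk4 Γ hΓ δ₀ hδ₀ (by rw [← hE0]; exact hlt)
  · -- a point outside `Γ` and outside the class
    have hex : ∃ δ₁, δ₁ ∉ Γ ∧ δ₁ ∉ cls G Γ δ₀ := by
      by_contra hcon
      push Not at hcon
      have hsub : ((Γᶜ : Finset α) : Set α) ⊆ cls G Γ δ₀ := by
        intro x hx
        rw [Finset.mem_coe, Finset.mem_compl] at hx
        exact hcon x hx
      have := Set.ncard_le_ncard hsub (Set.toFinite _)
      rw [hcompl] at this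
      omega
    obtain ⟨δ₁, hδ₁, hδ₁'⟩ := hex
    have hdisj := cls_disjoint G Γ δ₀ δ₁ hδ₁ hδ₁'
    have hunion : (cls G Γ δ₀ ∪ cls G Γ δ₁).ncard ≤ 7 := by
      rw [← hcompl]
      exact Set.ncard_le_ncard
        (Set.union_subset (cls_subset_compl G Γ δ₀) (cls_subset_compl G Γ δ₁)) (Set.toFinite _)
    rw [Set.ncard_union_eq hdisj (Set.toFinite _) (Set.toFinite _)] at hunion
    have h1 := index_le_ncard G k hG Γ hΓ δ₁ hδ₁
    exact good_of_index_lt G k hk4 Γ hΓ δ₁ hδ₁ (by omega)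

end Cfsg.Agent.Helper39.LWA8
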