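import Mathlib
import Cfsg.Agent.Lead.LWDefs
import Cfsg.Agent.Helper61.LWB1

set_option autoImplicit false
set_option linter.unusedSectionVars false

namespace Cfsg.Agent.Helper39.LWB2

open Cfsg.Agent.Lead.LW
open Cfsg.Agent.Helper61.LWB1

variable {α : Type*} [Fintype α] [DecidableEq α]

/-- an element of `nrm G P` maps fixed points of `P` to fixed points -/
theorem nrm_map_fixF (G P : Subgroup (Equiv.Perm α)) (g : Equiv.Perm α) (hg : g ∈ nrm G P)
    (a : α) (ha : a ∈ fixF P) : g a ∈ fixF P := by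
  rw [mem_nrm] at hg
  rw [mem_fixF] at ha ⊢
  intro q hq
  have h1 : g⁻¹ * q * g ∈ P := by
    rw [hg.2 (g⁻¹ * q * g)]
    have : g * (g⁻¹ * q * g) * g⁻¹ = q := by group
    rw [this]; exact hq
  have h2 := ha _ h1
  rw [Equiv.Perm.mul_apply, Equiv.Perm.mul_apply, Equiv.Perm.inv_eq_iff_eq] at h2
  exact h2

theorem nrm_fixF_iff (G P : Subgroup (Equiv.Perm α)) (g : Equiv.Perm α) (hg : g ∈ nrm G P)
    (a : α) : g a ∈ fixF P ↔ a ∈ fixF P := by
  constructor
  · intro h
    have := nrm_map_fixF G P g⁻¹ ((nrm G P).inv_mem hg) (g a) h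
    have hga : g⁻¹ (g a) = a := by
      rw [Equiv.Perm.inv_eq_iff_eq]
    rwa [hga] at this
  · exact nrm_map_fixF G P g hg a

-- PIECE B2  (from B1)
theorem ktrans_induced_nrm (G : Subgroup (Equiv.Perm α)) (k : ℕ) (hG : KTrans G k) (Γ : Finset α)
    (hΓ : Γ.card = k) (P : Subgroup (Equiv.Perm α)) (hP : P ≤ pstab G Γ)
    (hcard : Nat.card P = 2 ^ (Nat.card (pstab G Γ)).factorization 2) :
    KTrans (induced (nrm G P) (fixF P)) k := by
  intro x y
  obtain ⟨g, hg, hgxy⟩ := witt G k hG Γ hΓ P hP hcard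
    (x.trans (Function.Embedding.subtype _)) (y.trans (Function.Embedding.subtype _))
    (fun i => (x i).2) (fun i => (y i).2)
  refine ⟨g.subtypePerm (nrm_fixF_iff G P g hg), ⟨g, hg, fun z => rfl⟩, fun i => ?_⟩
  apply Subtype.ext
  exact hgxy i

end Cfsg.Agent.Helper39.LWB2
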