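import Mathlib
import Cfsg.Agent.Lead.LWDefs
import Cfsg.Agent.Helper39.LWB2
import Cfsg.Agent.Helper55.LWB3
import Cfsg.Agent.Helper42.LWB4

set_option autoImplicit false
set_option linter.unusedSectionVars false

namespace Cfsg.Agent.Helper39.LWB5

open Cfsg.Agent.Lead.LW
open Cfsg.Agent.Helper39.LWB2
open Cfsg.Agent.Helper55.LWB3
open Cfsg.Agent.Helper42.LWB4

variable {α : Type*} [Fintype α] [DecidableEq α]

-- PIECE B5  (assembly: B2 B3 B4)
theorem good_of_fix (G : Subgroup (Equiv.Perm α)) (k : ℕ) (hG : KTrans G k)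
    (Γ : Finset α) (hΓ : Γ.card = k) (P : Subgroup (Equiv.Perm α)) (hP : P ≤ pstab G Γ)
    (hcard : Nat.card P = 2 ^ (Nat.card (pstab G Γ)).factorization 2) (hne : P ≠ ⊥)
    (δ : α) (hδ : δ ∉ Γ) (hfix : ∀ g ∈ P, g δ = δ)
    (IH : ∀ Φ : Finset α, Φ.card < Fintype.card α → k < Φ.card →
        ∀ H : Subgroup (Equiv.Perm ↥Φ), KTrans H k → Good H k) : Good G k := by
  have hlt := card_fixF_lt P hne
  have hsub : insert δ Γ ⊆ fixF P := by
    intro a ha
    rw [mem_fixF]
    rcases Finset.mem_insert.1 ha with rfl | haΓ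
    · exact hfix
    · intro g hg
      exact (hP hg).2 a haΓ
  have hk : k < (fixF P).card := by
    have h1 := Finset.card_le_card hsub
    rw [Finset.card_insert_of_notMem hδ, hΓ] at h1
    omega
  have hgood := IH (fixF P) hlt hk (induced (nrm G P) (fixF P))
    (Cfsg.Agent.Helper39.LWB2.ktrans_induced_nrm G k hG Γ hΓ P hP hcard)
  exact good_of_induced (nrm G P) G inf_le_left (fixF P) k hgood

end Cfsg.Agent.Helper39.LWB5
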