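import Cfsg.Agent.Helper64.MRDefs
import Cfsg.Agent.Helper64.MRData6

/-!
helper39: piece OK6 of CALL MR (helper64; rows S2105 + S2106): the table `repE6` satisfies the
relations `SRep.Ok chevE6` (Boolean checkers + kernel evaluation).
-/

set_option autoImplicit false

namespace Cfsg.Agent.Helper39.MROK6

open Cfsg.Lie Cfsg.Agent.Helper64.MR

/-- Boolean version of `brk`. -/
def brkB (o₁ o₂ o₃ : Option (ℕ × ℤ)) (C : ℤ) : Bool :=
  match o₁, o₂, o₃ with
  | none, none, none => true
  | some p, none, some q => (p.1 == q.1) && (p.2 == C * q.2)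
  | none, some p, some q => (p.1 == q.1) && (-p.2 == C * q.2)
  | _, _, _ => false

theorem brk_of_brkB {o₁ o₂ o₃ : Option (ℕ × ℤ)} {C : ℤ} (h : brkB o₁ o₂ o₃ C = true) :
    brk o₁ o₂ o₃ C := by
  cases o₁ with
  | none =>
    cases o₂ with
    | none =>
      cases o₃ with
      | none => exact Or.inl ⟨rfl, rfl, rfl⟩
      | some q => simp [brkB] at h
    | some p =>
      cases o₃ with
      | none => simp [brkB] at h
      | some q =>
        simp only [brkB, Bool.and_eq_true, beq_iff_eq] at h
        obtain ⟨h1, h2⟩ := h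
        exact Or.inr (Or.inr ⟨p.1, p.2, q.2, rfl, rfl, by rw [h1], h2⟩)
  | some p =>
    cases o₂ with
    | none =>
      cases o₃ with
      | none => simp [brkB] at h
      | some q =>
        simp only [brkB, Bool.and_eq_true, beq_iff_eq] at h
        obtain ⟨h1, h2⟩ := h
        exact Or.inr (Or.inl ⟨p.1, p.2, q.2, rfl, rfl, by rw [h1], h2⟩)
    | some p' =>
      cases o₃ with
      | none => simp [brkB] at h
      | some q => simp [brkB] at h

/-- checker for the field `c0`. -/
def c0B (R : SRep) (D : ChevalleyDatum) (r s : ℕ) : Bool :=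
  (s == r) || (s == D.neg r) || !(D.commTerms r s).isEmpty ||
    ((List.range R.N).all fun ν => R.term2 r s ν == R.term2 s r ν)

theorem c0_of (R : SRep) (D : ChevalleyDatum) (r s : ℕ) (h : c0B R D r s = true) (hsr : s ≠ r)
    (hsn : s ≠ D.neg r) (hc : D.commTerms r s = []) :
    ∀ ν < R.N, R.term2 r s ν = R.term2 s r ν := by
  intro ν hν
  unfold c0B at h
  rw [hc] at h
  simp only [Bool.or_eq_true, beq_iff_eq, hsr, hsn, List.isEmpty_nil, Bool.not_true,
    Bool.false_eq_true, false_or, List.all_eq_true, List.mem_range] at h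
  exact h ν hν

/-- checker for the field `c1`. -/
def c1B (R : SRep) (D : ChevalleyDatum) (r s : ℕ) : Bool :=
  (s == r) || (s == D.neg r) ||
    match D.commTerms r s with
    | [(k, C, i, j)] => !(i == 1 && j == 1) ||
        ((List.range R.N).all fun ν =>
          brkB (R.term2 r s ν) (R.term2 s r ν) (R.term1 k ν) C &&
            (R.term2 r k ν == none) && (R.term2 s k ν == none))
    | _ => true

theorem c1_of (R : SRep) (D : ChevalleyDatum) (r s : ℕ) (h : c1B R D r s = true) (hsr : s ≠ r)
    (hsn : s ≠ D.neg r) (k : ℕ) (C : ℤ) (hc : D.commTerms r s = [(k, C, 1, 1)]) :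
    ∀ ν < R.N, brk (R.term2 r s ν) (R.term2 s r ν) (R.term1 k ν) C ∧ R.term2 r k ν = none ∧
      R.term2 s k ν = none := by
  intro ν hν
  unfold c1B at h
  rw [hc] at h
  simp only [Bool.or_eq_true, beq_iff_eq, hsr, hsn, false_or, Bool.and_self,
    List.all_eq_true, List.mem_range, Bool.and_eq_true] at h
  rcases h with h | h
  · exact absurd h (by decide)
  · obtain ⟨⟨h1, h2⟩, h3⟩ := h ν hν
    exact ⟨brk_of_brkB h1, h2, h3⟩

set_option maxRecDepth 100000 in
theorem sq_E6 : ∀ r < chevE6.nroots, ∀ ν < repE6.N, repE6.term2 r r ν = none := by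
  decide +kernel

set_option maxRecDepth 100000 in
theorem c0_E6 : ∀ r < chevE6.nroots, ∀ s < chevE6.nroots, c0B repE6 chevE6 r s = true := by
  decide +kernel

set_option maxRecDepth 100000 in
theorem c1_E6 : ∀ r < chevE6.nroots, ∀ s < chevE6.nroots, c1B repE6 chevE6 r s = true := by
  decide +kernel

/-- PIECE OK6. -/
theorem ok_E6 : repE6.Ok chevE6 := by
  refine ⟨sq_E6, ?_, ?_⟩
  · intro r hr s hs hsr hsn hc
    exact c0_of _ _ r s (c0_E6 r hr s hs) hsr hsn hc
  · intro r hr s hs hsr hsn k C hc
    exact c1_of _ _ r s (c1_E6 r hr s hs) hsr hsn k C hc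

end Cfsg.Agent.Helper39.MROK6
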