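import Mathlib
import Cfsg.Agent.Helper39.McKayTori
import Cfsg.Agent.Helper39.BorelClasses
import Cfsg.Agent.Helper5.SL2Sylow

/-!
# McKay counts: transport between Sylow normalizers, and the defining characteristic (helper39)
-/

set_option autoImplicit false

namespace Cfsg.Agent.Helper39

universe u

open Cfsg.Agent.Helper38

section Gen

variable {G : Type u} [Group G] [Finite G]

/-- If `ℓ` does not divide `|G|`, the Sylow normalizer is `G`. -/
theorem pdegCount_normalizer_of_not_dvd {ℓ : ℕ} [Fact ℓ.Prime] (h : ¬ ℓ ∣ Nat.card G)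
    (S : Sylow ℓ G) :
    pdegCount ℓ ↥(Subgroup.normalizer ((S : Subgroup G) : Set G)) = pdegCount ℓ G := by
  have hS : (S : Subgroup G) = ⊥ := by
    apply Subgroup.eq_bot_of_card_eq
    have h1 : Nat.card (S : Subgroup G) = ℓ ^ (Nat.card G).factorization ℓ := S.card_eq_multiplicity
    rw [h1, Nat.factorization_eq_zero_of_not_dvd h, pow_zero]
  have hN : Subgroup.normalizer ((S : Subgroup G) : Set G) = ⊤ := by
    rw [hS]
    exact Subgroup.normalizer_eq_top (H := (⊥ : Subgroup G))
  exact pdegCount_congr ℓ ((MulEquiv.subgroupCongr hN).trans Subgroup.topEquiv)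

/-- The normalizers of two Sylow subgroups have the same character counts. -/
theorem pdegCount_normalizer_sylow_eq {ℓ : ℕ} [Fact ℓ.Prime] (ℓ' : ℕ) (S S' : Sylow ℓ G) :
    pdegCount ℓ' ↥(Subgroup.normalizer ((S : Subgroup G) : Set G)) =
      pdegCount ℓ' ↥(Subgroup.normalizer ((S' : Subgroup G) : Set G)) := by
  obtain ⟨g, rfl⟩ := MulAction.exists_smul_eq G S S'
  have h1 : ∀ n ∈ Subgroup.normalizer ((S : Subgroup G) : Set G),
      g * n * g⁻¹ ∈ Subgroup.normalizer (((g • S : Sylow ℓ G) : Subgroup G) : Set G) := by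
    intro n hn
    apply Sylow.smul_eq_iff_mem_normalizer.mp
    rw [← mul_smul, inv_mul_cancel_right, mul_smul, Sylow.smul_eq_iff_mem_normalizer.mpr hn]
  have h2 : ∀ m ∈ Subgroup.normalizer (((g • S : Sylow ℓ G) : Subgroup G) : Set G),
      g⁻¹ * m * g ∈ Subgroup.normalizer ((S : Subgroup G) : Set G) := by
    intro m hm
    apply Sylow.smul_eq_iff_mem_normalizer.mp
    rw [mul_smul, mul_smul, Sylow.smul_eq_iff_mem_normalizer.mpr hm, inv_smul_smul]
  refine pdegCount_congr ℓ'
    { toFun := fun n => ⟨g * n * g⁻¹, h1 n n.2⟩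
      invFun := fun m => ⟨g⁻¹ * m * g, h2 m m.2⟩
      left_inv := fun n => Subtype.ext (by
        show g⁻¹ * (g * (n : G) * g⁻¹) * g = n
        group)
      right_inv := fun m => Subtype.ext (by
        show g * (g⁻¹ * (m : G) * g) * g⁻¹ = m
        group)
      map_mul' := fun a b => Subtype.ext (by
        show g * ((a : G) * (b : G)) * g⁻¹ = (g * (a : G) * g⁻¹) * (g * (b : G) * g⁻¹)
        group) }

end Gen

section Borel

variable {F : Type*} [Field F] [Fintype F] [DecidableEq F]

omit [Fintype F] [DecidableEq F] in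
/-- The normalizer of the upper unitriangular subgroup is the Borel subgroup. -/
theorem normalizer_USL :
    Subgroup.normalizer ((Helper5.USL : Subgroup (Matrix.SpecialLinearGroup (Fin 2) F)) :
      Set (Matrix.SpecialLinearGroup (Fin 2) F)) = borelSL F := by
  ext k
  rw [mem_BSL_iff]
  constructor
  · intro hk
    have h1 : k * Helper5.uSL 1 * k⁻¹ ∈
        (Helper5.USL : Subgroup (Matrix.SpecialLinearGroup (Fin 2) F)) :=
      (Subgroup.mem_normalizer_iff.mp hk _).mp (Helper5.uSL_mem_USL 1)
    obtain ⟨b, hb⟩ := (Helper5.mem_USL_iff _).mp h1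
    have h2 : Helper5.uSL b * k = k * Helper5.uSL 1 := by
      rw [hb]
      group
    have h3 := congrArg (fun y : Matrix.SpecialLinearGroup (Fin 2) F =>
      (y : Matrix (Fin 2) (Fin 2) F) 1 1) h2
    simp only [Matrix.SpecialLinearGroup.coe_mul, Helper5.uSL_coe, Matrix.mul_apply,
      Fin.sum_univ_two] at h3
    simpa using h3
  · exact Helper5.sl_mem_normalizer_USL

/-- The McKay count of the normalizer of a Sylow `p`-subgroup in the defining characteristic. -/
theorem pdegCount_normalizer_USL (hodd : Odd (Fintype.card F)) (p : ℕ) [Fact p.Prime] [CharP F p] :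
    pdegCount p ↥(Subgroup.normalizer
      ((Helper5.USL : Subgroup (Matrix.SpecialLinearGroup (Fin 2) F)) :
        Set (Matrix.SpecialLinearGroup (Fin 2) F))) = Fintype.card F + 3 := by
  have hN := normalizer_USL (F := F)
  rw [pdegCount_congr p (MulEquiv.subgroupCongr hN)]
  have hUB : (Helper5.USL : Subgroup (Matrix.SpecialLinearGroup (Fin 2) F)) ≤ borelSL F := by
    intro g hg
    obtain ⟨b, rfl⟩ := (Helper5.mem_USL_iff g).mp hg
    rw [mem_BSL_iff, Helper5.uSL_coe]
    simp
  have : ((Helper5.USL : Subgroup (Matrix.SpecialLinearGroup (Fin 2) F)).subgroupOf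
      (borelSL F)).Normal := (Subgroup.normal_subgroupOf_iff_le_normalizer hUB).mpr hN.ge
  rw [pdegCount_of_abelian_normal p
    ((Helper5.USL : Subgroup (Matrix.SpecialLinearGroup (Fin 2) F)).subgroupOf (borelSL F)) ?_ ?_,
    card_conjClasses_borelSL hodd]
  · intro a ha b hb
    obtain ⟨x, hx⟩ := (Helper5.mem_USL_iff _).mp ha
    obtain ⟨y, hy⟩ := (Helper5.mem_USL_iff _).mp hb
    apply Subtype.ext
    show (a : Matrix.SpecialLinearGroup (Fin 2) F) * (b : Matrix.SpecialLinearGroup (Fin 2) F) =
      (b : Matrix.SpecialLinearGroup (Fin 2) F) * (a : Matrix.SpecialLinearGroup (Fin 2) F)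
    have hx' : Helper5.uSL x = (a : Matrix.SpecialLinearGroup (Fin 2) F) := hx
    have hy' : Helper5.uSL y = (b : Matrix.SpecialLinearGroup (Fin 2) F) := hy
    rw [← hx', ← hy', Helper5.uSL_mul, Helper5.uSL_mul, add_comm]
  · have h1 := ((Helper5.USL : Subgroup (Matrix.SpecialLinearGroup (Fin 2) F)).subgroupOf
      (borelSL F)).card_mul_index
    have h2 : Nat.card ((Helper5.USL : Subgroup (Matrix.SpecialLinearGroup (Fin 2) F)).subgroupOf
        (borelSL F)) = Fintype.card F := by
      rw [Nat.card_congr (Subgroup.subgroupOfEquivOfLe hUB).toEquiv, Helper5.card_USL]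
    have h3 : Nat.card ↥(borelSL F) = (Fintype.card F - 1) * Fintype.card F := by
      rw [← Nat.card_congr (triSLEquiv (F := F)), Nat.card_prod, Nat.card_eq_fintype_card,
        Nat.card_eq_fintype_card, Fintype.card_units]
    rw [h2, h3] at h1
    have hq : 0 < Fintype.card F := Fintype.card_pos
    have h4 : ((Helper5.USL : Subgroup (Matrix.SpecialLinearGroup (Fin 2) F)).subgroupOf
        (borelSL F)).index = Fintype.card F - 1 := by
      apply Nat.eq_of_mul_eq_mul_left hq
      rw [h1, mul_comm]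
    rw [h4]
    obtain ⟨n, hp, hq'⟩ := FiniteField.card F p
    intro hdvd
    have h5 : p ∣ Fintype.card F := by
      rw [hq']
      exact dvd_pow_self p n.ne_zero
    have h6 : p ∣ Fintype.card F - (Fintype.card F - 1) := Nat.dvd_sub h5 hdvd
    have h7 : Fintype.card F - (Fintype.card F - 1) = 1 := by omega
    rw [h7] at h6
    exact hp.one_lt.ne' (Nat.dvd_one.mp h6)

end Borel

end Cfsg.Agent.Helper39
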