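import Mathlib
import Cfsg.Agent.Helper39.McKayBorel
import Cfsg.Agent.Helper39.SL2Degrees
import Cfsg.Agent.Helper5.SLCard

/-!
# The McKay equality for `SL₂(q)`, `q` odd, at every prime (helper39)
-/

set_option autoImplicit false

namespace Cfsg.Agent.Helper39

universe u

section Gen

variable {H : Type u} [Group H]

theorem natCard_degree_eq (d : ℕ) :
    Nat.card {χ : Cfsg.IrrCharacter H // Cfsg.charDegree (χ : H → ℂ) = d} =
      Nat.card {χ : Cfsg.IrrCharacter H // (χ : H → ℂ) 1 = ((d : ℕ) : ℂ)} := by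
  apply Nat.card_congr
  apply Equiv.subtypeEquivRight
  intro χ
  constructor
  · intro h
    rw [Cfsg.Agent.Helper81.irr_one_eq_charDegree, h]
  · intro h
    exact Cfsg.Agent.Helper75.charDegree_of_one_eq_nat h

theorem irr_sum_sq_fiber [Finite H] (D : Finset ℕ)
    (hD : ∀ χ : Cfsg.IrrCharacter H, Cfsg.charDegree (χ : H → ℂ) ∈ D) :
    ∑ d ∈ D, Nat.card {χ : Cfsg.IrrCharacter H // Cfsg.charDegree (χ : H → ℂ) = d} * d ^ 2 =
      Nat.card H := by
  classical
  have := Fintype.ofFinite H
  have := Fintype.ofFinite (Cfsg.IrrCharacter H)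
  rw [Nat.card_eq_fintype_card, ← Cfsg.Agent.Helper80.irr_sum_charDegree_sq (G := H),
    ← Finset.sum_fiberwise_of_maps_to (g := fun χ : Cfsg.IrrCharacter H =>
      Cfsg.charDegree (χ : H → ℂ)) (t := D) (fun χ _ => hD χ)]
  apply Finset.sum_congr rfl
  intro d _
  rw [Nat.card_eq_fintype_card, Fintype.card_subtype, ← smul_eq_mul, ← Finset.sum_const]
  apply Finset.sum_congr rfl
  intro χ hχ
  rw [(Finset.mem_filter.mp hχ).2]

end Gen

section TorusApply

variable {G : Type u} [Group G] [Finite G] {z : G} {T : Subgroup G} {w : G}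

theorem TorusLike.mckay_two (hT : TorusLike z T w)
    (hq8 : ∀ i j : G, i * i = z → j * j = z → j * i * j⁻¹ = i⁻¹ →
      ∃ x : G, x * i * x⁻¹ = j ∧ x * j * x⁻¹ = i * j)
    (h4 : 4 ∣ Nat.card T)
    (hfac : (Nat.card G).factorization 2 = (Nat.card T).factorization 2 + 1) (S : Sylow 2 G) :
    pdegCount 2 ↥(Subgroup.normalizer ((S : Subgroup G) : Set G)) = 4 := by
  obtain ⟨P, hP1, hP2⟩ := exists_sylow_inf T 2 hfac
  rw [pdegCount_normalizer_sylow_eq 2 S P]
  apply hT.pdegCount_two hq8 P hP1
  rw [hP2]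
  have h5 : 2 ≤ (Nat.card T).factorization 2 :=
    (Nat.prime_two.pow_dvd_iff_le_factorization (Nat.card_pos (α := T)).ne').mp
      (by norm_num; exact h4)
  calc 4 = 2 ^ 2 := by norm_num
    _ ≤ 2 ^ (Nat.card T).factorization 2 := Nat.pow_le_pow_right (by norm_num) h5

theorem TorusLike.mckay_odd (hT : TorusLike z T w) {ℓ : ℕ} [Fact ℓ.Prime] (hℓ2 : ℓ ≠ 2)
    (hdvd : ℓ ∣ Nat.card G)
    (hfac : (Nat.card G).factorization ℓ = (Nat.card T).factorization ℓ) (S : Sylow ℓ G) :
    2 * pdegCount ℓ ↥(Subgroup.normalizer ((S : Subgroup G) : Set G)) = Nat.card T + 6 := by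
  have hℓ : ℓ.Prime := Fact.out
  obtain ⟨S₀, hS₀⟩ := exists_sylow_le T ℓ hfac
  rw [pdegCount_normalizer_sylow_eq ℓ S S₀]
  apply hT.pdegCount_odd hℓ2 S₀ hS₀
  intro hbot
  have h1 : Nat.card (S₀ : Subgroup G) = ℓ ^ (Nat.card G).factorization ℓ :=
    S₀.card_eq_multiplicity
  rw [hbot, Subgroup.card_bot] at h1
  have hv : 1 ≤ (Nat.card G).factorization ℓ :=
    (hℓ.pow_dvd_iff_le_factorization (Nat.card_pos (α := G)).ne').mp (by simpa using hdvd)
  have h3 : ℓ ^ 1 ≤ ℓ ^ (Nat.card G).factorization ℓ := Nat.pow_le_pow_right hℓ.pos hv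
  have h4 := hℓ.two_le
  rw [pow_one] at h3
  omega

end TorusApply

section LHS

variable {F : Type*} [Field F] [Fintype F] [DecidableEq F]

/-- The number of irreducible characters of `SL₂(q)` of degree prime to `ℓ`, `q = 2k+1 ≥ 5`. -/
theorem pdegCount_sl2_odd_formula (hodd : Odd (Fintype.card F)) {k : ℕ}
    (hk : Fintype.card F = 2 * k + 1) (hk2 : 2 ≤ k) (ℓ : ℕ) :
    pdegCount ℓ (Matrix.SpecialLinearGroup (Fin 2) F) =
      (if ℓ ∣ 1 then 0 else 1) + ((if ℓ ∣ 2 * k + 1 then 0 else 1) +
        ((if ℓ ∣ 2 * k + 2 then 0 else k - 1) + ((if ℓ ∣ 2 * k then 0 else k) +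
          ((if ℓ ∣ k + 1 then 0 else 2) + (if ℓ ∣ k then 0 else 2))))) := by
  obtain ⟨c1, c2, c3, c4, c5, c6⟩ := sl2_odd_degree_count_aux hodd hk hk2
  have d1 := (natCard_degree_eq (H := Matrix.SpecialLinearGroup (Fin 2) F) 1).trans c1
  have d2 := (natCard_degree_eq (H := Matrix.SpecialLinearGroup (Fin 2) F) (2 * k + 1)).trans c2
  have d3 := (natCard_degree_eq (H := Matrix.SpecialLinearGroup (Fin 2) F) (2 * k + 2)).trans c3
  have d4 := (natCard_degree_eq (H := Matrix.SpecialLinearGroup (Fin 2) F) (2 * k)).trans c4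
  have d5 := (natCard_degree_eq (H := Matrix.SpecialLinearGroup (Fin 2) F) (k + 1)).trans c5
  have d6 := (natCard_degree_eq (H := Matrix.SpecialLinearGroup (Fin 2) F) k).trans c6
  rw [pdegCount_eq_sum ℓ ({1, 2 * k + 1, 2 * k + 2, 2 * k, k + 1, k} : Finset ℕ) ?_]
  · rw [Finset.sum_insert, Finset.sum_insert, Finset.sum_insert, Finset.sum_insert,
      Finset.sum_insert, Finset.sum_singleton, d1, d2, d3, d4, d5, d6]
    · simp only [Finset.mem_singleton]; omega
    · simp only [Finset.mem_insert, Finset.mem_singleton]; omega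
    · simp only [Finset.mem_insert, Finset.mem_singleton]; omega
    · simp only [Finset.mem_insert, Finset.mem_singleton]; omega
    · simp only [Finset.mem_insert, Finset.mem_singleton]; omega
  · intro χ
    simp only [Finset.mem_insert, Finset.mem_singleton]
    rcases sl2_odd_degree_cases hodd hk χ.2 with ⟨h, -⟩ | ⟨h, -⟩ | ⟨h, -⟩ | h | h | h
    · left; exact Cfsg.Agent.Helper75.charDegree_of_one_eq_nat h
    · right; left; exact Cfsg.Agent.Helper75.charDegree_of_one_eq_nat h
    · right; right; left; exact Cfsg.Agent.Helper75.charDegree_of_one_eq_nat h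
    · right; right; right; right; left; exact Cfsg.Agent.Helper75.charDegree_of_one_eq_nat h
    · right; right; right; right; right; exact Cfsg.Agent.Helper75.charDegree_of_one_eq_nat h
    · right; right; right; left; exact Cfsg.Agent.Helper75.charDegree_of_one_eq_nat h

/-- The values of the count for `SL₂(3)`. -/
theorem pdegCount_sl2_three (hodd : Odd (Fintype.card F)) (h3 : Fintype.card F = 3) :
    pdegCount 3 (Matrix.SpecialLinearGroup (Fin 2) F) = 6 ∧
      pdegCount 2 (Matrix.SpecialLinearGroup (Fin 2) F) = 4 := by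
  have hk : Fintype.card F = 2 * 1 + 1 := h3
  have hD : ∀ χ : Cfsg.IrrCharacter (Matrix.SpecialLinearGroup (Fin 2) F),
      Cfsg.charDegree (χ : Matrix.SpecialLinearGroup (Fin 2) F → ℂ) ∈ ({1, 2, 3, 4} : Finset ℕ) := by
    intro χ
    simp only [Finset.mem_insert, Finset.mem_singleton]
    rcases sl2_odd_degree_cases hodd hk χ.2 with ⟨h, -⟩ | ⟨h, -⟩ | ⟨h, -⟩ | h | h | h
    · left; exact Cfsg.Agent.Helper75.charDegree_of_one_eq_nat h
    · right; right; left; exact Cfsg.Agent.Helper75.charDegree_of_one_eq_nat h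
    · right; right; right; exact Cfsg.Agent.Helper75.charDegree_of_one_eq_nat h
    · right; left; exact Cfsg.Agent.Helper75.charDegree_of_one_eq_nat h
    · left; exact Cfsg.Agent.Helper75.charDegree_of_one_eq_nat h
    · right; left; exact Cfsg.Agent.Helper75.charDegree_of_one_eq_nat h
  have hcount := natCard_eq_sum_fiber
    (fun χ : Cfsg.IrrCharacter (Matrix.SpecialLinearGroup (Fin 2) F) =>
      Cfsg.charDegree (χ : Matrix.SpecialLinearGroup (Fin 2) F → ℂ)) ({1, 2, 3, 4} : Finset ℕ) hD
  rw [Cfsg.Agent.Helper80.natCard_irr_eq_card_conjClasses, card_conjClasses_sl2_odd hodd, h3,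
    Finset.sum_insert (by decide), Finset.sum_insert (by decide), Finset.sum_insert (by decide),
    Finset.sum_singleton] at hcount
  have hsq := irr_sum_sq_fiber (H := Matrix.SpecialLinearGroup (Fin 2) F) ({1, 2, 3, 4} : Finset ℕ) hD
  rw [Helper5.card_SL2, h3, Finset.sum_insert (by decide), Finset.sum_insert (by decide),
    Finset.sum_insert (by decide), Finset.sum_singleton] at hsq
  norm_num at hsq
  constructor
  · rw [pdegCount_eq_sum 3 ({1, 2, 3, 4} : Finset ℕ) hD, Finset.sum_insert (by decide),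
      Finset.sum_insert (by decide), Finset.sum_insert (by decide), Finset.sum_singleton,
      if_neg (by norm_num), if_neg (by norm_num), if_pos (by norm_num), if_neg (by norm_num)]
    omega
  · rw [pdegCount_eq_sum 2 ({1, 2, 3, 4} : Finset ℕ) hD, Finset.sum_insert (by decide),
      Finset.sum_insert (by decide), Finset.sum_insert (by decide), Finset.sum_singleton,
      if_neg (by norm_num), if_pos (by norm_num), if_neg (by norm_num), if_pos (by norm_num)]
    omega

/-- The values of the left hand side of the McKay equality. -/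
theorem pdegCount_sl2_odd_values (hodd : Odd (Fintype.card F)) {k : ℕ}
    (hk : Fintype.card F = 2 * k + 1) (hk1 : 1 ≤ k) (ℓ : ℕ) [Fact ℓ.Prime] :
    (ℓ ∣ 2 * k + 1 → pdegCount ℓ (Matrix.SpecialLinearGroup (Fin 2) F) = 2 * k + 4) ∧
    (ℓ = 2 → pdegCount ℓ (Matrix.SpecialLinearGroup (Fin 2) F) = 4) ∧
    (ℓ ≠ 2 → ℓ ∣ 2 * k → pdegCount ℓ (Matrix.SpecialLinearGroup (Fin 2) F) = k + 3) ∧
    (ℓ ≠ 2 → ℓ ∣ 2 * k + 2 → pdegCount ℓ (Matrix.SpecialLinearGroup (Fin 2) F) = k + 4) := by
  have hℓ : ℓ.Prime := Fact.out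
  have hℓ1 : ¬ ℓ ∣ 1 := hℓ.not_dvd_one
  have hdvd2 : ℓ ∣ 2 → ℓ = 2 := fun h => (Nat.prime_dvd_prime_iff_eq hℓ Nat.prime_two).mp h
  rcases Nat.lt_or_ge k 2 with hk2 | hk2
  · -- `q = 3`
    have hk' : k = 1 := by omega
    subst hk'
    obtain ⟨v3, v2⟩ := pdegCount_sl2_three hodd hk
    refine ⟨?_, ?_, ?_, ?_⟩
    · intro h
      have : ℓ = 3 := (Nat.prime_dvd_prime_iff_eq hℓ Nat.prime_three).mp h
      subst this
      exact v3
    · intro h
      subst h
      exact v2
    · intro h2 h
      exact absurd (hdvd2 h) h2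
    · intro h2 h
      have h' : ℓ ∣ 2 * 2 := h
      rcases (Nat.Prime.dvd_mul hℓ).mp h' with h'' | h''
      · exact absurd (hdvd2 h'') h2
      · exact absurd (hdvd2 h'') h2
  · have hform := pdegCount_sl2_odd_formula hodd hk hk2 ℓ
    rw [if_neg hℓ1] at hform
    refine ⟨?_, ?_, ?_, ?_⟩
    · intro h
      have n1 : ¬ ℓ ∣ 2 * k + 2 := by
        intro h'
        apply hℓ1
        have := Nat.dvd_sub h' h
        have e : 2 * k + 2 - (2 * k + 1) = 1 := by omega
        rwa [e] at this
      have n2 : ¬ ℓ ∣ 2 * k := by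
        intro h'
        apply hℓ1
        have := Nat.dvd_sub h h'
        have e : 2 * k + 1 - 2 * k = 1 := by omega
        rwa [e] at this
      have n3 : ¬ ℓ ∣ k + 1 := by
        intro h'
        apply n1
        have : 2 * k + 2 = 2 * (k + 1) := by ring
        rw [this]
        exact Dvd.dvd.mul_left h' 2
      have n4 : ¬ ℓ ∣ k := fun h' => n2 (Dvd.dvd.mul_left h' 2)
      rw [if_pos h, if_neg n1, if_neg n2, if_neg n3, if_neg n4] at hform
      rw [hform]
      omega
    · intro h
      subst h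
      rw [hform]
      split_ifs <;> omega
    · intro h2 h
      have hk' : ℓ ∣ k := by
        rcases (Nat.Prime.dvd_mul hℓ).mp h with h' | h'
        · exact absurd (hdvd2 h') h2
        · exact h'
      have n1 : ¬ ℓ ∣ 2 * k + 1 := by
        intro h'
        apply hℓ1
        have := Nat.dvd_sub h' h
        have e : 2 * k + 1 - 2 * k = 1 := by omega
        rwa [e] at this
      have n2 : ¬ ℓ ∣ 2 * k + 2 := by
        intro h'
        apply h2
        apply hdvd2
        have := Nat.dvd_sub h' h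
        have e : 2 * k + 2 - 2 * k = 2 := by omega
        rwa [e] at this
      have n3 : ¬ ℓ ∣ k + 1 := by
        intro h'
        apply hℓ1
        have := Nat.dvd_sub h' hk'
        have e : k + 1 - k = 1 := by omega
        rwa [e] at this
      rw [if_neg n1, if_neg n2, if_pos h, if_neg n3, if_pos hk'] at hform
      rw [hform]
      omega
    · intro h2 h
      have hk' : ℓ ∣ k + 1 := by
        have e : 2 * k + 2 = 2 * (k + 1) := by ring
        rw [e] at h
        rcases (Nat.Prime.dvd_mul hℓ).mp h with h' | h'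
        · exact absurd (hdvd2 h') h2
        · exact h'
      have n1 : ¬ ℓ ∣ 2 * k + 1 := by
        intro h'
        apply hℓ1
        have := Nat.dvd_sub h h'
        have e : 2 * k + 2 - (2 * k + 1) = 1 := by omega
        rwa [e] at this
      have n2 : ¬ ℓ ∣ 2 * k := by
        intro h'
        apply h2
        apply hdvd2
        have := Nat.dvd_sub h h'
        have e : 2 * k + 2 - 2 * k = 2 := by omega
        rwa [e] at this
      have n3 : ¬ ℓ ∣ k := by
        intro h'
        apply hℓ1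
        have := Nat.dvd_sub hk' h'
        have e : k + 1 - k = 1 := by omega
        rwa [e] at this
      rw [if_neg n1, if_pos h, if_neg n2, if_pos hk', if_neg n3] at hform
      rw [hform]
      omega

end LHS

end Cfsg.Agent.Helper39
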