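import Mathlib
import Cfsg.Agent.Helper39.McKayMain

/-!
# The McKay equality for `SL₂(q)`, `q` odd: assembly (helper39)
-/

set_option autoImplicit false

namespace Cfsg.Agent.Helper39

/-- The McKay equality for `SL₂(q)`, `q` odd, at every prime. -/
theorem mckay_sl2_odd {F : Type*} [Field F] [Fintype F] (hodd : Odd (Fintype.card F)) (ℓ : ℕ)
    [Fact ℓ.Prime] (S : Sylow ℓ (Matrix.SpecialLinearGroup (Fin 2) F)) :
    pdegCount ℓ (Matrix.SpecialLinearGroup (Fin 2) F) =
      pdegCount ℓ ↥(Subgroup.normalizer
        ((S : Subgroup (Matrix.SpecialLinearGroup (Fin 2) F)) :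
          Set (Matrix.SpecialLinearGroup (Fin 2) F))) := by
  classical
  have hℓ : ℓ.Prime := Fact.out
  have hodd' := hodd
  obtain ⟨k, hk⟩ := hodd
  have hq1 : 1 < Fintype.card F := Fintype.one_lt_card
  have hk1 : 1 ≤ k := by omega
  have hF := ringChar_ne_two_of_odd hodd'
  have h2 : (2 : F) ≠ 0 := Ring.two_ne_zero hF
  obtain ⟨v1, v2, v3, v4⟩ := pdegCount_sl2_odd_values hodd' hk hk1 ℓ
  have hcard : Nat.card (Matrix.SpecialLinearGroup (Fin 2) F) =
      (2 * k + 1) * ((2 * k) * (2 * k + 2)) := by
    rw [Helper5.card_SL2, hk]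
    congr 1
    have : (2 * k + 1) ^ 2 = 2 * k * (2 * k + 2) + 1 := by ring
    rw [this, Nat.add_sub_cancel]
  have hfacG : ∀ p : ℕ, (Nat.card (Matrix.SpecialLinearGroup (Fin 2) F)).factorization p =
      (2 * k + 1).factorization p + ((2 * k).factorization p + (2 * k + 2).factorization p) := by
    intro p
    rw [hcard, Nat.factorization_mul (by omega) (Nat.mul_ne_zero (by omega) (by omega)),
      Nat.factorization_mul (by omega) (by omega)]
    rfl
  have hcardS : Nat.card (splitT F) = 2 * k := by
    rw [card_splitT, hk]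
    omega
  by_cases hdiv : ℓ ∣ Nat.card (Matrix.SpecialLinearGroup (Fin 2) F)
  swap
  · exact (pdegCount_normalizer_of_not_dvd hdiv S).symm
  obtain ⟨g₀, hg₀⟩ := exists_noEigen hodd'
  obtain ⟨w, hTw⟩ := torusLike_nonsplit hodd' hg₀
  have hcardN : Nat.card (torSL g₀) = 2 * k + 2 := by
    rw [card_torSL hodd' hg₀, hk]
  have hq8 : ∀ i j : Matrix.SpecialLinearGroup (Fin 2) F, i * i = negSL → j * j = negSL →
      j * i * j⁻¹ = i⁻¹ → ∃ x : Matrix.SpecialLinearGroup (Fin 2) F,
        x * i * x⁻¹ = j ∧ x * j * x⁻¹ = i * j := fun i j => exists_q8_conj h2 i j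
  by_cases hℓ2 : ℓ = 2
  · subst hℓ2
    rw [v2 rfl]
    have hodd0 : (2 * k + 1).factorization 2 = 0 :=
      Nat.factorization_eq_zero_of_not_dvd (by omega)
    rcases Nat.even_or_odd k with hke | hko
    · -- split torus
      obtain ⟨m, hm⟩ := hke
      have h4 : 4 ∣ Nat.card (splitT F) := by
        rw [hcardS]
        exact ⟨m, by omega⟩
      have hfac : (Nat.card (Matrix.SpecialLinearGroup (Fin 2) F)).factorization 2 =
          (Nat.card (splitT F)).factorization 2 + 1 := by
        rw [hfacG, hodd0, hcardS, zero_add]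
        congr 1
        have e : 2 * k + 2 = 2 * (k + 1) := by ring
        rw [e, Nat.factorization_mul (by norm_num) (by omega), Finsupp.add_apply,
          Nat.prime_two.factorization_self, Nat.factorization_eq_zero_of_not_dvd (by omega)]
      exact ((torusLike_split h2).mckay_two hq8 h4 hfac S).symm
    · -- non-split torus
      obtain ⟨m, hm⟩ := hko
      have h4 : 4 ∣ Nat.card (torSL g₀) := by
        rw [hcardN]
        exact ⟨m + 1, by omega⟩
      have hfac : (Nat.card (Matrix.SpecialLinearGroup (Fin 2) F)).factorization 2 =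
          (Nat.card (torSL g₀)).factorization 2 + 1 := by
        rw [hfacG, hodd0, hcardN, zero_add, add_comm]
        congr 1
        rw [Nat.factorization_mul (by norm_num) (by omega), Finsupp.add_apply,
          Nat.prime_two.factorization_self, Nat.factorization_eq_zero_of_not_dvd (by omega)]
      exact (hTw.mckay_two hq8 h4 hfac S).symm
  · have hdvd2 : ℓ ∣ 2 → False := fun h =>
      hℓ2 ((Nat.prime_dvd_prime_iff_eq hℓ Nat.prime_two).mp h)
    have hdiv' := hdiv
    rw [hcard] at hdiv'
    rcases (Nat.Prime.dvd_mul hℓ).mp hdiv' with hq | hrest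
    · -- the defining characteristic
      obtain ⟨p, hchar⟩ := CharP.exists F
      have := hchar
      have : Fact p.Prime := ⟨CharP.char_is_prime F p⟩
      obtain ⟨n, hp, hqn⟩ := FiniteField.card F p
      have hℓp : ℓ = p := by
        rw [← hk, hqn] at hq
        exact (Nat.prime_dvd_prime_iff_eq hℓ hp).mp (hℓ.dvd_of_dvd_pow hq)
      subst hℓp
      rw [v1 hq, pdegCount_normalizer_sylow_eq ℓ S (Helper5.sylowUSL ℓ), Helper5.sylowUSL_coe,
        pdegCount_normalizer_USL hodd' ℓ, hk]
    · rcases (Nat.Prime.dvd_mul hℓ).mp hrest with hm | hp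
      · -- `ℓ ∣ q - 1`
        have n1 : ¬ ℓ ∣ 2 * k + 1 := by
          intro h'
          apply hℓ.not_dvd_one
          have := Nat.dvd_sub h' hm
          have e : 2 * k + 1 - 2 * k = 1 := by omega
          rwa [e] at this
        have n2 : ¬ ℓ ∣ 2 * k + 2 := by
          intro h'
          apply hdvd2
          have := Nat.dvd_sub h' hm
          have e : 2 * k + 2 - 2 * k = 2 := by omega
          rwa [e] at this
        have hfac : (Nat.card (Matrix.SpecialLinearGroup (Fin 2) F)).factorization ℓ =
            (Nat.card (splitT F)).factorization ℓ := by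
          rw [hfacG, hcardS, Nat.factorization_eq_zero_of_not_dvd n1,
            Nat.factorization_eq_zero_of_not_dvd n2, zero_add, add_zero]
        have h1 := (torusLike_split h2).mckay_odd hℓ2 hdiv hfac S
        rw [hcardS] at h1
        rw [v3 hℓ2 hm]
        omega
      · -- `ℓ ∣ q + 1`
        have n1 : ¬ ℓ ∣ 2 * k + 1 := by
          intro h'
          apply hℓ.not_dvd_one
          have := Nat.dvd_sub hp h'
          have e : 2 * k + 2 - (2 * k + 1) = 1 := by omega
          rwa [e] at this
        have n2 : ¬ ℓ ∣ 2 * k := by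
          intro h'
          apply hdvd2
          have := Nat.dvd_sub hp h'
          have e : 2 * k + 2 - 2 * k = 2 := by omega
          rwa [e] at this
        have hfac : (Nat.card (Matrix.SpecialLinearGroup (Fin 2) F)).factorization ℓ =
            (Nat.card (torSL g₀)).factorization ℓ := by
          rw [hfacG, hcardN, Nat.factorization_eq_zero_of_not_dvd n1,
            Nat.factorization_eq_zero_of_not_dvd n2, zero_add, zero_add]
        have h1 := hTw.mckay_odd hℓ2 hdiv hfac S
        rw [hcardN] at h1
        rw [v4 hℓ2 hp]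
        omega

end Cfsg.Agent.Helper39
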