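import Mathlib
import Cfsg.Prelude.Def_GeometricClasses
import Cfsg.Prelude.Def_Classical
import Cfsg.Agent.Helper13.NPDefs
import Cfsg.Agent.Helper96.OHDefs
import Cfsg.Agent.Helper35.TSSTDP
import Cfsg.Agent.Helper31.OHOFIX
import Cfsg.Agent.Helper26.OHOCDVD
import Cfsg.Agent.Helper88.OHOTYPEEVEN

set_option autoImplicit false

/-!
helper39: piece GOODMAIN of CALL NP (helper13; row S5989), reduction to SCALX and GOODCORE.
-/

namespace Cfsg.Agent.Helper39.NP5989

open Module Cfsg Cfsg.Geo Cfsg.Agent.Helper13.NP Cfsg.Agent.Helper96.OH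
open scoped MatrixGroups

section stages

variable {F : Type*} [Field F] [Fintype F]

/-- in a finite field of odd order `2 ≠ 0`. -/
theorem np_two_ne_zero (hodd : Odd (Fintype.card F)) : (2 : F) ≠ 0 := by
  intro h
  have h1 : ringChar F ∣ 2 := ringChar.dvd (R := F) (x := 2) (by exact_mod_cast h)
  have h2 : ringChar F ≠ 1 := CharP.ringChar_ne_one
  have h3 : ringChar F = 2 := by
    rcases (Nat.dvd_prime Nat.prime_two).mp h1 with h4 | h4
    · exact absurd h4 h2
    · exact h4
  have h5 := FiniteField.even_card_iff_char_two.mp h3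
  rcases hodd with ⟨k, hk⟩
  omega

omit [Fintype F] in
/-- a prime different from the characteristic is nonzero in the field. -/
theorem np_prime_ne_zero (p : ℕ) [Fact p.Prime] [CharP F p] (r : ℕ) [Fact r.Prime] (hrp : r ≠ p) :
    (r : F) ≠ 0 := by
  intro h
  have h1 : p ∣ r := (CharP.cast_eq_zero_iff F p r).mp h
  have hr : r.Prime := Fact.out
  have hp : p.Prime := Fact.out
  exact hrp ((Nat.prime_dvd_prime_iff_eq hp hr).mp h1).symm

/-- GOODMAIN from SCALX and GOODCORE. -/
theorem np_good_of (d m : ℕ) (hd : 4 ≤ d)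
    (h2 : (2 : F) ≠ 0)
    (r : ℕ) [Fact r.Prime] (hr2 : 2 < r) (hrF : (r : F) ≠ 0) (i c : ℕ)
    (hi : i = orderOf ((Fintype.card F : ℕ) : ZMod r)) (hc : c = if Even i then i else 2 * i)
    (hcond : (Odd i ∧ c ≤ m ∧ m % c < (2 * d) % c) ∨
      (Even i ∧ (((2 * d) % c = 0 ∧ Odd ((2 * d) / i)) ∨ (i ≤ m ∧ m % c < (2 * d) % c))))
    (T : Module.End F (Fin d ⊕ Fin d → F)) (hT : OPres (Cfsg.quadFormPlus d F) T)
    (hTr : T ^ r = 1) (hT1 : T ≠ 1) :
    m % c < finrank F (LinearMap.ker (T - 1)) ∨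
      Fintype.card (Fin d ⊕ Fin d) - finrank F (LinearMap.ker (T - 1)) ≤ c * (m / c) := by
  left
  obtain ⟨hQ, hpl⟩ := Cfsg.Agent.Helper35.TS5973.ts_std_plus (F := F) d
  have hr : r.Prime := Fact.out
  have htop : finrank F (⊤ : Submodule F (Fin d ⊕ Fin d → F)) = 2 * d := by
    rw [finrank_top, Module.finrank_fintype_fun_eq_card, Fintype.card_sum, Fintype.card_fin]
    ring
  have hcd := Cfsg.Agent.Helper26.OH5992.o_cdvd (Cfsg.quadFormPlus d F) hQ h2 T hT r hr2 hrF hTr
    i c hi hc ⊤ le_top (ond_top _ hQ)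
  rw [top_inf_eq, htop] at hcd
  have hle : finrank F (LinearMap.ker (T - 1)) ≤ 2 * d := by
    have h7 := Submodule.finrank_le (LinearMap.ker (T - 1))
    rw [Module.finrank_fintype_fun_eq_card, Fintype.card_sum, Fintype.card_fin] at h7
    omega
  have hlt : finrank F (LinearMap.ker (T - 1)) < 2 * d := by
    rcases Nat.lt_or_ge (finrank F (LinearMap.ker (T - 1))) (2 * d) with h | h
    · exact h
    · exfalso
      apply hT1
      have hC : (LinearMap.ker (T - 1) : Submodule F (Fin d ⊕ Fin d → F)) = ⊤ :=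
        Submodule.eq_top_of_finrank_eq (by
        rw [Module.finrank_fintype_fun_eq_card, Fintype.card_sum, Fintype.card_fin]
        omega)
      apply LinearMap.ext
      intro v
      have hv : v ∈ LinearMap.ker (T - 1) := by rw [hC]; exact Submodule.mem_top
      rw [LinearMap.mem_ker, LinearMap.sub_apply, sub_eq_zero] at hv
      exact hv
  have hc0 : 0 < c := by
    rcases Nat.eq_zero_or_pos c with h | h
    · exfalso
      rw [h, zero_dvd_iff] at hcd
      omega
    · exact h
  obtain ⟨a, ha⟩ := hcd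
  have hmod : finrank F (LinearMap.ker (T - 1)) % c = (2 * d) % c := by
    have e : finrank F (LinearMap.ker (T - 1)) = 2 * d - c * a := by omega
    rw [e]
    exact Nat.sub_mul_mod (by omega)
  have hge : (2 * d) % c ≤ finrank F (LinearMap.ker (T - 1)) := by
    rw [← hmod]
    exact Nat.mod_le _ _
  rcases hcond with ⟨-, -, h3⟩ | ⟨hev, ⟨h0, ho⟩ | ⟨-, h3⟩⟩
  · omega
  · -- `c ∣ 2d`, `2d / i` odd: the fixed space is nonzero
    have hCne : LinearMap.ker (T - 1) ≠ ⊥ := by
      intro hC0
      have hte := Cfsg.Agent.Helper88.OH5992.o_type_even (Cfsg.quadFormPlus d F) hQ h2 T hT r hr2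
        hrF hTr (by rw [← hi]; exact hev) ⊤ le_top (ond_top _ hQ) (by rw [top_inf_eq]; exact hC0)
      rw [htop, ← hi] at hte
      exact (Nat.not_even_iff_odd.mpr ho) (hte.mp hpl)
    have hpos : 0 < finrank F (LinearMap.ker (T - 1)) := by
      rcases Nat.eq_zero_or_pos (finrank F (LinearMap.ker (T - 1))) with h | h
      · exact absurd (Submodule.finrank_eq_zero.mp h) hCne
      · exact h
    have hdvd : c ∣ finrank F (LinearMap.ker (T - 1)) := by
      rw [Nat.dvd_iff_mod_eq_zero, hmod]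
      exact h0
    have h4 : c ≤ finrank F (LinearMap.ker (T - 1)) := Nat.le_of_dvd hpos hdvd
    have h5 : m % c < c := Nat.mod_lt _ hc0
    omega
  · omega

end stages

end Cfsg.Agent.Helper39.NP5989
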