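import Mathlib
import Cfsg.Prelude.Def_GeometricClasses
import Cfsg.Prelude.Def_Classical
import Cfsg.Agent.Helper13.NPDefs
import Cfsg.Agent.Helper96.OHDefs
import Cfsg.Agent.Helper39.NPGOODMAINaux
import Cfsg.Agent.Helper10.NPSCALX
import Cfsg.Agent.Helper57.NPGOODCORE

set_option autoImplicit false

/-!
helper39: piece GOODMAIN of CALL NP (helper13; row S5989).
-/

namespace Cfsg.Agent.Helper39.NP5989

open Module Cfsg Cfsg.Geo Cfsg.Agent.Helper13.NP Cfsg.Agent.Helper96.OH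
open scoped MatrixGroups


section stages

variable {F : Type*} [Field F] [Fintype F]

/-- GOODMAIN [M-L, level 3] = stage GOOD (uses SCALX, GOODCORE). -/
theorem np_good (p : ℕ) [Fact p.Prime] [CharP F p] (q : ℕ) (hq : Fintype.card F = q)
    (hodd : Odd q) (d m : ℕ) (hd : 4 ≤ d) (hm : Odd m) (hmd : m < d)
    (W₀ : Submodule F (Fin d ⊕ Fin d → F))
    (hW₀ : Module.finrank F ↥W₀ = m ∧
      IsNondegenerateOn (QuadraticMap.polar (Cfsg.quadFormPlus d F)) W₀)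
    (r : ℕ) [Fact r.Prime] (hr2 : 2 < r) (hrp : r ≠ p) (i c : ℕ)
    (hi : i = orderOf ((q : ℕ) : ZMod r)) (hc : c = if Even i then i else 2 * i)
    (hcond : (Odd i ∧ c ≤ m ∧ m % c < (2 * d) % c) ∨
      (Even i ∧ (((2 * d) % c = 0 ∧ Odd ((2 * d) / i)) ∨ (i ≤ m ∧ m % c < (2 * d) % c))))
    (x : GL (Fin d ⊕ Fin d) F) (hx : x ∈ Cfsg.isometryGroup F (Cfsg.quadFormPlus d F))
    (hxr : ∃ z : F, ((x ^ r : GL (Fin d ⊕ Fin d) F) : Matrix (Fin d ⊕ Fin d) (Fin d ⊕ Fin d) F) =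
      z • (1 : Matrix (Fin d ⊕ Fin d) (Fin d ⊕ Fin d) F))
    (hns : ∀ z : F, (x : Matrix (Fin d ⊕ Fin d) (Fin d ⊕ Fin d) F) ≠
      z • (1 : Matrix (Fin d ⊕ Fin d) (Fin d ⊕ Fin d) F)) :
    NPFix (Cfsg.quadFormPlus d F) W₀ m (x : Matrix (Fin d ⊕ Fin d) (Fin d ⊕ Fin d) F) := by
  subst hq
  have h2 : (2 : F) ≠ 0 := np_two_ne_zero hodd
  have hrF : (r : F) ≠ 0 := np_prime_ne_zero p r hrp
  obtain ⟨hQ, -⟩ := Cfsg.Agent.Helper35.TS5973.ts_std_plus (F := F) d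
  obtain ⟨z, hz⟩ := hxr
  have hrodd : Odd r := (Fact.out : r.Prime).odd_of_ne_two (by omega)
  obtain ⟨T, hT, hTr, hT1, hTW⟩ := Cfsg.Agent.Helper10.NP5989.np_scal_x
    (Cfsg.quadFormPlus d F) hQ ⟨Sum.inl ⟨0, by omega⟩⟩ r hrodd x hx z hz hns
  have hC := np_good_of d m hd h2 r hr2 hrF i c hi hc hcond T hT hTr hT1
  obtain ⟨W, hW, hWT⟩ := Cfsg.Agent.Helper57.NP5989.np_good_core (Cfsg.quadFormPlus d F) hQ h2 T hT r hr2 hrF hTr i c
    hi hc W₀ hW₀.2 m hW₀.1 hm (by rw [Fintype.card_sum, Fintype.card_fin]; omega) hC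
  exact ⟨W, hW, hTW W hWT⟩

end stages

end Cfsg.Agent.Helper39.NP5989
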