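import Mathlib
import Cfsg.Prelude.Def_LocalEven
import Cfsg.Agent.Helper5.SL2Sylow
import Cfsg.Agent.Helper39.NatSL2

set_option autoImplicit false

namespace Cfsg.Agent.Helper39

open Matrix

section mats
variable {F : Type*} [Field F]

/-- The diagonal element `diag(a, a⁻¹)` of `SL₂(F)`. -/
def dSL (a : F) (ha : a ≠ 0) : Matrix.SpecialLinearGroup (Fin 2) F :=
  ⟨!![a, 0; 0, a⁻¹], by simp [Matrix.det_fin_two, ha]⟩

theorem dSL_mulVec (a : F) (ha : a ≠ 0) (u : Fin 2 → F) :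
    (dSL a ha : Matrix (Fin 2) (Fin 2) F) *ᵥ u = ![a * u 0, a⁻¹ * u 1] := by
  show (!![a, 0; 0, a⁻¹] : Matrix (Fin 2) (Fin 2) F) *ᵥ u = _
  ext i
  fin_cases i <;> simp [Matrix.mulVec, dotProduct, Fin.sum_univ_two]

theorem dSL_one_zero (a : F) (ha : a ≠ 0) : (dSL a ha : Matrix (Fin 2) (Fin 2) F) 1 0 = 0 := rfl

theorem sl_inv_mulVec_one (M : Matrix.SpecialLinearGroup (Fin 2) F) (u : Fin 2 → F) :
    (((M⁻¹ : Matrix.SpecialLinearGroup (Fin 2) F) : Matrix (Fin 2) (Fin 2) F) *ᵥ u) 1 =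
      -(M : Matrix (Fin 2) (Fin 2) F) 1 0 * u 0 + (M : Matrix (Fin 2) (Fin 2) F) 0 0 * u 1 := by
  rw [Matrix.SpecialLinearGroup.coe_inv, Matrix.adjugate_fin_two]
  simp [Matrix.mulVec, dotProduct, Fin.sum_univ_two]

theorem sl_trace_of_fixed (M : Matrix.SpecialLinearGroup (Fin 2) F) (u : Fin 2 → F) (hu : u ≠ 0)
    (hM : (M : Matrix (Fin 2) (Fin 2) F) *ᵥ u = u) :
    (M : Matrix (Fin 2) (Fin 2) F) 0 0 + (M : Matrix (Fin 2) (Fin 2) F) 1 1 = 2 := by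
  have hdet : (M : Matrix (Fin 2) (Fin 2) F).det = 1 := M.2
  rw [Matrix.det_fin_two] at hdet
  have h0 := congrFun hM 0
  have h1 := congrFun hM 1
  simp only [Matrix.mulVec, dotProduct, Fin.sum_univ_two] at h0 h1
  have hx : u 0 * ((M : Matrix (Fin 2) (Fin 2) F) 0 0 + (M : Matrix (Fin 2) (Fin 2) F) 1 1 - 2) = 0 := by
    linear_combination (-((M : Matrix (Fin 2) (Fin 2) F) 1 1 - 1)) * h0 +
      (M : Matrix (Fin 2) (Fin 2) F) 0 1 * h1 + u 0 * hdet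
  have hy : u 1 * ((M : Matrix (Fin 2) (Fin 2) F) 0 0 + (M : Matrix (Fin 2) (Fin 2) F) 1 1 - 2) = 0 := by
    linear_combination (M : Matrix (Fin 2) (Fin 2) F) 1 0 * h0 +
      (-((M : Matrix (Fin 2) (Fin 2) F) 0 0 - 1)) * h1 + u 1 * hdet
  by_contra hne
  have hne' : (M : Matrix (Fin 2) (Fin 2) F) 0 0 + (M : Matrix (Fin 2) (Fin 2) F) 1 1 - 2 ≠ 0 :=
    fun h => hne (sub_eq_zero.1 h)
  have hx0 : u 0 = 0 := by
    rcases mul_eq_zero.1 hx with h | h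
    · exact h
    · exact absurd h hne'
  have hy0 : u 1 = 0 := by
    rcases mul_eq_zero.1 hy with h | h
    · exact h
    · exact absurd h hne'
  apply hu
  ext i
  fin_cases i
  · exact hx0
  · exact hy0

theorem sl_pow_char_of_trace_two (p : ℕ) [Fact p.Prime] [CharP F p]
    (M : Matrix.SpecialLinearGroup (Fin 2) F)
    (htr : (M : Matrix (Fin 2) (Fin 2) F) 0 0 + (M : Matrix (Fin 2) (Fin 2) F) 1 1 = 2) :
    M ^ p = 1 := by
  have hdet : (M : Matrix (Fin 2) (Fin 2) F).det = 1 := M.2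
  rw [Matrix.det_fin_two] at hdet
  have hN : ((M : Matrix (Fin 2) (Fin 2) F) - 1) * ((M : Matrix (Fin 2) (Fin 2) F) - 1) = 0 := by
    ext i j
    fin_cases i <;> fin_cases j <;>
      simp only [Matrix.mul_apply, Fin.sum_univ_two, Matrix.sub_apply, Matrix.one_apply_eq,
        Matrix.zero_apply, Fin.zero_eta, Fin.mk_one, Fin.isValue, ne_eq, zero_ne_one, one_ne_zero,
        not_false_eq_true, Matrix.one_apply_ne, sub_zero]
    · linear_combination (M : Matrix (Fin 2) (Fin 2) F) 0 0 * htr - hdet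
    · linear_combination (M : Matrix (Fin 2) (Fin 2) F) 0 1 * htr
    · linear_combination (M : Matrix (Fin 2) (Fin 2) F) 1 0 * htr
    · linear_combination (M : Matrix (Fin 2) (Fin 2) F) 1 1 * htr - hdet
  have hpow : ∀ j : ℕ, (1 + ((M : Matrix (Fin 2) (Fin 2) F) - 1)) ^ j =
      1 + j • ((M : Matrix (Fin 2) (Fin 2) F) - 1) := by
    intro j
    induction j with
    | zero => simp
    | succ j ih =>
      rw [pow_succ, ih]
      simp only [add_mul, mul_add, one_mul, mul_one, smul_mul_assoc, hN, smul_zero, add_zero,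
        add_smul, one_smul]
      abel
  have h0 := hpow p
  rw [add_sub_cancel] at h0
  apply Subtype.ext
  rw [Matrix.SpecialLinearGroup.coe_pow, h0, Matrix.SpecialLinearGroup.coe_one]
  have : p • ((M : Matrix (Fin 2) (Fin 2) F) - 1) = 0 := by
    rw [nsmul_eq_mul, CharP.cast_eq_zero (Matrix (Fin 2) (Fin 2) F) p, zero_mul]
  rw [this, add_zero]

end mats

section s2780
variable {G : Type*} [Group G] [Finite G] {p : ℕ} [Fact p.Prime] {F : Type*} [Field F] [Fintype F]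

theorem nat_mem_normT {L : Subgroup G} {ρ : L →* Matrix.SpecialLinearGroup (Fin 2) F}
    (T : Subgroup G)
    (hmemT : ∀ x : G, x ∈ T ↔ ∃ (l : L) (b : F), (l : G) = x ∧ ρ l = Helper5.uSL b)
    (lg : L) (h10 : (ρ lg : Matrix (Fin 2) (Fin 2) F) 1 0 = 0) :
    (lg : G) ∈ Subgroup.normalizer (T : Set G) := by
  have hN := Helper5.sl_mem_normalizer_USL h10
  rw [Subgroup.mem_normalizer_iff] at hN ⊢
  intro x
  constructor
  · intro hx
    obtain ⟨l, b, rfl, hb⟩ := (hmemT x).1 hx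
    have := (hN (ρ l)).1 (by rw [hb]; exact Helper5.uSL_mem_USL b)
    obtain ⟨b', hb'⟩ := (Helper5.mem_USL_iff _).1 this
    exact (hmemT _).2 ⟨lg * l * lg⁻¹, b', rfl, by rw [map_mul, map_mul, map_inv, hb']⟩
  · intro hx
    obtain ⟨l', b', hl', hb'⟩ := (hmemT _).1 hx
    have hxeq : x = ((lg⁻¹ * l' * lg : L) : G) := by
      rw [Subgroup.coe_mul, Subgroup.coe_mul, Subgroup.coe_inv, hl']; group
    have hmem : ρ (lg⁻¹ * l' * lg) ∈
        (Helper5.USL : Subgroup (Matrix.SpecialLinearGroup (Fin 2) F)) := by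
      rw [hN, map_mul, map_mul, map_inv]
      have : ρ lg * ((ρ lg)⁻¹ * ρ l' * ρ lg) * (ρ lg)⁻¹ = ρ l' := by group
      rw [this, hb']; exact Helper5.uSL_mem_USL b'
    obtain ⟨b, hb⟩ := (Helper5.mem_USL_iff _).1 hmem
    rw [hxeq]
    exact (hmemT _).2 ⟨_, b, rfl, hb.symm⟩

theorem nat_memC_conj {V L : Subgroup G} {ρ : L →* Matrix.SpecialLinearGroup (Fin 2) F}
    {Ψ : V → (Fin 2 → F)} (h : NatFrame V L ρ Ψ) (T : Subgroup G)
    (hmemT : ∀ x : G, x ∈ T ↔ ∃ (l : L) (b : F), (l : G) = x ∧ ρ l = Helper5.uSL b)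
    (lg : L) (x : G) :
    x ∈ V ⊓ Subgroup.centralizer
        ((T.map (MulAut.conj (lg : G)).toMonoidHom : Subgroup G) : Set G) ↔
      ∃ hx : x ∈ V, -(ρ lg : Matrix (Fin 2) (Fin 2) F) 1 0 * Ψ ⟨x, hx⟩ 0 +
        (ρ lg : Matrix (Fin 2) (Fin 2) F) 0 0 * Ψ ⟨x, hx⟩ 1 = 0 := by
  have memC := nat_memC h T hmemT
  have key : ∀ hx : x ∈ V, (x ∈ Subgroup.centralizer
        ((T.map (MulAut.conj (lg : G)).toMonoidHom : Subgroup G) : Set G) ↔
      -(ρ lg : Matrix (Fin 2) (Fin 2) F) 1 0 * Ψ ⟨x, hx⟩ 0 +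
        (ρ lg : Matrix (Fin 2) (Fin 2) F) 0 0 * Ψ ⟨x, hx⟩ 1 = 0) := by
    intro hx
    obtain ⟨w, hw, hΨw⟩ := h.conj lg⁻¹ ⟨x, hx⟩
    have hw' : (w : G) = (lg : G)⁻¹ * x * (lg : G) := by
      rw [hw, Subgroup.coe_inv, inv_inv]
    have hval : Ψ w 1 = -(ρ lg : Matrix (Fin 2) (Fin 2) F) 1 0 * Ψ ⟨x, hx⟩ 0 +
        (ρ lg : Matrix (Fin 2) (Fin 2) F) 0 0 * Ψ ⟨x, hx⟩ 1 := by
      rw [hΨw, map_inv]; exact sl_inv_mulVec_one _ _
    rw [← hval]
    have hwC : (w : G) ∈ V ⊓ Subgroup.centralizer (T : Set G) ↔ Ψ w 1 = 0 := by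
      rw [memC]
      constructor
      · rintro ⟨_, h0⟩; exact h0
      · intro h0; exact ⟨w.2, h0⟩
    rw [← hwC, Subgroup.mem_inf, Subgroup.mem_centralizer_iff, Subgroup.mem_centralizer_iff]
    constructor
    · intro hc
      refine ⟨w.2, fun t ht => ?_⟩
      have := hc ((lg : G) * t * (lg : G)⁻¹) (Subgroup.mem_map.2 ⟨t, ht, rfl⟩)
      rw [hw']
      calc t * ((lg : G)⁻¹ * x * lg) =
            (lg : G)⁻¹ * (((lg : G) * t * (lg : G)⁻¹) * x) * lg := by group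
        _ = (lg : G)⁻¹ * (x * ((lg : G) * t * (lg : G)⁻¹)) * lg := by rw [this]
        _ = (lg : G)⁻¹ * x * lg * t := by group
    · rintro ⟨-, hc⟩ y hy
      obtain ⟨t, ht, rfl⟩ := Subgroup.mem_map.1 hy
      have := hc t ht
      rw [hw'] at this
      show (lg : G) * t * (lg : G)⁻¹ * x = x * ((lg : G) * t * (lg : G)⁻¹)
      calc (lg : G) * t * (lg : G)⁻¹ * x =
            lg * (t * ((lg : G)⁻¹ * x * lg)) * (lg : G)⁻¹ := by group
        _ = lg * (((lg : G)⁻¹ * x * lg) * t) * (lg : G)⁻¹ := by rw [this]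
        _ = x * ((lg : G) * t * (lg : G)⁻¹) := by group
  rw [Subgroup.mem_inf]
  constructor
  · rintro ⟨hx, hc⟩; exact ⟨hx, (key hx).1 hc⟩
  · rintro ⟨hx, h0⟩; exact ⟨hx, (key hx).2 h0⟩

theorem nat_decomp (n : ℕ) (hF : Fintype.card F = p ^ n) (V L : Subgroup G)
    (hnat : Cfsg.IsNaturalSL2Module F V L) (hf : L ⊓ Subgroup.centralizer (V : Set G) = ⊥)
    (S : Sylow p ↥L) (T : Subgroup G) (hT : T = ((S : Subgroup ↥L).map L.subtype)) :
    (∀ g ∈ L, g ∉ Subgroup.normalizer (T : Set G) →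
      Cfsg.IsInternalDirectProduct (V ⊓ Subgroup.centralizer ((T : Subgroup G) : Set G))
        (V ⊓ Subgroup.centralizer ((T.map (MulAut.conj g).toMonoidHom : Subgroup G) : Set G)) V) ∧
    (∀ x ∈ L, x ≠ 1 → (orderOf x).Coprime p → (V ⊓ Subgroup.centralizer ({x} : Set G)) = ⊥) ∧
    (∀ U : Subgroup G, U ≤ (V ⊓ Subgroup.centralizer ((T : Subgroup G) : Set G)) →
      L ⊓ Subgroup.normalizer (T : Set G) ≤ Subgroup.normalizer (U : Set G) →
      U = ⊥ ∨ U = (V ⊓ Subgroup.centralizer ((T : Subgroup G) : Set G))) ∧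
    (∀ U : Subgroup G, (V ⊓ Subgroup.centralizer ((T : Subgroup G) : Set G)) ≤ U → U ≤ V →
      L ⊓ Subgroup.normalizer (T : Set G) ≤ Subgroup.normalizer (U : Set G) →
      U = (V ⊓ Subgroup.centralizer ((T : Subgroup G) : Set G)) ∨ U = V) := by
  obtain ⟨ρ, Ψ, h, hS⟩ := nat_data n hF V L hnat hf S
  have hmemT := nat_memT S T hT hS
  have memC := nat_memC h T hmemT
  have hcharP : CharP F p := charP_of_card n hF
  have hVcomm : ∀ a ∈ V, ∀ b ∈ V, a * b = b * a := by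
    intro a ha b hb
    have : (⟨a, ha⟩ * ⟨b, hb⟩ : V) = ⟨b, hb⟩ * ⟨a, ha⟩ := by
      apply h.ext; rw [h.2.2.1, h.2.2.1, add_comm]
    exact congrArg Subtype.val this
  have hΨ0 : ∀ v : V, Ψ v = 0 → v = 1 := fun v hv => h.ext (hv.trans h.map_one.symm)
  refine ⟨?_, ?_, ?_, ?_⟩
  · intro g hg hgN
    have hM10 : (ρ ⟨g, hg⟩ : Matrix (Fin 2) (Fin 2) F) 1 0 ≠ 0 :=
      fun h0 => hgN (nat_mem_normT T hmemT ⟨g, hg⟩ h0)
    have memC' := nat_memC_conj h T hmemT ⟨g, hg⟩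
    refine ⟨inf_le_left, inf_le_left, ?_, ?_, ?_⟩
    · intro a ha b hb
      exact hVcomm a ha.1 b hb.1
    · rw [eq_bot_iff]
      intro x hx
      obtain ⟨hx1, hx2⟩ := Subgroup.mem_inf.1 hx
      obtain ⟨hxV, h0⟩ := (memC x).1 hx1
      obtain ⟨hxV', h1⟩ := (memC' x).1 hx2
      rw [h0, mul_zero, add_zero] at h1
      have h00 : Ψ ⟨x, hxV⟩ 0 = 0 := by
        rcases mul_eq_zero.1 h1 with h' | h'
        · exact absurd (neg_eq_zero.1 h') hM10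
        · exact h'
      have : (⟨x, hxV⟩ : V) = 1 := hΨ0 _ (by
        ext i
        fin_cases i
        · exact h00
        · exact h0)
      rw [Subgroup.mem_bot]; exact congrArg Subtype.val this
    · apply le_antisymm (sup_le inf_le_left inf_le_left)
      intro x hx
      obtain ⟨x₁, hx₁⟩ := h.exists_vec ![Ψ ⟨x, hx⟩ 0 - Ψ ⟨x, hx⟩ 1 *
        (ρ ⟨g, hg⟩ : Matrix (Fin 2) (Fin 2) F) 0 0 / (ρ ⟨g, hg⟩ : Matrix (Fin 2) (Fin 2) F) 1 0, 0]
      obtain ⟨x₂, hx₂⟩ := h.exists_vec ![Ψ ⟨x, hx⟩ 1 *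
        (ρ ⟨g, hg⟩ : Matrix (Fin 2) (Fin 2) F) 0 0 / (ρ ⟨g, hg⟩ : Matrix (Fin 2) (Fin 2) F) 1 0,
        Ψ ⟨x, hx⟩ 1]
      have hx12 : (⟨x, hx⟩ : V) = x₁ * x₂ := by
        apply h.ext
        rw [h.2.2.1, hx₁, hx₂]
        ext i
        fin_cases i <;> simp
      have : x = (x₁ : G) * (x₂ : G) := congrArg Subtype.val hx12
      rw [this]
      apply Subgroup.mul_mem_sup
      · exact (memC _).2 ⟨x₁.2, by
          show Ψ x₁ 1 = 0
          rw [hx₁]; rfl⟩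
      · exact (memC' _).2 ⟨x₂.2, by
          show -(ρ ⟨g, hg⟩ : Matrix (Fin 2) (Fin 2) F) 1 0 * Ψ x₂ 0 +
            (ρ ⟨g, hg⟩ : Matrix (Fin 2) (Fin 2) F) 0 0 * Ψ x₂ 1 = 0
          rw [hx₂]
          simp only [Matrix.cons_val_zero, Matrix.cons_val_one]
          field_simp
          ring⟩
  · intro x hx hx1 hcop
    rw [eq_bot_iff]
    intro v hv
    rw [Subgroup.mem_bot]
    obtain ⟨hvV, hvC⟩ := Subgroup.mem_inf.1 hv
    rw [Subgroup.mem_centralizer_singleton_iff] at hvC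
    by_contra hv1
    obtain ⟨w, hw, hΨw⟩ := h.conj ⟨x, hx⟩ ⟨v, hvV⟩
    have hwv : w = ⟨v, hvV⟩ := by
      apply Subtype.ext
      rw [hw]
      show x * v * x⁻¹ = v
      rw [← hvC, mul_inv_cancel_right]
    rw [hwv] at hΨw
    have hu0 : Ψ ⟨v, hvV⟩ ≠ 0 := fun h0 => hv1 (congrArg Subtype.val (hΨ0 _ h0))
    have htr := sl_trace_of_fixed (ρ ⟨x, hx⟩) (Ψ ⟨v, hvV⟩) hu0 hΨw.symm
    have hpow : (ρ ⟨x, hx⟩) ^ p = 1 := sl_pow_char_of_trace_two p (ρ ⟨x, hx⟩) htr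
    have hlx : (⟨x, hx⟩ : L) ^ p = 1 := h.1.1 (by rw [map_pow, hpow, map_one])
    have hord : orderOf (⟨x, hx⟩ : L) ∣ p := orderOf_dvd_of_pow_eq_one hlx
    have hordx : orderOf x = orderOf (⟨x, hx⟩ : L) := Subgroup.orderOf_coe (⟨x, hx⟩ : L)
    rw [hordx] at hcop
    have h1 : orderOf (⟨x, hx⟩ : L) = 1 := Nat.Coprime.eq_one_of_dvd hcop hord
    have h2 : (⟨x, hx⟩ : L) = 1 := orderOf_eq_one_iff.1 h1
    exact hx1 (congrArg Subtype.val h2)
  · intro U hU hN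
    by_cases hbot : U = ⊥
    · left; exact hbot
    · right
      apply le_antisymm hU
      obtain ⟨⟨u₀, hu₀⟩, hu₀1⟩ := (Subgroup.ne_bot_iff_exists_ne_one.1 hbot)
      intro y hy
      obtain ⟨hyV, hy0⟩ := (memC y).1 hy
      obtain ⟨hu₀V, hu₀0⟩ := (memC u₀).1 (hU hu₀)
      have hc₀ : Ψ ⟨u₀, hu₀V⟩ 0 ≠ 0 := by
        intro h0
        apply hu₀1
        have := hΨ0 ⟨u₀, hu₀V⟩ (by
          ext i
          fin_cases i
          · exact h0
          · exact hu₀0)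
        exact Subtype.ext (congrArg (Subtype.val : V → G) this)
      by_cases hc : Ψ ⟨y, hyV⟩ 0 = 0
      · have := hΨ0 ⟨y, hyV⟩ (by
          ext i
          fin_cases i
          · exact hc
          · exact hy0)
        have hy1 : y = 1 := congrArg Subtype.val this
        rw [hy1]; exact U.one_mem
      · have ha0 : Ψ ⟨y, hyV⟩ 0 / Ψ ⟨u₀, hu₀V⟩ 0 ≠ 0 := div_ne_zero hc hc₀
        obtain ⟨ld, hld⟩ := h.exists_el (dSL _ ha0)
        have hldN : (ld : G) ∈ L ⊓ Subgroup.normalizer (T : Set G) :=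
          ⟨ld.2, nat_mem_normT T hmemT ld (by rw [hld]; rfl)⟩
        have hconjU := ((Subgroup.mem_normalizer_iff.1 (hN hldN)) u₀).1 hu₀
        obtain ⟨w, hw, hΨw⟩ := h.conj ld ⟨u₀, hu₀V⟩
        have hwy : w = ⟨y, hyV⟩ := by
          apply h.ext
          rw [hΨw, hld, dSL_mulVec]
          ext i
          fin_cases i
          · show Ψ ⟨y, hyV⟩ 0 / Ψ ⟨u₀, hu₀V⟩ 0 * Ψ ⟨u₀, hu₀V⟩ 0 = Ψ ⟨y, hyV⟩ 0
            field_simp
          · show (Ψ ⟨y, hyV⟩ 0 / Ψ ⟨u₀, hu₀V⟩ 0)⁻¹ * Ψ ⟨u₀, hu₀V⟩ 1 = Ψ ⟨y, hyV⟩ 1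
            rw [hu₀0, hy0, mul_zero]
        have : y = (ld : G) * u₀ * (ld : G)⁻¹ := by rw [← hw, hwy]
        rw [this]; exact hconjU
  · intro U hCU hUV hN
    by_cases heq : U = V ⊓ Subgroup.centralizer (T : Set G)
    · left; exact heq
    · right
      apply le_antisymm hUV
      have hex : ∃ u₀ ∈ U, u₀ ∉ V ⊓ Subgroup.centralizer (T : Set G) := by
        by_contra hcon
        push Not at hcon
        exact heq (le_antisymm hcon hCU)
      obtain ⟨u₀, hu₀, hu₀C⟩ := hex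
      have hu₀V := hUV hu₀
      have hc₀ : Ψ ⟨u₀, hu₀V⟩ 1 ≠ 0 := fun h0 => hu₀C ((memC u₀).2 ⟨hu₀V, h0⟩)
      intro y hy
      by_cases hy1 : Ψ ⟨y, hy⟩ 1 = 0
      · exact hCU ((memC y).2 ⟨hy, hy1⟩)
      · have ha0 : Ψ ⟨u₀, hu₀V⟩ 1 / Ψ ⟨y, hy⟩ 1 ≠ 0 := div_ne_zero hc₀ hy1
        obtain ⟨ld, hld⟩ := h.exists_el (dSL _ ha0)
        have hldN : (ld : G) ∈ L ⊓ Subgroup.normalizer (T : Set G) :=
          ⟨ld.2, nat_mem_normT T hmemT ld (by rw [hld]; rfl)⟩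
        have hconjU := ((Subgroup.mem_normalizer_iff.1 (hN hldN)) u₀).1 hu₀
        obtain ⟨w, hw, hΨw⟩ := h.conj ld ⟨u₀, hu₀V⟩
        rw [hld, dSL_mulVec] at hΨw
        have hz : ((⟨y, hy⟩ * w⁻¹ : V) : G) ∈ V ⊓ Subgroup.centralizer (T : Set G) := by
          rw [memC]
          refine ⟨(⟨y, hy⟩ * w⁻¹ : V).2, ?_⟩
          have hΨw1 : Ψ w 1 = Ψ ⟨y, hy⟩ 1 := by
            rw [hΨw]
            show (Ψ ⟨u₀, hu₀V⟩ 1 / Ψ ⟨y, hy⟩ 1)⁻¹ * Ψ ⟨u₀, hu₀V⟩ 1 = Ψ ⟨y, hy⟩ 1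
            field_simp
          show Ψ (⟨y, hy⟩ * w⁻¹) 1 = 0
          rw [h.2.2.1, h.map_inv]
          show Ψ ⟨y, hy⟩ 1 + -(Ψ w 1) = 0
          rw [hΨw1, add_neg_cancel]
        have hzU := hCU hz
        have hwU : (w : G) ∈ U := by rw [hw]; exact hconjU
        have : y = ((⟨y, hy⟩ * w⁻¹ : V) : G) * (w : G) := by
          rw [Subgroup.coe_mul, Subgroup.coe_inv, inv_mul_cancel_right]
        rw [this]; exact U.mul_mem hzU hwU

end s2780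

end Cfsg.Agent.Helper39
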