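import Mathlib
import Cfsg.Agent.Helper5.SLCard

set_option autoImplicit false

namespace Cfsg.Agent.Helper39

open Matrix

section card
variable {F : Type*} [Field F] [Fintype F]

theorem pow_sub_one_dvd_card_SL (m : ℕ) (d : ℕ) (hd2 : 2 ≤ d) (hdm : d ≤ m) :
    Fintype.card F ^ d - 1 ∣ Nat.card (SpecialLinearGroup (Fin m) F) := by
  have hm : 2 ≤ m := le_trans hd2 hdm
  have : Nonempty (Fin m) := ⟨⟨0, by omega⟩⟩
  have h := Helper5.card_SL_mul (F := F) (Fin m)
  rw [Matrix.card_GL_field] at h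
  set q := Fintype.card F with hq
  have hq1 : 1 < q := Fintype.one_lt_card
  let i₁ : Fin m := ⟨m - 1, by omega⟩
  let i₂ : Fin m := ⟨m - d, by omega⟩
  have hne : i₁ ≠ i₂ := by
    intro h
    have := congrArg Fin.val h
    simp only [i₁, i₂] at this
    omega
  have hdvd : (q ^ m - q ^ (m - 1)) * (q ^ m - q ^ (m - d)) ∣
      ∏ i : Fin m, (q ^ m - q ^ (i : ℕ)) := by
    have := Finset.prod_dvd_prod_of_subset ({i₁, i₂} : Finset (Fin m)) Finset.univ
      (fun i : Fin m => q ^ m - q ^ (i : ℕ)) (Finset.subset_univ _)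
    rwa [Finset.prod_pair hne] at this
  have e1 : q ^ m - q ^ (m - 1) = q ^ (m - 1) * (q - 1) := by
    have : q ^ m = q ^ (m - 1) * q := by rw [← pow_succ]; congr 1; omega
    rw [this, Nat.mul_sub, mul_one]
  have e2 : q ^ m - q ^ (m - d) = q ^ (m - d) * (q ^ d - 1) := by
    have : q ^ m = q ^ (m - d) * q ^ d := by rw [← pow_add]; congr 1; omega
    rw [this, Nat.mul_sub, mul_one]
  rw [e1, e2, ← h] at hdvd
  have h3 : (q ^ d - 1) * (q - 1) ∣ Nat.card (SpecialLinearGroup (Fin m) F) * (q - 1) := by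
    refine dvd_trans ?_ hdvd
    exact ⟨q ^ (m - 1) * q ^ (m - d), by ring⟩
  exact Nat.dvd_of_mul_dvd_mul_right (by omega) h3

theorem dvd_card_SL_of_dvd (m : ℕ) (hm : 2 ≤ m) (r d : ℕ) (hd1 : 1 ≤ d) (hdm : d ≤ m)
    (h : r ∣ Fintype.card F ^ d - 1) : r ∣ Nat.card (SpecialLinearGroup (Fin m) F) := by
  rcases Nat.lt_or_ge d 2 with h2 | h2
  · have hd : d = 1 := by omega
    subst hd
    refine dvd_trans h (dvd_trans ?_ (pow_sub_one_dvd_card_SL m 2 le_rfl hm))
    simpa only [one_pow, pow_one] using Nat.sub_dvd_pow_sub_pow (Fintype.card F) 1 2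
  · exact dvd_trans h (pow_sub_one_dvd_card_SL m d h2 hdm)

theorem card_dvd_card_SL (m : ℕ) (hm : 2 ≤ m) :
    Fintype.card F ∣ Nat.card (SpecialLinearGroup (Fin m) F) := by
  have : Nonempty (Fin m) := ⟨⟨0, by omega⟩⟩
  have h := Helper5.card_SL_mul (F := F) (Fin m)
  rw [Matrix.card_GL_field] at h
  set q := Fintype.card F with hq
  have hq1 : 1 < q := Fintype.one_lt_card
  have hdvd : q ^ m - q ^ 1 ∣ ∏ i : Fin m, (q ^ m - q ^ (i : ℕ)) :=
    Finset.dvd_prod_of_mem (fun i : Fin m => q ^ m - q ^ (i : ℕ))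
      (Finset.mem_univ (⟨1, by omega⟩ : Fin m))
  have e1 : q ^ m - q ^ 1 = q * (q ^ (m - 1) - 1) := by
    have : q ^ m = q * q ^ (m - 1) := by rw [← pow_succ']; congr 1; omega
    rw [this, pow_one, Nat.mul_sub, mul_one]
  rw [e1, ← h] at hdvd
  have hcop : Nat.Coprime q (q - 1) := by
    have : Nat.Coprime (q - 1 + 1) (q - 1) := by simp
    rwa [Nat.sub_add_cancel hq1.le] at this
  exact hcop.dvd_of_dvd_mul_right (dvd_trans (dvd_mul_right _ _) hdvd)

end card

section lin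
variable {F : Type*} [Field F] [Fintype F] {V : Type*} [AddCommGroup V] [Module F V] [Finite V]

theorem fix_card_modEq (f : Module.End F V) (r : ℕ) [hr : Fact r.Prime] (hf : f ^ r = 1)
    (X : Submodule F V) (hX : ∀ x ∈ X, f x ∈ X) :
    Nat.card X ≡ Nat.card (X ⊓ LinearMap.ker (f - 1) : Submodule F V) [MOD r] := by
  classical
  haveI : Fintype X := Fintype.ofFinite X
  let ψ : X → X := fun x => ⟨f x, hX x x.2⟩
  let φ : Function.End X := ψ
  have hφ : ∀ k : ℕ, ∀ x : X, ((φ ^ k) x : V) = (f ^ k) x := by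
    intro k
    induction k with
    | zero => intro x; rfl
    | succ k ih =>
      intro x
      rw [pow_succ, pow_succ]
      show ((φ ^ k) (ψ x) : V) = (f ^ k) (f x)
      rw [ih]
  have hφr : φ ^ r ^ 1 = 1 := by
    rw [pow_one]
    funext x
    apply Subtype.ext
    rw [hφ, hf]
    rfl
  have h := Equiv.Perm.card_fixedPoints_modEq hφr
  have e : Function.fixedPoints ψ ≃ (X ⊓ LinearMap.ker (f - 1) : Submodule F V) :=
    { toFun := fun x => ⟨x.1.1, Submodule.mem_inf.2 ⟨x.1.2, by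
        have h1 : ψ x.1 = x.1 := x.2
        have h2 : f x.1.1 = x.1.1 := congrArg Subtype.val h1
        rw [LinearMap.mem_ker, LinearMap.sub_apply, h2]
        simp⟩⟩
      invFun := fun v => ⟨⟨v.1, (Submodule.mem_inf.1 v.2).1⟩, by
        have h1 := (Submodule.mem_inf.1 v.2).2
        rw [LinearMap.mem_ker, LinearMap.sub_apply] at h1
        have h2 : f v.1 = v.1 := by simpa using sub_eq_zero.1 h1
        show ψ ⟨v.1, (Submodule.mem_inf.1 v.2).1⟩ = ⟨v.1, (Submodule.mem_inf.1 v.2).1⟩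
        exact Subtype.ext h2⟩
      left_inv := fun x => rfl
      right_inv := fun v => rfl }
  rw [← Nat.card_congr e, Nat.card_eq_fintype_card, Nat.card_eq_fintype_card]
  convert h

theorem fix_dim_gap (p : ℕ) [Fact p.Prime] [CharP F p] (f : Module.End F V) (r : ℕ)
    [hr : Fact r.Prime] (hrp : r ≠ p) (hf : f ^ r = 1)
    (X : Submodule F V) (hX : ∀ x ∈ X, f x ∈ X) (N : ℕ)
    (H : ∀ d, 1 ≤ d → d ≤ N → ¬ r ∣ Fintype.card F ^ d - 1)
    (hN : Module.finrank F X -
      Module.finrank F (X ⊓ LinearMap.ker (f - 1) : Submodule F V) ≤ N) :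
    X ≤ LinearMap.ker (f - 1) := by
  have h := fix_card_modEq f r hf X hX
  have : Module.Finite F V := Module.Finite.of_finite
  rw [Module.natCard_eq_pow_finrank (K := F) (V := X),
    Module.natCard_eq_pow_finrank (K := F)
      (V := (X ⊓ LinearMap.ker (f - 1) : Submodule F V)),
    Nat.card_eq_fintype_card] at h
  set q := Fintype.card F
  set a := Module.finrank F X
  set c := Module.finrank F (X ⊓ LinearMap.ker (f - 1) : Submodule F V)
  have hca : c ≤ a := Submodule.finrank_mono inf_le_left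
  have hq0 : 0 < q := Fintype.card_pos
  have h1 : r ∣ q ^ a - q ^ c :=
    (Nat.modEq_iff_dvd' (Nat.pow_le_pow_right hq0 hca)).1 h.symm
  have e : q ^ a - q ^ c = q ^ c * (q ^ (a - c) - 1) := by
    have : q ^ a = q ^ c * q ^ (a - c) := by rw [← pow_add]; congr 1; omega
    rw [this, Nat.mul_sub, mul_one]
  rw [e] at h1
  have hcop : Nat.Coprime r q := by
    obtain ⟨k, hk1, hk⟩ := FiniteField.card F p
    rw [show q = p ^ (k : ℕ) from hk]
    exact ((Nat.coprime_primes hr.out hk1).2 hrp).pow_right k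
  have h2 : r ∣ q ^ (a - c) - 1 := (hcop.pow_right c).dvd_of_dvd_mul_left h1
  have h3 : a - c = 0 := by
    by_contra h0
    exact H (a - c) (by omega) hN h2
  have h4 : c = a := by omega
  have h5 : (X ⊓ LinearMap.ker (f - 1) : Submodule F V) = X :=
    Submodule.eq_of_le_of_finrank_eq inf_le_left h4
  rw [← h5]; exact inf_le_right

theorem lin_main (p : ℕ) [Fact p.Prime] [CharP F p] (n : ℕ) (hn : 4 ≤ n)
    (hV : Module.finrank F V = n)
    (f g : Module.End F V) (r : ℕ) [hr : Fact r.Prime] (hrp : r ≠ p) (hf : f ^ r = 1)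
    (hfg : f * g = g * f) (hg0 : g ≠ 0) (k : ℕ) (hgk : g ^ k = 0)
    (H : ∀ d, 1 ≤ d → d ≤ n - 2 → ¬ r ∣ Fintype.card F ^ d - 1) : f = 1 := by
  have : Module.Finite F V := Module.Finite.of_finite
  have hfgx : ∀ x, f (g x) = g (f x) := fun x => by
    have := congrArg (fun h : Module.End F V => h x) hfg
    exact this
  have hW : ∀ x ∈ LinearMap.ker g, f x ∈ LinearMap.ker g := by
    intro x hx
    rw [LinearMap.mem_ker] at hx ⊢
    rw [← hfgx, hx, map_zero]
  have hI : ∀ x ∈ LinearMap.range g, f x ∈ LinearMap.range g := by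
    rintro x ⟨y, rfl⟩
    exact ⟨f y, (hfgx y).symm⟩
  have hWI : ∀ x ∈ LinearMap.ker g ⊓ LinearMap.range g,
      f x ∈ LinearMap.ker g ⊓ LinearMap.range g :=
    fun x hx => Submodule.mem_inf.2 ⟨hW x (Submodule.mem_inf.1 hx).1, hI x (Submodule.mem_inf.1 hx).2⟩
  have hne : LinearMap.ker g ⊓ LinearMap.range g ≠ ⊥ := by
    classical
    have hex : ∃ k, g ^ k = 0 := ⟨k, hgk⟩
    have hk₀s : g ^ (Nat.find hex) = 0 := Nat.find_spec hex
    have hk0 : Nat.find hex ≠ 0 := by
      intro h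
      rw [h, pow_zero] at hk₀s
      apply hg0
      calc g = g * 1 := (mul_one g).symm
        _ = 0 := by rw [hk₀s, mul_zero]
    have hk1 : Nat.find hex ≠ 1 := by
      intro h
      rw [h, pow_one] at hk₀s
      exact hg0 hk₀s
    obtain ⟨j, hj⟩ : ∃ j, Nat.find hex = j + 2 := ⟨Nat.find hex - 2, by omega⟩
    have hmin : g ^ (j + 1) ≠ 0 := Nat.find_min hex (by omega)
    obtain ⟨v, hv⟩ : ∃ v, (g ^ (j + 1)) v ≠ 0 := by
      by_contra hcon
      push Not at hcon
      exact hmin (LinearMap.ext hcon)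
    intro hbot
    have hmem : (g ^ (j + 1)) v ∈ LinearMap.ker g ⊓ LinearMap.range g := by
      refine Submodule.mem_inf.2 ⟨?_, ?_⟩
      · rw [LinearMap.mem_ker]
        have : g ((g ^ (j + 1)) v) = (g ^ (j + 2)) v := by
          rw [pow_succ' g (j + 1)]; rfl
        rw [this, ← hj, hk₀s]; rfl
      · rw [pow_succ']; exact ⟨(g ^ j) v, rfl⟩
    rw [hbot] at hmem
    exact hv ((Submodule.mem_bot F).1 hmem)
  have hdim : Module.finrank F (LinearMap.range g) + Module.finrank F (LinearMap.ker g) = n := by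
    rw [← hV]; exact LinearMap.finrank_range_add_finrank_ker g
  have hpos : 0 < Module.finrank F (LinearMap.ker g ⊓ LinearMap.range g : Submodule F V) := by
    rw [Nat.pos_iff_ne_zero]
    intro h0
    exact hne (Submodule.finrank_eq_zero.1 h0)
  have hle1 : Module.finrank F (LinearMap.ker g ⊓ LinearMap.range g : Submodule F V) ≤
      Module.finrank F (LinearMap.ker g) := Submodule.finrank_mono inf_le_left
  have hle2 : Module.finrank F (LinearMap.ker g ⊓ LinearMap.range g : Submodule F V) ≤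
      Module.finrank F (LinearMap.range g) := Submodule.finrank_mono inf_le_right
  have hWIK : LinearMap.ker g ⊓ LinearMap.range g ≤ LinearMap.ker (f - 1) :=
    fix_dim_gap p f r hrp hf _ hWI (n - 2) H (by omega)
  have hWK : LinearMap.ker g ≤ LinearMap.ker (f - 1) := by
    apply fix_dim_gap p f r hrp hf _ hW (n - 2) H
    have : Module.finrank F (LinearMap.ker g ⊓ LinearMap.range g : Submodule F V) ≤
        Module.finrank F (LinearMap.ker g ⊓ LinearMap.ker (f - 1) : Submodule F V) :=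
      Submodule.finrank_mono (le_inf inf_le_left hWIK)
    omega
  have hIK : LinearMap.range g ≤ LinearMap.ker (f - 1) := by
    apply fix_dim_gap p f r hrp hf _ hI (n - 2) H
    have : Module.finrank F (LinearMap.ker g ⊓ LinearMap.range g : Submodule F V) ≤
        Module.finrank F (LinearMap.range g ⊓ LinearMap.ker (f - 1) : Submodule F V) :=
      Submodule.finrank_mono (le_inf inf_le_right hWIK)
    omega
  have hM : (f - 1) * (f - 1) = 0 := by
    apply LinearMap.ext
    intro v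
    have h1 : g ((f - 1) v) = 0 := by
      have : g ((f - 1) v) = (f - 1) (g v) := by
        simp only [LinearMap.sub_apply, Module.End.one_apply, map_sub, hfgx]
      rw [this]
      exact LinearMap.mem_ker.1 (hIK ⟨v, rfl⟩)
    have h2 : (f - 1) v ∈ LinearMap.ker (f - 1) := hWK (LinearMap.mem_ker.2 h1)
    exact LinearMap.mem_ker.1 h2
  have hpow : ∀ j : ℕ, (1 + (f - 1)) ^ j = 1 + j • (f - 1) := by
    intro j
    induction j with
    | zero => simp
    | succ j ih =>
      rw [pow_succ, ih]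
      simp only [add_mul, mul_add, one_mul, mul_one, smul_mul_assoc, hM, smul_zero, add_zero,
        add_smul, one_smul]
      abel
  have h0 := hpow r
  rw [add_sub_cancel, hf] at h0
  have h0' : r • (f - 1) = 0 := by
    have := h0.symm
    rwa [add_eq_left] at this
  have hrF : (r : F) ≠ 0 := by
    intro h
    have := (CharP.cast_eq_zero_iff F p r).1 h
    exact hrp ((Nat.prime_dvd_prime_iff_eq (Fact.out) hr.out).1 this).symm
  have h00 : (r : F) • (f - 1) = 0 := by
    rw [← h0']; exact Nat.cast_smul_eq_nsmul F r (f - 1)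
  rcases smul_eq_zero.1 h00 with h | h
  · exact absurd h hrF
  · exact sub_eq_zero.1 h

end lin

section mat
variable {F : Type*} [Field F] [Fintype F]

theorem mat_main (p : ℕ) [Fact p.Prime] [CharP F p] (n : ℕ) (hn : 4 ≤ n)
    (r : ℕ) [hr : Fact r.Prime] (hrp : r ≠ p)
    (H : ∀ d, 1 ≤ d → d ≤ n - 2 → ¬ r ∣ Fintype.card F ^ d - 1)
    (A B : Matrix (Fin n) (Fin n) F) (hA : A ^ p = 1) (hB : B ^ r = 1) (hAB : A * B = B * A) :
    A = 1 ∨ B = 1 := by
  by_contra hcon
  push Not at hcon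
  obtain ⟨hA1, hB1⟩ := hcon
  apply hB1
  have : Nonempty (Fin n) := ⟨⟨0, by omega⟩⟩
  have hN : (A - 1) ^ p = 0 := by
    rw [sub_pow_char_of_commute (p := p) (h := Commute.one_right A), hA, one_pow, sub_self]
  let φ := Matrix.toLinAlgEquiv' (R := F) (n := Fin n)
  have key := lin_main (V := Fin n → F) p n hn (by simp) (φ B) (φ (A - 1)) r hrp
    (by rw [← map_pow, hB, map_one])
    (by rw [← map_mul, ← map_mul, mul_sub, sub_mul, hAB, mul_one, one_mul])
    (by
      intro h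
      have h' : A - 1 = 0 := (map_eq_zero_iff φ φ.injective).1 h
      exact hA1 (sub_eq_zero.1 h'))
    p (by rw [← map_pow, hN, map_zero]) H
  exact φ.injective (key.trans (map_one φ).symm)

theorem sl_main (p : ℕ) [Fact p.Prime] [CharP F p] (n : ℕ) (hn : 4 ≤ n)
    (r : ℕ) [hr : Fact r.Prime] (hrp : r ≠ p)
    (H : ∀ d, 1 ≤ d → d ≤ n - 2 → ¬ r ∣ Fintype.card F ^ d - 1)
    (A B : SpecialLinearGroup (Fin n) F)
    (hA : A ^ p ∈ Subgroup.center (SpecialLinearGroup (Fin n) F))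
    (hB : B ^ r ∈ Subgroup.center (SpecialLinearGroup (Fin n) F))
    (hAB : A * B * A⁻¹ * B⁻¹ ∈ Subgroup.center (SpecialLinearGroup (Fin n) F)) :
    A ∈ Subgroup.center (SpecialLinearGroup (Fin n) F) ∨
      B ∈ Subgroup.center (SpecialLinearGroup (Fin n) F) := by
  have hne : Nonempty (Fin n) := ⟨⟨0, by omega⟩⟩
  have hpP : p.Prime := Fact.out
  obtain ⟨C, hC⟩ : ∃ C, C = A * B * A⁻¹ * B⁻¹ := ⟨_, rfl⟩
  rw [← hC] at hAB
  rw [Matrix.SpecialLinearGroup.mem_center_iff] at hA hB hAB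
  obtain ⟨α, hαn, hα⟩ := hA
  obtain ⟨β, hβn, hβ⟩ := hB
  obtain ⟨ζ, hζn, hζ⟩ := hAB
  simp only [Fintype.card_fin] at hαn hβn hζn
  have hn0 : n ≠ 0 := by omega
  have hα0 : α ≠ 0 := by rintro rfl; rw [zero_pow hn0] at hαn; exact zero_ne_one hαn
  have hβ0 : β ≠ 0 := by rintro rfl; rw [zero_pow hn0] at hβn; exact zero_ne_one hβn
  rw [Matrix.scalar_apply, ← Matrix.smul_one_eq_diagonal] at hα hβ hζ
  rw [Matrix.SpecialLinearGroup.coe_pow] at hα hβ
  have hAB' : (A : Matrix (Fin n) (Fin n) F) * (B : Matrix (Fin n) (Fin n) F) =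
      ζ • ((B : Matrix (Fin n) (Fin n) F) * (A : Matrix (Fin n) (Fin n) F)) := by
    have h1 : A * B = C * (B * A) := by rw [hC]; group
    have h2 : (A : Matrix (Fin n) (Fin n) F) * (B : Matrix (Fin n) (Fin n) F) =
        (C : Matrix (Fin n) (Fin n) F) *
          ((B : Matrix (Fin n) (Fin n) F) * (A : Matrix (Fin n) (Fin n) F)) := by
      simpa only [Matrix.SpecialLinearGroup.coe_mul] using congrArg Subtype.val h1
    rw [h2, ← hζ, smul_mul_assoc, one_mul]
  obtain ⟨α₀, hα₀⟩ : ∃ α₀ : F, α₀ ^ p = α :=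
    (Finite.injective_iff_surjective.1 (frobenius_inj F p)) α
  have hα₀0 : α₀ ≠ 0 := by
    rintro rfl
    rw [zero_pow hpP.ne_zero] at hα₀
    exact hα0 hα₀.symm
  have hc : (Nat.card Fˣ).Coprime r := by
    rw [Nat.card_units, Nat.card_eq_fintype_card]
    have h1 : ¬ r ∣ Fintype.card F ^ 1 - 1 := H 1 le_rfl (by omega)
    rw [pow_one] at h1
    exact ((Nat.Prime.coprime_iff_not_dvd hr.out).2 h1).symm
  obtain ⟨μ, hμ⟩ := (powCoprime hc).surjective (Units.mk0 β hβ0)
  have hμ' : (μ : F) ^ r = β := by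
    have : μ ^ r = Units.mk0 β hβ0 := hμ
    have h2 := congrArg Units.val this
    simpa using h2
  have hμ0 : (μ : F) ≠ 0 := μ.ne_zero
  -- normalised lifts
  have hA' : (α₀⁻¹ • (A : Matrix (Fin n) (Fin n) F)) ^ p = 1 := by
    rw [smul_pow, ← hα, smul_smul, inv_pow, hα₀, inv_mul_cancel₀ hα0, one_smul]
  have hB' : ((μ : F)⁻¹ • (B : Matrix (Fin n) (Fin n) F)) ^ r = 1 := by
    rw [smul_pow, ← hβ, smul_smul, inv_pow, hμ', inv_mul_cancel₀ hβ0, one_smul]
  have hAB'' : (α₀⁻¹ • (A : Matrix (Fin n) (Fin n) F)) * ((μ : F)⁻¹ • (B : Matrix (Fin n) (Fin n) F)) =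
      ζ • (((μ : F)⁻¹ • (B : Matrix (Fin n) (Fin n) F)) * (α₀⁻¹ • (A : Matrix (Fin n) (Fin n) F))) := by
    simp only [smul_mul_assoc, mul_smul_comm, hAB', smul_smul]
    congr 1
    ring
  obtain ⟨A', hA'def⟩ : ∃ A' : Matrix (Fin n) (Fin n) F, A' = α₀⁻¹ • (A : Matrix (Fin n) (Fin n) F) :=
    ⟨_, rfl⟩
  obtain ⟨B', hB'def⟩ : ∃ B' : Matrix (Fin n) (Fin n) F, B' = (μ : F)⁻¹ • (B : Matrix (Fin n) (Fin n) F) :=
    ⟨_, rfl⟩
  rw [← hA'def] at hA' hAB''
  rw [← hB'def] at hB' hAB''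
  have hpow : ∀ k : ℕ, A' ^ k * B' = ζ ^ k • (B' * A' ^ k) := by
    intro k
    induction k with
    | zero => simp
    | succ k ih =>
      rw [pow_succ, mul_assoc, hAB'', mul_smul_comm, ← mul_assoc, ih, smul_mul_assoc, smul_smul,
        mul_assoc, ← pow_succ']
  have hζ1 : ζ = 1 := by
    have h1 := hpow p
    rw [hA', one_mul, mul_one] at h1
    have h2 : (ζ ^ p - 1) • B' = 0 := by
      rw [sub_smul, one_smul, ← h1, sub_self]
    rcases smul_eq_zero.1 h2 with h | h
    · have h3 : ζ ^ p = 1 ^ p := by rw [one_pow]; exact sub_eq_zero.1 h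
      exact frobenius_inj F p h3
    · exfalso
      rw [h, zero_pow hr.out.ne_zero] at hB'
      exact zero_ne_one hB'
  rw [hζ1, one_smul] at hAB''
  have hdetA : (A : Matrix (Fin n) (Fin n) F).det = 1 := A.2
  have hdetB : (B : Matrix (Fin n) (Fin n) F).det = 1 := B.2
  rcases mat_main p n hn r hrp H A' B' hA' hB' hAB'' with h | h
  · left
    have hAm : (A : Matrix (Fin n) (Fin n) F) = α₀ • (1 : Matrix (Fin n) (Fin n) F) := by
      rw [← h, hA'def, smul_smul, mul_inv_cancel₀ hα₀0, one_smul]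
    rw [Matrix.SpecialLinearGroup.mem_center_iff]
    refine ⟨α₀, ?_, ?_⟩
    · rw [hAm, Matrix.det_smul, Matrix.det_one, mul_one] at hdetA
      exact hdetA
    · rw [Matrix.scalar_apply, ← Matrix.smul_one_eq_diagonal, hAm]
  · right
    have hBm : (B : Matrix (Fin n) (Fin n) F) = (μ : F) • (1 : Matrix (Fin n) (Fin n) F) := by
      rw [← h, hB'def, smul_smul, mul_inv_cancel₀ hμ0, one_smul]
    rw [Matrix.SpecialLinearGroup.mem_center_iff]
    refine ⟨(μ : F), ?_, ?_⟩
    · rw [hBm, Matrix.det_smul, Matrix.det_one, mul_one] at hdetB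
      exact hdetB
    · rw [Matrix.scalar_apply, ← Matrix.smul_one_eq_diagonal, hBm]

theorem psl_main (p : ℕ) [Fact p.Prime] [CharP F p] (n : ℕ) (hn : 4 ≤ n)
    (a b : Matrix.ProjectiveSpecialLinearGroup (Fin n) F) (ha : orderOf a = p)
    (hab : Commute a b) :
    (orderOf b).primeFactors ⊆
      (Nat.card (Matrix.SpecialLinearGroup (Fin (n - 2)) F)).primeFactors := by
  classical
  intro r hr
  rw [Nat.mem_primeFactors] at hr ⊢
  obtain ⟨hrp, hrd, hb0⟩ := hr
  refine ⟨hrp, ?_, Nat.card_pos.ne'⟩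
  by_contra hnd
  have hrF : Fact r.Prime := ⟨hrp⟩
  have hpP : p.Prime := Fact.out
  have hm : 2 ≤ n - 2 := by omega
  have hpdvd : p ∣ Nat.card (SpecialLinearGroup (Fin (n - 2)) F) := by
    obtain ⟨k, hk1, hk⟩ := FiniteField.card F p
    refine dvd_trans ?_ (card_dvd_card_SL (F := F) (n - 2) hm)
    rw [hk]; exact dvd_pow_self p k.ne_zero
  have hrp' : r ≠ p := by rintro rfl; exact hnd hpdvd
  have H : ∀ d, 1 ≤ d → d ≤ n - 2 → ¬ r ∣ Fintype.card F ^ d - 1 :=
    fun d hd1 hd2 h => hnd (dvd_card_SL_of_dvd (n - 2) hm r d hd1 hd2 h)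
  obtain ⟨b₁, hb₁⟩ : ∃ b₁, b₁ = b ^ (orderOf b / r) := ⟨_, rfl⟩
  have hb1r : b₁ ^ r = 1 := by
    rw [hb₁, ← pow_mul, Nat.div_mul_cancel hrd, pow_orderOf_eq_one]
  have hb1ne : b₁ ≠ 1 := by
    intro h
    rw [hb₁] at h
    have h1 := orderOf_dvd_of_pow_eq_one h
    have hpos : 0 < orderOf b / r :=
      Nat.div_pos (Nat.le_of_dvd (Nat.pos_of_ne_zero hb0) hrd) hrp.pos
    have hle := Nat.le_of_dvd hpos h1
    have : orderOf b / r < orderOf b := Nat.div_lt_self (Nat.pos_of_ne_zero hb0) hrp.one_lt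
    omega
  have hab1 : Commute a b₁ := by rw [hb₁]; exact hab.pow_right _
  have hap : a ^ p = 1 := by rw [← ha]; exact pow_orderOf_eq_one a
  have hane : a ≠ 1 := by
    rintro rfl
    rw [orderOf_one] at ha
    exact hpP.one_lt.ne ha
  obtain ⟨A, rfl⟩ := QuotientGroup.mk_surjective a
  obtain ⟨B, rfl⟩ := QuotientGroup.mk_surjective b₁
  have h1 : A ^ p ∈ Subgroup.center (SpecialLinearGroup (Fin n) F) :=
    (QuotientGroup.eq_one_iff (A ^ p)).1 hap
  have h2 : B ^ r ∈ Subgroup.center (SpecialLinearGroup (Fin n) F) :=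
    (QuotientGroup.eq_one_iff (B ^ r)).1 hb1r
  have h3 : A * B * A⁻¹ * B⁻¹ ∈ Subgroup.center (SpecialLinearGroup (Fin n) F) := by
    rw [← QuotientGroup.eq_one_iff]
    have : ((A * B * A⁻¹ * B⁻¹ : SpecialLinearGroup (Fin n) F) :
        SpecialLinearGroup (Fin n) F ⧸ Subgroup.center (SpecialLinearGroup (Fin n) F)) =
        (A : SpecialLinearGroup (Fin n) F ⧸ Subgroup.center (SpecialLinearGroup (Fin n) F)) *
        (B : SpecialLinearGroup (Fin n) F ⧸ Subgroup.center (SpecialLinearGroup (Fin n) F)) *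
        (A : SpecialLinearGroup (Fin n) F ⧸ Subgroup.center (SpecialLinearGroup (Fin n) F))⁻¹ *
        (B : SpecialLinearGroup (Fin n) F ⧸ Subgroup.center (SpecialLinearGroup (Fin n) F))⁻¹ := rfl
    rw [this, hab1.eq, mul_inv_cancel_right, mul_inv_cancel]
  rcases sl_main p n hn r hrp' H A B h1 h2 h3 with h | h
  · exact hane ((QuotientGroup.eq_one_iff A).2 h)
  · exact hb1ne ((QuotientGroup.eq_one_iff B).2 h)

end mat

end Cfsg.Agent.Helper39
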