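/-
helper39: CALL S2113 piece D1: commutators of the standard lifts `a t` of `X t 0 0` lie in the
section of `U₂`.
-/
import Mathlib
import Cfsg.Agent.Helper65.R3Defs

set_option autoImplicit false

namespace Cfsg.Agent.Helper39

open scoped commutatorElement
open Cfsg.Agent.Helper65

/-- (own copy of the field lemma) A biadditive pairing with `β t b = β 1 (φ t * b)` vanishes as
soon as `φ` is not additive somewhere. -/
theorem r3d_pair {K : Type*} [Field K] {A : Type*} [Group A] (β : K → K → A) (φ : K → K)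
    (hcomm : ∀ a b a' b', β a b * β a' b' = β a' b' * β a b)
    (hl : ∀ a a' b, β (a + a') b = β a b * β a' b) (hr : ∀ a b b', β a (b + b') = β a b * β a b')
    (hφ : ∀ t, t ≠ 0 → ∀ b, β t b = β 1 (φ t * b))
    (hw : ∃ t s : K, t ≠ 0 ∧ s ≠ 0 ∧ t + s ≠ 0 ∧ φ (t + s) ≠ φ t + φ s) : ∀ a b, β a b = 1 := by
  obtain ⟨t, s, ht, hs, hts, hne⟩ := hw
  have hg0 : β 1 0 = 1 := by
    have h := hr 1 0 0
    rw [add_zero] at h
    exact mul_eq_left.mp h.symm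
  have hgneg : ∀ b, β 1 (-b) = (β 1 b)⁻¹ := by
    intro b
    have h := hr 1 b (-b)
    rw [add_neg_cancel, hg0] at h
    exact eq_inv_of_mul_eq_one_right h.symm
  have key : ∀ b, β 1 ((φ (t + s) - φ t - φ s) * b) = 1 := by
    intro b
    have h1 := hl t s b
    rw [hφ (t + s) hts, hφ t ht, hφ s hs] at h1
    have h2 : (φ (t + s) - φ t - φ s) * b = φ (t + s) * b + (-(φ t * b) + -(φ s * b)) := by ring
    rw [h2, hr, hr, hgneg, hgneg, h1, hcomm 1 (φ t * b) 1 (φ s * b)]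
    group
  have hc : φ (t + s) - φ t - φ s ≠ 0 := by
    intro h0
    apply hne
    linear_combination h0
  have hg : ∀ b, β 1 b = 1 := by
    intro b
    have h := key ((φ (t + s) - φ t - φ s)⁻¹ * b)
    rwa [mul_inv_cancel_left₀ hc] at h
  intro a b
  by_cases ha : a = 0
  · subst ha
    have h := hl 0 0 b
    rw [add_zero] at h
    exact mul_eq_left.mp h.symm
  · rw [hφ a ha, hg]

section
variable {K : Type*} [Field K] [Fintype K] [CharP K 3] {G : Type*} [Group G] {Γ : Type*} [Group Γ]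

/-- PIECE D1 (uses B1, C2, F): commutators of the standard lifts `a t` of `X t 0 0` lie in the
section of `U₂`. -/
theorem r3_D1 (S : R3 K G Γ) (hq : 9 < Fintype.card K)
    (hB1 : ∀ x y : Γ, (∃ u v, S.σ x = S.X 0 u v) → (∃ u v, S.σ y = S.X 0 u v) → x * y = y * x)
    (Bc : K → K → Γ) (hBσ : ∀ u v, S.σ (Bc u v) = S.X 0 u v)
    (hBadd : ∀ u v u' v', Bc (u + u') (v + v') = Bc u v * Bc u' v')
    (hBeq : ∀ z : K, z ≠ 0 → ∀ τ : Γ, S.σ τ = S.η z →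
      ∀ u v, τ * Bc u v * τ⁻¹ = Bc (S.L z * z⁻¹ * u) (z * v))
    (hC2 : ∀ (a : Γ) (t u₁ v₁ : K), S.σ a = S.X t u₁ v₁ →
      ∀ u v, a * Bc u v * a⁻¹ = Bc u (v + t * u))
    (a : K → Γ) (ha : ∀ t, S.σ (a t) = S.X t 0 0) :
    ∀ t t' : K, ∃ u v, ⁅a t, a t'⁆ = Bc u v := by
  classical
  have hB0 : Bc 0 0 = 1 := by
    have h := hBadd 0 0 0 0
    rw [add_zero] at h
    exact mul_eq_left.mp h.symm
  have hBinv : ∀ u v, (Bc u v)⁻¹ = Bc (-u) (-v) := by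
    intro u v
    symm
    rw [eq_inv_iff_mul_eq_one, ← hBadd, neg_add_cancel, neg_add_cancel, hB0]
  -- the decomposition `g = k * Bc u v` with `k` in the kernel
  let Dec : Γ → Γ → Prop := fun g k => k ∈ S.σ.ker ∧ ∃ u v, g = k * Bc u v
  have huniq : ∀ g k k', Dec g k → Dec g k' → k = k' := by
    rintro g k k' ⟨hk, u, v, h1⟩ ⟨hk', u', v', h2⟩
    have h3 : S.σ (k * Bc u v) = S.σ (k' * Bc u' v') := by rw [← h1, ← h2]
    rw [map_mul, map_mul, MonoidHom.mem_ker.mp hk, MonoidHom.mem_ker.mp hk', one_mul, one_mul,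
      hBσ, hBσ] at h3
    obtain ⟨-, rfl, rfl⟩ := S.hinj _ _ _ _ _ _ h3
    rw [h1] at h2
    exact mul_right_cancel h2
  have hmul : ∀ g g' k k', Dec g k → Dec g' k' → Dec (g * g') (k * k') := by
    rintro g g' k k' ⟨hk, u, v, rfl⟩ ⟨hk', u', v', rfl⟩
    refine ⟨mul_mem hk hk', u + u', v + v', ?_⟩
    rw [hBadd]
    have e := S.ker_comm hk' (Bc u v)
    calc k * Bc u v * (k' * Bc u' v') = k * (Bc u v * k') * Bc u' v' := by group
      _ = k * (k' * Bc u v) * Bc u' v' := by rw [e]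
      _ = k * k' * (Bc u v * Bc u' v') := by group
  have hDB : ∀ u v, Dec (Bc u v) 1 := fun u v => ⟨one_mem _, u, v, (one_mul _).symm⟩
  have hDinv : ∀ g k, Dec g k → Dec g⁻¹ k⁻¹ := by
    rintro g k ⟨hk, u, v, rfl⟩
    refine ⟨inv_mem hk, -u, -v, ?_⟩
    rw [← hBinv, mul_inv_rev]
    exact S.ker_comm (inv_mem hk) _
  have hDconjU : ∀ h g k, (∃ t u v, S.σ h = S.X t u v) → Dec g k → Dec (h * g * h⁻¹) k := by
    rintro h g k ⟨t, u₁, v₁, hh⟩ ⟨hk, u, v, rfl⟩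
    refine ⟨hk, u, v + t * u, ?_⟩
    rw [← hC2 h t u₁ v₁ hh u v]
    have e := S.ker_comm hk h
    calc h * (k * Bc u v) * h⁻¹ = (h * k) * Bc u v * h⁻¹ := by group
      _ = (k * h) * Bc u v * h⁻¹ := by rw [e]
      _ = k * (h * Bc u v * h⁻¹) := by group
  have hDconjT : ∀ (τ g k : Γ) (z : K), z ≠ 0 → S.σ τ = S.η z → Dec g k →
      Dec (τ * g * τ⁻¹) k := by
    rintro τ g k z hz hτ ⟨hk, u, v, rfl⟩
    refine ⟨hk, S.L z * z⁻¹ * u, z * v, ?_⟩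
    rw [← hBeq z hz τ hτ u v]
    have e := S.ker_comm hk τ
    calc τ * (k * Bc u v) * τ⁻¹ = (τ * k) * Bc u v * τ⁻¹ := by group
      _ = (k * τ) * Bc u v * τ⁻¹ := by rw [e]
      _ = k * (τ * Bc u v * τ⁻¹) := by group
  -- the commutator of `X t 0 0` and `X t' 0 0` lies in `U₂`
  have hXcongr : ∀ a₁ a₂ b₁ b₂ c₁ c₂ : K, a₁ = a₂ → b₁ = b₂ → c₁ = c₂ →
      S.X a₁ b₁ c₁ = S.X a₂ b₂ c₂ := by
    rintro a₁ a₂ b₁ b₂ c₁ c₂ rfl rfl rfl
    rfl
  have hXc : ∀ t t' : K, ∃ α β, ⁅S.X t 0 0, S.X t' 0 0⁆ = S.X 0 α β := by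
    intro t t'
    refine ⟨-(t * S.L t') + t' * S.L t,
      (t * t' * S.L t' - t ^ 2 * S.L t') - (t' * t * S.L t - t' ^ 2 * S.L t)
        + (t' + t) * (-(t * S.L t') + t' * S.L t), ?_⟩
    have h1 : S.X 0 (-(t * S.L t') + t' * S.L t)
        ((t * t' * S.L t' - t ^ 2 * S.L t') - (t' * t * S.L t - t' ^ 2 * S.L t)
          + (t' + t) * (-(t * S.L t') + t' * S.L t)) * (S.X t' 0 0 * S.X t 0 0)
        = S.X t 0 0 * S.X t' 0 0 := by
      rw [S.hX t' 0 0 t 0 0, S.X_0mul, S.hX t 0 0 t' 0 0]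
      apply hXcongr <;> ring
    rw [commutatorElement_def, ← h1]
    group
  have hex : ∀ t t', ∃ k, Dec ⁅a t, a t'⁆ k := by
    intro t t'
    obtain ⟨α, β, hαβ⟩ := hXc t t'
    have h1 : S.σ (Bc α β) = S.σ ⁅a t, a t'⁆ := by
      rw [map_commutatorElement, ha, ha, hαβ, hBσ]
    obtain ⟨k, hk, hk2⟩ := S.exists_ker h1
    exact ⟨k, hk, α, β, by rw [hk2]; exact S.ker_comm hk _⟩
  choose ξ hξ using hex
  have hξcen : ∀ t t', ξ t t' ∈ Subgroup.center Γ := fun t t' => S.hcen (hξ t t').1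
  -- additivity in the first variable
  have hadd : ∀ t1 t2 t', ξ (t1 + t2) t' = ξ t1 t' * ξ t2 t' := by
    intro t1 t2 t'
    obtain ⟨U, V, hUV⟩ : ∃ U V, S.X t1 0 0 * S.X t2 0 0 = S.X (t1 + t2) U V :=
      ⟨_, _, S.hX t1 0 0 t2 0 0⟩
    have h1 : S.σ (a (t1 + t2)) = S.σ (a t1 * a t2 * Bc (-U) (-V)) := by
      rw [map_mul, map_mul, ha, ha, ha, hBσ, hUV, S.X_mul0, add_neg_cancel, add_neg_cancel]
    have h2 : ⁅a (t1 + t2), a t'⁆ = ⁅a t1 * a t2 * Bc (-U) (-V), a t'⁆ := S.comm_congr h1 rfl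
    have e : ⁅a t1 * a t2 * Bc (-U) (-V), a t'⁆ =
        ((a t1 * a t2) * (Bc (-U) (-V) * (a t' * (Bc (-U) (-V))⁻¹ * (a t')⁻¹)) * (a t1 * a t2)⁻¹) *
        ((a t1 * ⁅a t2, a t'⁆ * (a t1)⁻¹) * ⁅a t1, a t'⁆) := by
      simp only [commutatorElement_def]
      group
    have hU12 : ∃ t u v, S.σ (a t1 * a t2) = S.X t u v :=
      ⟨_, _, _, by rw [map_mul, ha, ha, hUV]⟩
    have hd1 : Dec ((a t1 * a t2) * (Bc (-U) (-V) * (a t' * (Bc (-U) (-V))⁻¹ * (a t')⁻¹))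
        * (a t1 * a t2)⁻¹) (1 * 1⁻¹) :=
      hDconjU _ _ _ hU12 (hmul _ _ _ _ (hDB _ _)
        (hDconjU _ _ _ ⟨t', 0, 0, ha t'⟩ (hDinv _ _ (hDB _ _))))
    have hd2 : Dec (a t1 * ⁅a t2, a t'⁆ * (a t1)⁻¹) (ξ t2 t') :=
      hDconjU _ _ _ ⟨t1, 0, 0, ha t1⟩ (hξ t2 t')
    have hd3 := hmul _ _ _ _ hd1 (hmul _ _ _ _ hd2 (hξ t1 t'))
    rw [← e, ← h2] at hd3
    have h4 := huniq _ _ _ (hξ (t1 + t2) t') hd3
    rw [h4, inv_one, one_mul, one_mul]
    exact Subgroup.mem_center_iff.mp (hξcen t1 t') (ξ t2 t')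
  -- antisymmetry
  have hanti : ∀ t t', ξ t' t = (ξ t t')⁻¹ := by
    intro t t'
    have e : ⁅a t', a t⁆ = ⁅a t, a t'⁆⁻¹ := by
      simp only [commutatorElement_def]
      group
    have hd := hDinv _ _ (hξ t t')
    rw [← e] at hd
    exact huniq _ _ _ (hξ t' t) hd
  have hadd2 : ∀ t b b', ξ t (b + b') = ξ t b * ξ t b' := by
    intro t b b'
    rw [hanti (b + b') t, hadd, mul_inv_rev, ← hanti b t, ← hanti b' t]
    exact Subgroup.mem_center_iff.mp (hξcen t b) (ξ t b')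
  -- invariance under the torus
  have hinv1 : ∀ (z : K), z ≠ 0 → ∀ t t',
      ξ ((S.L z)⁻¹ * z ^ 2 * t) ((S.L z)⁻¹ * z ^ 2 * t') = ξ t t' := by
    intro z hz t t'
    obtain ⟨τ, hτ⟩ := S.htor z hz
    have h1 : ∀ s, S.σ (τ * a s * τ⁻¹) = S.σ (a ((S.L z)⁻¹ * z ^ 2 * s)) := by
      intro s
      rw [map_mul, map_mul, map_inv, hτ, ha, ha, S.hη z hz, mul_zero, mul_zero]
    have e : τ * ⁅a t, a t'⁆ * τ⁻¹ = ⁅τ * a t * τ⁻¹, τ * a t' * τ⁻¹⁆ := by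
      simp only [commutatorElement_def]
      group
    have hd := hDconjT τ _ _ z hz hτ (hξ t t')
    rw [e, S.comm_congr (h1 t) (h1 t')] at hd
    exact huniq _ _ _ (hξ _ _) hd
  have hinv2 : ∀ t0 : K, t0 ≠ 0 → ∀ t t', ξ (t0 * t) (t0 * t') = ξ t t' := by
    intro t0 ht0 t t'
    have hL0 : S.L t0 ≠ 0 := (map_ne_zero S.L).mpr ht0
    have hz : S.L t0 * t0 ^ 2 ≠ 0 := mul_ne_zero hL0 (pow_ne_zero 2 ht0)
    have h1 := hinv1 _ hz t t'
    have h2 : (S.L (S.L t0 * t0 ^ 2))⁻¹ * (S.L t0 * t0 ^ 2) ^ 2 = t0 := by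
      rw [map_mul, map_pow, S.hLL]
      field_simp
    rw [h2] at h1
    exact h1
  -- the witness
  have h3 : (3 : K) = 0 := by
    have := CharP.cast_eq_zero K 3
    exact_mod_cast this
  obtain ⟨c, hc⟩ : ∃ c : K, c ∉ ({0, 1, -1} : Finset K) := by
    by_contra hcon
    simp only [not_exists, not_not] at hcon
    have hsub : (Finset.univ : Finset K) ⊆ ({0, 1, -1} : Finset K) := fun x _ => hcon x
    have h1 := Finset.card_le_card hsub
    have h2 : ({0, 1, -1} : Finset K).card ≤ 3 := Finset.card_le_three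
    rw [Finset.card_univ] at h1
    omega
  simp only [Finset.mem_insert, Finset.mem_singleton, not_or] at hc
  obtain ⟨hc0, hc1, hcm1⟩ := hc
  have hc1' : (1 : K) + c ≠ 0 := by
    intro h0
    apply hcm1
    linear_combination h0
  have hw : ∃ t s : K, t ≠ 0 ∧ s ≠ 0 ∧ t + s ≠ 0 ∧ (t + s)⁻¹ ≠ t⁻¹ + s⁻¹ := by
    refine ⟨1, c, one_ne_zero, hc0, hc1', ?_⟩
    intro h
    have h4 : c = (1 + c) * c * (1 + c)⁻¹ := by field_simp
    rw [h, inv_one] at h4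
    have h5 : (1 + c) * c * (1 + c⁻¹) = (1 + c) * (c + 1) := by field_simp
    rw [h5] at h4
    have h6 : (c - 1) ^ 2 = 0 := by linear_combination (-1 : K) * h4 - c * h3
    exact hc1 (sub_eq_zero.mp ((pow_eq_zero_iff (two_ne_zero)).mp h6))
  have hone := r3d_pair ξ (fun t => t⁻¹)
    (fun a₁ b₁ a₂ b₂ => Subgroup.mem_center_iff.mp (hξcen a₂ b₂) (ξ a₁ b₁))
    hadd hadd2
    (fun t ht b => by
      have h := hinv2 t ht 1 (t⁻¹ * b)
      rw [mul_one, mul_inv_cancel_left₀ ht] at h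
      exact h) hw
  intro t t'
  have h1 : ξ t t' = 1 := hone t t'
  obtain ⟨-, u, v, h2⟩ := hξ t t'
  exact ⟨u, v, by rw [h2, h1, one_mul]⟩

end

end Cfsg.Agent.Helper39
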