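/-
helper39: CALL S2113 piece D2: all commutators of lifts of `U` lie in the section of `U₂`.
-/
import Mathlib
import Cfsg.Agent.Helper65.R3Defs

set_option autoImplicit false

namespace Cfsg.Agent.Helper39

open scoped commutatorElement
open Cfsg.Agent.Helper65

section
variable {K : Type*} [Field K] [Fintype K] [CharP K 3] {G : Type*} [Group G] {Γ : Type*} [Group Γ]

/-- PIECE D2 (uses B1, C2, D1): all commutators of lifts of `U` lie in the section of `U₂`. -/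
theorem r3_D2 (S : R3 K G Γ)
    (hB1 : ∀ x y : Γ, (∃ u v, S.σ x = S.X 0 u v) → (∃ u v, S.σ y = S.X 0 u v) → x * y = y * x)
    (Bc : K → K → Γ) (hBσ : ∀ u v, S.σ (Bc u v) = S.X 0 u v)
    (hBadd : ∀ u v u' v', Bc (u + u') (v + v') = Bc u v * Bc u' v')
    (hC2 : ∀ (a : Γ) (t u₁ v₁ : K), S.σ a = S.X t u₁ v₁ →
      ∀ u v, a * Bc u v * a⁻¹ = Bc u (v + t * u))
    (a : K → Γ) (ha : ∀ t, S.σ (a t) = S.X t 0 0)
    (hD1 : ∀ t t' : K, ∃ u v, ⁅a t, a t'⁆ = Bc u v) :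
    ∀ x y : Γ, (∃ t u v, S.σ x = S.X t u v) → (∃ t u v, S.σ y = S.X t u v) →
      ∃ u v, ⁅x, y⁆ = Bc u v := by
  have hB0 : Bc 0 0 = 1 := by
    have h := hBadd 0 0 0 0
    rw [add_zero] at h
    exact mul_eq_left.mp h.symm
  have hBinv : ∀ u v, (Bc u v)⁻¹ = Bc (-u) (-v) := by
    intro u v
    symm
    rw [eq_inv_iff_mul_eq_one, ← hBadd, neg_add_cancel, neg_add_cancel, hB0]
  -- closure properties of the range of `Bc`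
  have hmul : ∀ g g' : Γ, (∃ u v, g = Bc u v) → (∃ u v, g' = Bc u v) →
      ∃ u v, g * g' = Bc u v := by
    rintro g g' ⟨u, v, rfl⟩ ⟨u', v', rfl⟩
    exact ⟨u + u', v + v', (hBadd u v u' v').symm⟩
  have hinv : ∀ g : Γ, (∃ u v, g = Bc u v) → ∃ u v, g⁻¹ = Bc u v := by
    rintro g ⟨u, v, rfl⟩
    exact ⟨-u, -v, hBinv u v⟩
  have hconj : ∀ (h g : Γ), (∃ t u v, S.σ h = S.X t u v) → (∃ u v, g = Bc u v) →
      ∃ u v, h * g * h⁻¹ = Bc u v := by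
    rintro h g ⟨t, u₁, v₁, hh⟩ ⟨u, v, rfl⟩
    exact ⟨u, v + t * u, hC2 h t u₁ v₁ hh u v⟩
  rintro x y ⟨t, u, v, hx⟩ ⟨t', u', v', hy⟩
  have hx' : S.σ x = S.σ (a t * Bc u v) := by rw [hx, map_mul, ha, hBσ, ← S.X_split]
  have hy' : S.σ y = S.σ (a t' * Bc u' v') := by rw [hy, map_mul, ha, hBσ, ← S.X_split]
  rw [S.comm_congr hx' hy']
  have hAU : ∃ t₀ u₀ v₀, S.σ (a t) = S.X t₀ u₀ v₀ := ⟨t, 0, 0, ha t⟩
  have hA'U : ∃ t₀ u₀ v₀, S.σ (a t') = S.X t₀ u₀ v₀ := ⟨t', 0, 0, ha t'⟩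
  have hyU : ∃ t₀ u₀ v₀, S.σ (a t' * Bc u' v') = S.X t₀ u₀ v₀ :=
    ⟨t', u', v', by rw [map_mul, ha, hBσ, ← S.X_split]⟩
  have hw : ∃ u₀ v₀, Bc u v = Bc u₀ v₀ := ⟨u, v, rfl⟩
  have hw' : ∃ u₀ v₀, Bc u' v' = Bc u₀ v₀ := ⟨u', v', rfl⟩
  have e : ⁅a t * Bc u v, a t' * Bc u' v'⁆ =
      (a t * (Bc u v * ((a t' * Bc u' v') * (Bc u v)⁻¹ * (a t' * Bc u' v')⁻¹)) * (a t)⁻¹) *
      (⁅a t, a t'⁆ * (a t' * ((a t * Bc u' v' * (a t)⁻¹) * (Bc u' v')⁻¹) * (a t')⁻¹)) := by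
    simp only [commutatorElement_def]
    group
  rw [e]
  exact hmul _ _ (hconj _ _ hAU (hmul _ _ hw (hconj _ _ hyU (hinv _ hw))))
    (hmul _ _ (hD1 t t') (hconj _ _ hA'U (hmul _ _ (hconj _ _ hAU hw') (hinv _ hw'))))

end

end Cfsg.Agent.Helper39
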