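import Mathlib

/-!
# PIECE B of CALL S2409 (helper17) — helper39

Orders of three monomials in a generator of the multiplicative group of the field with
`3 ^ (2 m + 1)` elements.
-/

set_option autoImplicit false

namespace Cfsg.Agent.Helper39

theorem ree_lam_ne_one {K : Type*} [Field K] [Fintype K] {m : ℕ} (hK : Fintype.card K = 3 ^ (2 * m + 1))
    {z : K} (hz : z ≠ 0) (hz1 : z ≠ 1) : (z ^ 3 ^ (m + 1))⁻¹ * z ^ 2 ≠ 1 := by
  intro h
  have hL0 : z ^ 3 ^ (m + 1) ≠ 0 := pow_ne_zero _ hz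
  have h1 : z ^ 2 = z ^ 3 ^ (m + 1) := by
    have h2 := congrArg (fun t => z ^ 3 ^ (m + 1) * t) h
    simp only [mul_one] at h2
    rw [← mul_assoc, mul_inv_cancel₀ hL0, one_mul] at h2
    exact h2
  have hq : z ^ 3 ^ (2 * m + 1) = z := by
    rw [← hK]
    exact FiniteField.pow_card z
  -- `a = z ^ 3 ^ m`
  have ha2 : (z ^ 3 ^ m) ^ 2 = z := by
    calc (z ^ 3 ^ m) ^ 2 = (z ^ 2) ^ 3 ^ m := by rw [← pow_mul, ← pow_mul, mul_comm]
      _ = (z ^ 3 ^ (m + 1)) ^ 3 ^ m := by rw [h1]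
      _ = z ^ 3 ^ (2 * m + 1) := by
          rw [← pow_mul, ← pow_add]
          congr 2
          omega
      _ = z := hq
  have ha3 : (z ^ 3 ^ m) ^ 3 = (z ^ 3 ^ m) ^ 4 := by
    calc (z ^ 3 ^ m) ^ 3 = z ^ 3 ^ (m + 1) := by rw [← pow_mul, ← pow_succ]
      _ = z ^ 2 := h1.symm
      _ = ((z ^ 3 ^ m) ^ 2) ^ 2 := by rw [ha2]
      _ = (z ^ 3 ^ m) ^ 4 := by rw [← pow_mul]
  have ha0 : z ^ 3 ^ m ≠ 0 := pow_ne_zero _ hz
  have ha1 : z ^ 3 ^ m = 1 := by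
    have h3 : (z ^ 3 ^ m) ^ 3 * (z ^ 3 ^ m - 1) = 0 := by
      rw [mul_sub, mul_one, ← pow_succ, ← ha3, sub_self]
    rcases mul_eq_zero.mp h3 with h4 | h4
    · exact absurd h4 (pow_ne_zero _ ha0)
    · exact sub_eq_zero.mp h4
  apply hz1
  rw [← ha2, ha1, one_pow]

theorem exists_ree_gen {K : Type*} [Field K] [Fintype K] {m : ℕ} (hm : 1 ≤ m)
    (hK : Fintype.card K = 3 ^ (2 * m + 1)) :
    ∃ z : K, z ≠ 0 ∧ z ≠ 1 ∧ z ^ 3 ≠ z ∧
      Fintype.card K < 3 * (orderOf z + 1) ∧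
      Fintype.card K < 3 * (orderOf ((z ^ 3 ^ (m + 1))⁻¹ * z ^ 2) + 1) ∧
      Fintype.card K < 3 * (orderOf (z ^ 3 ^ (m + 1) * z⁻¹) + 1) := by
  classical
  have hq27 : 27 ≤ Fintype.card K := by
    rw [hK]
    calc 27 = 3 ^ 3 := by norm_num
      _ ≤ 3 ^ (2 * m + 1) := Nat.pow_le_pow_right (by norm_num) (by omega)
  obtain ⟨u, hu⟩ := IsCyclic.exists_generator (α := Kˣ)
  have hou : orderOf u = Fintype.card K - 1 := by
    rw [orderOf_eq_card_of_forall_mem_zpowers hu, Nat.card_eq_fintype_card, Fintype.card_units]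
  have hoz : orderOf (u : K) = Fintype.card K - 1 := by
    rw [orderOf_units, hou]
  have hz0 : (u : K) ≠ 0 := u.ne_zero
  have hpowq : ∀ w : K, w ^ 3 ^ (2 * m + 1) = w := by
    intro w
    rw [← hK]
    exact FiniteField.pow_card w
  -- orders of non-zero elements are positive
  have hopos : ∀ w : K, w ≠ 0 → 0 < orderOf w := by
    intro w hw
    have h1 : orderOf ((Units.mk0 w hw : Kˣ) : K) = orderOf (Units.mk0 w hw) := orderOf_units
    rw [Units.val_mk0] at h1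
    rw [h1]
    exact orderOf_pos _
  refine ⟨(u : K), hz0, ?_, ?_, ?_, ?_, ?_⟩
  · intro h
    rw [h, orderOf_one] at hoz
    omega
  · intro h
    have h2 : (u : K) ^ 2 = 1 := by
      have h3 : (u : K) * ((u : K) ^ 2 - 1) = 0 := by
        rw [mul_sub, mul_one, ← pow_succ', h, sub_self]
      rcases mul_eq_zero.mp h3 with h4 | h4
      · exact absurd h4 hz0
      · exact sub_eq_zero.mp h4
    have h5 := orderOf_dvd_of_pow_eq_one h2
    have h6 := Nat.le_of_dvd (by norm_num) h5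
    omega
  · rw [hoz]
    omega
  · -- `lam`
    have hlam0 : ((u : K) ^ 3 ^ (m + 1))⁻¹ * (u : K) ^ 2 ≠ 0 :=
      mul_ne_zero (inv_ne_zero (pow_ne_zero _ hz0)) (pow_ne_zero _ hz0)
    have ho := hopos _ hlam0
    have h1 := pow_orderOf_eq_one (((u : K) ^ 3 ^ (m + 1))⁻¹ * (u : K) ^ 2)
    have h2 : ((((u : K) ^ orderOf (((u : K) ^ 3 ^ (m + 1))⁻¹ * (u : K) ^ 2)) ^ 3 ^ (m + 1))⁻¹
        * ((u : K) ^ orderOf (((u : K) ^ 3 ^ (m + 1))⁻¹ * (u : K) ^ 2)) ^ 2) = 1 := by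
      rw [← h1, mul_pow, inv_pow, ← pow_mul, ← pow_mul, ← pow_mul, ← pow_mul,
        mul_comm (3 ^ (m + 1)), mul_comm 2]
    have h3 : (u : K) ^ orderOf (((u : K) ^ 3 ^ (m + 1))⁻¹ * (u : K) ^ 2) = 1 := by
      by_contra hne
      exact ree_lam_ne_one hK (pow_ne_zero _ hz0) hne h2
    have h4 := orderOf_dvd_of_pow_eq_one h3
    rw [hoz] at h4
    have h5 := Nat.le_of_dvd ho h4
    omega
  · -- `gam`
    have hgam0 : (u : K) ^ 3 ^ (m + 1) * (u : K)⁻¹ ≠ 0 :=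
      mul_ne_zero (pow_ne_zero _ hz0) (inv_ne_zero hz0)
    have ho := hopos _ hgam0
    have h1 := pow_orderOf_eq_one ((u : K) ^ 3 ^ (m + 1) * (u : K)⁻¹)
    have hw0 : (u : K) ^ orderOf ((u : K) ^ 3 ^ (m + 1) * (u : K)⁻¹) ≠ 0 := pow_ne_zero _ hz0
    have h2 : ((u : K) ^ orderOf ((u : K) ^ 3 ^ (m + 1) * (u : K)⁻¹)) ^ 3 ^ (m + 1)
        = (u : K) ^ orderOf ((u : K) ^ 3 ^ (m + 1) * (u : K)⁻¹) := by
      have h3 : ((u : K) ^ orderOf ((u : K) ^ 3 ^ (m + 1) * (u : K)⁻¹)) ^ 3 ^ (m + 1)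
          * ((u : K) ^ orderOf ((u : K) ^ 3 ^ (m + 1) * (u : K)⁻¹))⁻¹ = 1 := by
        rw [← h1, mul_pow, inv_pow, ← pow_mul, ← pow_mul, mul_comm (3 ^ (m + 1))]
      exact eq_of_mul_inv_eq_one h3
    -- `w = w ^ 3 ^ m`
    have h4 : (u : K) ^ orderOf ((u : K) ^ 3 ^ (m + 1) * (u : K)⁻¹)
        = ((u : K) ^ orderOf ((u : K) ^ 3 ^ (m + 1) * (u : K)⁻¹)) ^ 3 ^ m := by
      have h5 := congrArg (fun t => t ^ 3 ^ m) h2
      rw [← pow_mul, ← pow_add, show m + 1 + m = 2 * m + 1 by omega, hpowq] at h5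
      exact h5
    have h6 : ((u : K) ^ orderOf ((u : K) ^ 3 ^ (m + 1) * (u : K)⁻¹)) ^ 3
        = (u : K) ^ orderOf ((u : K) ^ 3 ^ (m + 1) * (u : K)⁻¹) := by
      conv_lhs => rw [h4]
      rw [← pow_mul, ← pow_succ]
      exact h2
    have h7 : ((u : K) ^ orderOf ((u : K) ^ 3 ^ (m + 1) * (u : K)⁻¹)) ^ 2 = 1 := by
      have h8 : (u : K) ^ orderOf ((u : K) ^ 3 ^ (m + 1) * (u : K)⁻¹)
          * (((u : K) ^ orderOf ((u : K) ^ 3 ^ (m + 1) * (u : K)⁻¹)) ^ 2 - 1) = 0 := by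
        rw [mul_sub, mul_one, ← pow_succ', h6, sub_self]
      rcases mul_eq_zero.mp h8 with h9 | h9
      · exact absurd h9 hw0
      · exact sub_eq_zero.mp h9
    rw [← pow_mul] at h7
    have h10 := orderOf_dvd_of_pow_eq_one h7
    rw [hoz] at h10
    have h11 := Nat.le_of_dvd (by omega) h10
    omega

end Cfsg.Agent.Helper39
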