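import Mathlib
import Cfsg.Agent.Helper8.S4504Defs
import Cfsg.Agent.S0996
import Cfsg.Agent.S0252
import Cfsg.Agent.S0253
import Cfsg.Agent.Helper57.ListSub
import Cfsg.Agent.Helper5.DkMin

/-!
CALL S4504 (helper8), piece IDENT (helper39): a perfect-modulo-centre group with a self-centralising
Sylow subgroup of prime order `p = 2 d + 1`, `p + 1` Sylow `p`-subgroups and normaliser of order
`p d |Z|` has central quotient `PSL(2, p)`.  Route: S0996 on `H / Z(H)`; the field of order `p - 1`
only occurs for `p = 5` (orders), where `PSL(2,4) = A5 = PSL(2,5)` (S0252, S0253).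
-/

set_option autoImplicit false
open Cfsg Cfsg.Agent.Helper8
open scoped ComplexConjugate

universe u

namespace Cfsg.Agent.Helper39

section
variable {H : Type u} [Group H] [Finite H]

theorem ident39_zpowers_normal {z : H} (hz : z ∈ Subgroup.center H) :
    (Subgroup.zpowers z).Normal := by
  constructor
  intro n hn g
  obtain ⟨k, rfl⟩ := Subgroup.mem_zpowers_iff.mp hn
  have hc : z ^ k ∈ Subgroup.center H := Subgroup.zpow_mem _ hz k
  rw [Subgroup.mem_center_iff] at hc
  rw [hc g, mul_inv_cancel_right]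
  exact hn

theorem ident39_not_center {p : ℕ} {x : H} (hg : S4504Grp p x) : x ∉ Subgroup.center H :=
  fun hx => hg.hnn (ident39_zpowers_normal hx)

theorem ident39_sylow_card {p : ℕ} [Fact p.Prime] {x : H} (hg : S4504Grp p x) (P : Sylow p H) :
    Nat.card P = p := by
  have h1 := Sylow.card_eq_multiplicity P
  have hdvd : p ∣ Nat.card H := by rw [← hg.hx]; exact orderOf_dvd_natCard x
  have hfac : (Nat.card H).factorization p = 1 := by
    have hpos : Nat.card H ≠ 0 := Nat.card_pos.ne'
    have hp : p.Prime := Fact.out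
    have h2 : 1 ≤ (Nat.card H).factorization p :=
      (hp.dvd_iff_one_le_factorization hpos).mp hdvd
    have h3 : ¬ 2 ≤ (Nat.card H).factorization p := by
      intro h
      exact hg.hsq ((hp.pow_dvd_iff_le_factorization hpos).mpr h)
    omega
  rw [h1, hfac, pow_one]

theorem ident39_exists_sylow {p : ℕ} [Fact p.Prime] {x : H} (hg : S4504Grp p x) :
    ∃ P : Sylow p H, (P : Subgroup H) = Subgroup.zpowers x := by
  have hpg : IsPGroup p (Subgroup.zpowers x) := by
    apply IsPGroup.of_card (n := 1)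
    rw [Nat.card_zpowers, hg.hx, pow_one]
  obtain ⟨P, hP⟩ := hpg.exists_le_sylow
  refine ⟨P, ?_⟩
  symm
  apply Subgroup.eq_of_le_of_card_ge hP
  rw [ident39_sylow_card hg P, Nat.card_zpowers, hg.hx]

theorem ident39_center_pfree {p : ℕ} [Fact p.Prime] {x : H} (hg : S4504Grp p x) :
    ∀ z ∈ Subgroup.center H, z ^ p = 1 → z = 1 := by
  intro z hz hzp
  by_contra hz1
  have hp : p.Prime := Fact.out
  have hord : orderOf z = p := orderOf_eq_prime hzp hz1
  have hpg : IsPGroup p (Subgroup.zpowers z) := by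
    apply IsPGroup.of_card (n := 1)
    rw [Nat.card_zpowers, hord, pow_one]
  obtain ⟨Q, hQ⟩ := hpg.exists_le_sylow
  have hQe : Subgroup.zpowers z = (Q : Subgroup H) := by
    apply Subgroup.eq_of_le_of_card_ge hQ
    rw [ident39_sylow_card hg Q, Nat.card_zpowers, hord]
  obtain ⟨P, hP⟩ := ident39_exists_sylow hg
  haveI hQn : (Q : Subgroup H).Normal := by
    rw [← hQe]
    exact ident39_zpowers_normal hz
  obtain ⟨g, hgPQ⟩ := MulAction.exists_smul_eq H Q P
  have hPQ : P = Q := by rw [← hgPQ]; exact Sylow.smul_eq_of_normal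
  apply hg.hnn
  rw [← hP, hPQ]
  exact hQn

theorem ident39_perfect {p : ℕ} {x : H} (hg : S4504Grp p x) :
    commutator H = ⊤ := by
  by_cases hx : x ∈ commutator H
  · exact hg.htop _ inferInstance hx
  · exfalso
    have hC : commutator H ≤ Subgroup.center H := hg.hcen _ inferInstance hx
    have hLn : (Subgroup.zpowers x ⊔ commutator H).Normal := by
      constructor
      intro n hn g
      have h1 : g * n * g⁻¹ = (g * n * g⁻¹ * n⁻¹) * n := by group
      rw [h1]
      apply Subgroup.mul_mem _ _ hn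
      apply (le_sup_right : commutator H ≤ _)
      rw [commutator_def]
      exact Subgroup.commutator_mem_commutator (Subgroup.mem_top g) (Subgroup.mem_top n)
    have hLtop := hg.htop _ hLn
      ((le_sup_left : Subgroup.zpowers x ≤ _) (Subgroup.mem_zpowers x))
    have hle : Subgroup.zpowers x ⊔ commutator H ≤ Subgroup.centralizer ({x} : Set H) := by
      apply sup_le
      · rw [Subgroup.zpowers_le, Subgroup.mem_centralizer_iff]
        intro h hh
        rw [Set.mem_singleton_iff] at hh
        rw [hh]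
      · intro c hc
        have h2 := hC hc
        rw [Subgroup.mem_center_iff] at h2
        rw [Subgroup.mem_centralizer_iff]
        intro h hh
        rw [Set.mem_singleton_iff] at hh
        rw [hh]
        exact h2 x
    rw [hLtop] at hle
    apply ident39_not_center hg
    rw [Subgroup.mem_center_iff]
    intro g
    have h3 := hle (Subgroup.mem_top g)
    rw [Subgroup.mem_centralizer_iff] at h3
    exact (h3 x (Set.mem_singleton x)).symm

theorem ident39_quot_perfect (hperf : commutator H = ⊤) :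
    commutator (H ⧸ Subgroup.center H) = ⊤ := by
  rw [commutator_def]
  have h1 : Subgroup.map (QuotientGroup.mk' (Subgroup.center H)) ⊤ = ⊤ :=
    Subgroup.map_top_of_surjective _ (QuotientGroup.mk'_surjective _)
  rw [← h1, ← Subgroup.map_commutator, ← commutator_def, hperf]

theorem ident39_quot_order {p : ℕ} [Fact p.Prime] {x : H} (hg : S4504Grp p x) :
    orderOf (QuotientGroup.mk' (Subgroup.center H) x) = p := by
  apply orderOf_eq_prime
  · rw [← map_pow, ← hg.hx, pow_orderOf_eq_one, map_one]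
  · intro h
    rw [QuotientGroup.mk'_apply, QuotientGroup.eq_one_iff] at h
    exact ident39_not_center hg h

theorem ident39_quot_cent {p : ℕ} [Fact p.Prime] {x : H} (hg : S4504Grp p x)
    (hcent : ∀ g : H, g * x = x * g → ∃ i : ℕ, ∃ z ∈ Subgroup.center H, g = x ^ i * z) :
    Subgroup.centralizer
        ({QuotientGroup.mk' (Subgroup.center H) x} : Set (H ⧸ Subgroup.center H))
      = Subgroup.zpowers (QuotientGroup.mk' (Subgroup.center H) x) := by
  apply le_antisymm
  · intro gb hgb
    obtain ⟨g, rfl⟩ := QuotientGroup.mk'_surjective (Subgroup.center H) gb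
    rw [Subgroup.mem_centralizer_iff] at hgb
    have h1 := hgb _ (Set.mem_singleton _)
    rw [← map_mul, ← map_mul, QuotientGroup.mk'_apply, QuotientGroup.mk'_apply,
      QuotientGroup.eq] at h1
    obtain ⟨z, hz⟩ : ∃ z, z = (x * g)⁻¹ * (g * x) := ⟨_, rfl⟩
    rw [← hz] at h1
    have hgx : g * x = x * g * z := by rw [hz]; group
    have hzc := Subgroup.mem_center_iff.mp h1
    have hconj : g * x * g⁻¹ = x * z := by
      rw [hgx, mul_assoc x g z, hzc g, ← mul_assoc, mul_inv_cancel_right]
    have hpow : (g * x * g⁻¹) ^ p = 1 := by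
      rw [conj_pow, ← hg.hx, pow_orderOf_eq_one, mul_one, mul_inv_cancel]
    have hcomm : Commute x z := hzc x
    rw [hconj, hcomm.mul_pow] at hpow
    have hxp : x ^ p = 1 := by rw [← hg.hx, pow_orderOf_eq_one]
    rw [hxp, one_mul] at hpow
    have hz1 : z = 1 := ident39_center_pfree hg z h1 hpow
    rw [hz1, mul_one] at hgx
    obtain ⟨i, w, hw, hgi⟩ := hcent g hgx
    rw [Subgroup.mem_zpowers_iff]
    refine ⟨i, ?_⟩
    have hw1 : QuotientGroup.mk' (Subgroup.center H) w = 1 := by
      rw [QuotientGroup.mk'_apply, QuotientGroup.eq_one_iff]; exact hw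
    rw [hgi, map_mul, map_pow, zpow_natCast, hw1, mul_one]
  · rw [Subgroup.zpowers_le, Subgroup.mem_centralizer_iff]
    intro h hh
    rw [Set.mem_singleton_iff] at hh
    rw [hh]

theorem ident39_quot_sylow (p : ℕ) [Fact p.Prime] :
    Nat.card (Sylow p (H ⧸ Subgroup.center H)) ≤ Nat.card (Sylow p H) :=
  Nat.card_le_card_of_surjective _
    (Sylow.mapSurjective_surjective (QuotientGroup.mk'_surjective (Subgroup.center H)) p)

theorem ident39_quot_card {p : ℕ} [Fact p.Prime] {x : H} (hg : S4504Grp p x) (d : ℕ)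
    (hsyl : Nat.card (Sylow p H) = p + 1)
    (hnormcard : Nat.card (Subgroup.normalizer ((Subgroup.zpowers x : Subgroup H) : Set H))
      = p * d * Nat.card (Subgroup.center H)) :
    Nat.card (H ⧸ Subgroup.center H) = (p + 1) * (p * d) := by
  obtain ⟨P, hP⟩ := ident39_exists_sylow hg
  have h1 : Nat.card (Sylow p H) = (Subgroup.normalizer ((P : Subgroup H) : Set H)).index :=
    Sylow.card_eq_index_normalizer P
  have h2 := Subgroup.index_mul_card (Subgroup.normalizer ((P : Subgroup H) : Set H))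
  rw [hP] at h1 h2
  rw [← h1, hsyl, hnormcard] at h2
  have h3 := Subgroup.card_eq_card_quotient_mul_card_subgroup (Subgroup.center H)
  have hpos : 0 < Nat.card (Subgroup.center H) := Nat.card_pos
  apply Nat.eq_of_mul_eq_mul_right hpos
  rw [← h3, ← h2]
  ring

theorem ident39_arith {d m : ℕ} (hd2 : 2 ≤ d) (hm : 2 * d + 1 = 2 ^ m + 1)
    (hc : (2 * d + 1 + 1) * ((2 * d + 1) * d) * Nat.gcd 2 (2 ^ m - 1)
      = 2 ^ m * ((2 ^ m) ^ 2 - 1)) : d = 2 := by
  have hq : 2 ^ m = 2 * d := by omega
  rw [hq] at hc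
  have hodd : Nat.gcd 2 (2 * d - 1) = 1 := by
    have h1 : Odd (2 * d - 1) := ⟨d - 1, by omega⟩
    exact (Nat.coprime_two_left.mpr h1)
  rw [hodd, mul_one] at hc
  have h2 : (2 * d) ^ 2 - 1 = (2 * d - 1) * (2 * d + 1) := by
    obtain ⟨e, rfl⟩ : ∃ e, d = e + 1 := ⟨d - 1, by omega⟩
    have : 2 * (e + 1) - 1 = 2 * e + 1 := by omega
    rw [this]
    have h3 : (2 * (e + 1)) ^ 2 = (2 * e + 1) * (2 * (e + 1) + 1) + 1 := by ring
    rw [h3]
    rfl
  rw [h2] at hc
  obtain ⟨e, rfl⟩ : ∃ e, d = e + 1 := ⟨d - 1, by omega⟩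
  have h4 : 2 * (e + 1) - 1 = 2 * e + 1 := by omega
  rw [h4] at hc
  have h5 : (2 * (e + 1) + 1) * (e + 1) * (2 * (e + 1) + 1 + 1)
      = (2 * (e + 1) + 1) * (e + 1) * (2 * (2 * e + 1)) := by
    have h7 : (2 * (e + 1) + 1) * (e + 1) * (2 * (e + 1) + 1 + 1)
        = (2 * (e + 1) + 1 + 1) * ((2 * (e + 1) + 1) * (e + 1)) := by ring
    rw [h7, hc]; ring
  have h6 := Nat.eq_of_mul_eq_mul_left (by positivity) h5
  omega

end

/-- IDENT -/
theorem s4504_ident {H : Type u} [Group H] [Finite H] (p : ℕ) [Fact p.Prime] (x : H)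
    (hg : S4504Grp p x) (d : ℕ) (hp : p = 2 * d + 1) (hd2 : 2 ≤ d)
    (hcent : ∀ g : H, g * x = x * g → ∃ i : ℕ, ∃ z ∈ Subgroup.center H, g = x ^ i * z)
    (hsyl : Nat.card (Sylow p H) = p + 1)
    (hnormcard : Nat.card (Subgroup.normalizer ((Subgroup.zpowers x : Subgroup H) : Set H))
      = p * d * Nat.card (Subgroup.center H)) :
    Nonempty ((H ⧸ Subgroup.center H) ≃*
      Matrix.ProjectiveSpecialLinearGroup (Fin 2) (ZMod p)) := by
  have hpp : p.Prime := Fact.out
  haveI : NeZero p := ⟨hpp.ne_zero⟩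
  have hperf := ident39_quot_perfect (ident39_perfect hg)
  have hord := ident39_quot_order hg
  have hC := ident39_quot_cent hg hcent
  have hn : 2 * Nat.card (Sylow p (H ⧸ Subgroup.center H)) < (p + 1) * (p + 2) := by
    have h1 := ident39_quot_sylow (H := H) p
    rw [hsyl] at h1
    nlinarith [hpp.two_le]
  rcases Cfsg.Agent.S0996.result hperf p _ hord hC hn with
    ⟨F, _, _, hF, -, ⟨e⟩⟩ | ⟨m, F, _, _, hF, hpm, h3, ⟨e⟩⟩
  · exact ⟨e.trans (Cfsg.Agent.Helper57.pslCongr (ZMod.ringEquivOfPrime F hpp hF).symm)⟩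
  · have hcard := ident39_quot_card hg d hsyl hnormcard
    have hcard2 : Nat.card (H ⧸ Subgroup.center H)
        = Nat.card (Matrix.ProjectiveSpecialLinearGroup (Fin 2) F) := Nat.card_congr e.toEquiv
    have h4 := Cfsg.Agent.Helper5.card_PSL2_mul_gcd (F := F)
    rw [← hcard2, hcard, hF, hp] at h4
    have hd : d = 2 := ident39_arith hd2 (by rw [← hp]; exact hpm) h4
    have hp5 : p = 5 := by omega
    have hF4 : Fintype.card F = 4 := by
      rw [hF]; omega
    obtain ⟨e4⟩ := Cfsg.Agent.S0252.result hF4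
    have hZ : Fintype.card (ZMod p) = 5 := by rw [ZMod.card, hp5]
    obtain ⟨e5⟩ := Cfsg.Agent.S0253.result hZ
    exact ⟨(e.trans e4).trans e5.symm⟩

end Cfsg.Agent.Helper39
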