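import Mathlib
import Cfsg.Agent.Helper79.S4705Defs
import Cfsg.Agent.Helper79.Basic
import Cfsg.Agent.Helper15.B42Defs
import Cfsg.Agent.Helper91.B42STRONG
import Cfsg.Agent.Helper77.D1Final
import Cfsg.Agent.Helper80.CharIrr

/-!
SUB-CALL S4705B (helper82) = piece BLK of CALL S4705 (helper79), piece D1 (helper39, double):
the centre is a `p'`-group and `C(x) = ⟨x⟩ × Z(H)`.
-/

universe u
set_option autoImplicit false
open Cfsg Cfsg.Agent.Helper79 Cfsg.Agent.Helper77 Cfsg.Agent.Helper15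
open scoped ComplexConjugate

namespace Cfsg.Agent.Helper39

variable {H : Type u} [Group H] [Finite H]

omit [Finite H] in
theorem d1x39_zpowers_normal {z : H} (hz : z ∈ Subgroup.center H) :
    (Subgroup.zpowers z).Normal := by
  constructor
  intro n hn g
  obtain ⟨k, rfl⟩ := Subgroup.mem_zpowers_iff.mp hn
  have hc : z ^ k ∈ Subgroup.center H := Subgroup.zpow_mem _ hz k
  rw [Subgroup.mem_center_iff] at hc
  rw [hc g, mul_inv_cancel_right]
  exact hn

theorem d1x39_sylow_card {p : ℕ} [Fact p.Prime] {x : H} (hx : orderOf x = p)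
    (hsq : ¬ p ^ 2 ∣ Nat.card H) (P : Sylow p H) : Nat.card P = p := by
  have h1 := Sylow.card_eq_multiplicity P
  have hdvd : p ∣ Nat.card H := by
    have := orderOf_dvd_natCard x
    rwa [hx] at this
  have hfac : (Nat.card H).factorization p = 1 := by
    have hpos : Nat.card H ≠ 0 := Nat.card_pos.ne'
    have hp : p.Prime := Fact.out
    have h2 : 1 ≤ (Nat.card H).factorization p :=
      (hp.dvd_iff_one_le_factorization hpos).mp hdvd
    have h3 : ¬ 2 ≤ (Nat.card H).factorization p := by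
      intro h
      exact hsq ((hp.pow_dvd_iff_le_factorization hpos).mpr h)
    omega
  rw [h1, hfac, pow_one]

theorem d1x39_exists_sylow {p : ℕ} [Fact p.Prime] {x : H} (hx : orderOf x = p)
    (hsq : ¬ p ^ 2 ∣ Nat.card H) :
    ∃ P : Sylow p H, (P : Subgroup H) = Subgroup.zpowers x := by
  have hpg : IsPGroup p (Subgroup.zpowers x) := by
    apply IsPGroup.of_card (n := 1)
    rw [Nat.card_zpowers, hx, pow_one]
  obtain ⟨P, hP⟩ := hpg.exists_le_sylow
  refine ⟨P, ?_⟩
  symm
  apply Subgroup.eq_of_le_of_card_ge hP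
  rw [d1x39_sylow_card hx hsq P, Nat.card_zpowers, hx]

theorem d1x39_center_pfree {p : ℕ} [Fact p.Prime] {x : H} (hx : orderOf x = p)
    (hsq : ¬ p ^ 2 ∣ Nat.card H) (hnn : ¬ (Subgroup.zpowers x).Normal) :
    ∀ z ∈ Subgroup.center H, z ^ p = 1 → z = 1 := by
  intro z hz hzp
  by_contra hz1
  have hp : p.Prime := Fact.out
  have hord : orderOf z = p := orderOf_eq_prime hzp hz1
  obtain ⟨Q, hQ⟩ := d1x39_exists_sylow (x := z) hord hsq
  obtain ⟨P, hP⟩ := d1x39_exists_sylow hx hsq
  haveI hQn : (Q : Subgroup H).Normal := by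
    rw [hQ]
    exact d1x39_zpowers_normal hz
  obtain ⟨g, hgPQ⟩ := MulAction.exists_smul_eq H Q P
  have hPQ : P = Q := by rw [← hgPQ]; exact Sylow.smul_eq_of_normal
  apply hnn
  rw [← hP, hPQ]
  exact hQn

/-- D1: the centre is a `p'`-group and `C(x) = ⟨x⟩ × Z(H)`. -/
theorem s4705b_d1 (p : ℕ) [Fact p.Prime] (x : H) (ζ : H → ℂ) (h : S4705Wk p x ζ)
    (S : S4705Shape p x ζ) : D1Hyp p x (Subgroup.center H) := by
  classical
  refine ⟨h.hx, ?_, ?_, h.hsq⟩
  · intro hdvd
    obtain ⟨z, hz⟩ := exists_prime_orderOf_dvd_card' (G := Subgroup.center H) p hdvd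
    have hpp : p.Prime := Fact.out
    have h1 : ((z : Subgroup.center H) : H) ^ p = 1 := by
      rw [← Subgroup.coe_pow, ← hz, pow_orderOf_eq_one, Subgroup.coe_one]
    have h2 := d1x39_center_pfree h.hx h.hsq h.hnn (z : H) z.2 h1
    have h3 : z = 1 := Subtype.ext h2
    rw [h3, orderOf_one] at hz
    exact hpp.one_lt.ne' hz.symm
  · intro g
    constructor
    · intro hg
      exact S.hcent g hg
    · rintro ⟨i, k, hk, rfl⟩
      have hc : k * x = x * k := (Subgroup.mem_center_iff.mp hk x).symm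
      rw [mul_assoc, hc, ← mul_assoc, ← pow_succ, ← mul_assoc, ← pow_succ']

end Cfsg.Agent.Helper39
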