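import Mathlib
import Cfsg.Agent.Helper79.S4705Defs
import Cfsg.Agent.Helper79.Basic
import Cfsg.Agent.Helper15.B42Defs
import Cfsg.Agent.Helper91.B42STRONG
import Cfsg.Agent.Helper77.D1Final
import Cfsg.Agent.Helper80.CharIrr

/-!
SUB-CALL S4705B (helper82) = piece BLK of CALL S4705 (helper79), piece STAB (helper39, double):
the stabilizer units are `{1, -1}`.
-/

universe u
set_option autoImplicit false
open Cfsg Cfsg.Agent.Helper79 Cfsg.Agent.Helper77 Cfsg.Agent.Helper15
open scoped ComplexConjugate

namespace Cfsg.Agent.Helper39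

variable {H : Type u} [Group H] [Finite H]

/-- STAB: the stabilizer units are `{1, -1}`. -/
theorem s4705b_stab (p : ℕ) [Fact p.Prime] (x : H) (ζ : H → ℂ) (h : S4705Wk p x ζ)
    (S : S4705Shape p x ζ) (θ : Subgroup.center H → ℂ) :
    (∀ u : (ZMod p)ˣ, u ∈ stabUnits p x (Subgroup.center H) θ ↔ u = 1 ∨ u = -1) ∧
    Nat.card (stabUnits p x (Subgroup.center H) θ) = 2 := by
  classical
  have hpp : p.Prime := Fact.out
  haveI : NeZero p := ⟨hpp.ne_zero⟩
  have hx := h.hx
  have hp5 := h.hp
  have hxp : x ^ p = 1 := by rw [← hx]; exact pow_orderOf_eq_one x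
  have hconj : ∀ n : H, thetaConj (Subgroup.center H) n θ θ := by
    intro n k k' hk
    have hc : n * (k : H) = (k : H) * n := (Subgroup.mem_center_iff.mp k.2 n)
    have : k' = k := by
      apply Subtype.ext
      rw [hk, hc, mul_inv_cancel_right]
    rw [this]
  have hmem : ∀ u : (ZMod p)ˣ, u ∈ stabUnits p x (Subgroup.center H) θ ↔ u = 1 ∨ u = -1 := by
    intro u
    constructor
    · rintro ⟨n, hn, -⟩
      have hz : n * x * n⁻¹ ∈ Subgroup.zpowers x := by
        rw [hn]
        exact Subgroup.pow_mem _ (Subgroup.mem_zpowers x) _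
      rcases S.hnorm n hz with h1 | h1
      · left
        rw [hn] at h1
        have h2 : x ^ (u : ZMod p).val = x ^ 1 := by rw [h1, pow_one]
        rw [pow_eq_pow_iff_modEq, hx] at h2
        have h3 : (((u : ZMod p).val : ℕ) : ZMod p) = ((1 : ℕ) : ZMod p) :=
          (ZMod.natCast_eq_natCast_iff _ _ _).mpr h2
        rw [ZMod.natCast_zmod_val, Nat.cast_one] at h3
        exact Units.ext h3
      · right
        rw [hn] at h1
        have h2 : x ^ ((u : ZMod p).val + 1) = 1 := by
          rw [pow_succ, h1, inv_mul_cancel]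
        have h3 : p ∣ (u : ZMod p).val + 1 := by
          have h3' := orderOf_dvd_of_pow_eq_one h2
          rwa [hx] at h3'
        have h4 : ((((u : ZMod p).val + 1 : ℕ)) : ZMod p) = 0 :=
          (ZMod.natCast_eq_zero_iff _ _).mpr h3
        rw [Nat.cast_add, ZMod.natCast_zmod_val, Nat.cast_one] at h4
        apply Units.ext
        rw [Units.val_neg, Units.val_one]
        linear_combination h4
    · rintro (rfl | rfl)
      · refine ⟨1, ?_, hconj 1⟩
        rw [one_mul, inv_one, mul_one, Units.val_one]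
        have h1 : x ^ (((1 : ℕ) : ZMod p)).val = x ^ 1 := by
          rw [pow_eq_pow_iff_modEq, hx, ZMod.val_natCast]
          exact Nat.mod_modEq _ _
        rw [Nat.cast_one, pow_one] at h1
        exact h1.symm
      · obtain ⟨t, ht⟩ := S.hinv
        refine ⟨t, ?_, hconj t⟩
        rw [ht, Units.val_neg, Units.val_one]
        apply inv_eq_of_mul_eq_one_left
        rw [← pow_succ]
        have h0 : (1 : H) = x ^ 0 := (pow_zero x).symm
        rw [h0, pow_eq_pow_iff_modEq, hx]
        apply (ZMod.natCast_eq_natCast_iff _ _ _).mp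
        rw [Nat.cast_add, ZMod.natCast_zmod_val, Nat.cast_one, Nat.cast_zero]
        ring
  refine ⟨hmem, ?_⟩
  have hne : (1 : (ZMod p)ˣ) ≠ -1 := by
    intro h'
    have h1 : ((1 : (ZMod p)ˣ) : ZMod p) = ((-1 : (ZMod p)ˣ) : ZMod p) := congrArg _ h'
    rw [Units.val_one, Units.val_neg, Units.val_one] at h1
    have h2 : ((2 : ℕ) : ZMod p) = 0 := by
      push_cast
      linear_combination h1
    rw [ZMod.natCast_eq_zero_iff] at h2
    have := Nat.le_of_dvd (by norm_num) h2
    omega
  have hset : stabUnits p x (Subgroup.center H) θ = {1, -1} := by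
    ext u
    rw [hmem u]
    simp
  rw [hset, Nat.card_coe_set_eq, Set.ncard_pair hne]

end Cfsg.Agent.Helper39
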