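import Mathlib
import Cfsg.Agent.Helper79.S4705Defs
import Cfsg.Agent.Helper79.Basic
import Cfsg.Agent.Helper15.B42Defs
import Cfsg.Agent.Helper91.B42STRONG
import Cfsg.Agent.Helper77.D1Final
import Cfsg.Agent.Helper80.CharIrr

/-!
SUB-CALL S4705B (helper82) = piece BLK of CALL S4705 (helper79), piece VALY (helper39):
the period over `{1, -1}`.
-/

universe u
set_option autoImplicit false
open Cfsg Cfsg.Agent.Helper79 Cfsg.Agent.Helper77 Cfsg.Agent.Helper15
open scoped ComplexConjugate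

namespace Cfsg.Agent.Helper39

/-- VALY: the period over `{1, -1}`. -/
theorem s4705b_valY (p : ℕ) [Fact p.Prime] (hp : 5 < p) (S : Set (ZMod p)ˣ)
    (hS : ∀ u : (ZMod p)ˣ, u ∈ S ↔ u = 1 ∨ u = -1) (l₀ : ZMod p) (hl₀ : l₀ ≠ 0) :
    ∃ ω : ℂ, IsPrimitiveRoot ω p ∧ ∀ b : ℕ, ¬ p ∣ b →
      ∑ᶠ s ∈ S, d1zeta p ^ ((b : ZMod p) * ((s : (ZMod p)ˣ) : ZMod p) * l₀).val
        = ω ^ b + ω⁻¹ ^ b := by
  classical
  have hpp : p.Prime := Fact.out
  haveI : NeZero p := ⟨hpp.ne_zero⟩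
  have hζ := d1zeta_prim p
  have hζp : d1zeta p ^ p = 1 := hζ.pow_eq_one
  have hζ0 : d1zeta p ≠ 0 := hζ.ne_zero hpp.ne_zero
  have hmod : ∀ a c : ℕ, ((a : ℕ) : ZMod p) = ((c : ℕ) : ZMod p) →
      d1zeta p ^ a = d1zeta p ^ c := by
    intro a c hac
    have hac' : a % p = c % p := (ZMod.natCast_eq_natCast_iff' a c p).mp hac
    rw [← Nat.mod_add_div a p, ← Nat.mod_add_div c p, pow_add, pow_add, pow_mul, pow_mul, hζp,
      one_pow, one_pow, hac']
  refine ⟨d1zeta p ^ l₀.val, ?_, ?_⟩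
  · apply hζ.pow_of_coprime
    have hlt : l₀.val < p := ZMod.val_lt l₀
    have hpos : 0 < l₀.val := by
      rw [Nat.pos_iff_ne_zero]
      intro h0
      exact hl₀ ((ZMod.val_eq_zero l₀).mp h0)
    exact Nat.Coprime.symm ((Nat.Prime.coprime_iff_not_dvd hpp).mpr
      (Nat.not_dvd_of_pos_of_lt hpos hlt))
  · intro b hb
    have hSeq : S = {1, -1} := by
      ext u
      rw [hS]
      simp
    have hne : (1 : (ZMod p)ˣ) ≠ -1 := by
      intro h
      have h1 : ((1 : (ZMod p)ˣ) : ZMod p) = ((-1 : (ZMod p)ˣ) : ZMod p) := congrArg _ h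
      rw [Units.val_one, Units.val_neg, Units.val_one] at h1
      have h2 : ((2 : ℕ) : ZMod p) = 0 := by
        push_cast
        linear_combination h1
      rw [ZMod.natCast_eq_zero_iff] at h2
      have := Nat.le_of_dvd (by norm_num) h2
      omega
    rw [hSeq, finsum_mem_pair hne]
    congr 1
    · rw [Units.val_one, mul_one, ← pow_mul]
      apply hmod
      rw [ZMod.natCast_zmod_val, Nat.cast_mul, ZMod.natCast_zmod_val]
      ring
    · rw [Units.val_neg, Units.val_one, inv_pow, ← pow_mul]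
      apply eq_inv_of_mul_eq_one_left
      rw [← pow_add]
      have h0 : (1 : ℂ) = d1zeta p ^ 0 := (pow_zero _).symm
      rw [h0]
      apply hmod
      rw [Nat.cast_add, ZMod.natCast_zmod_val, Nat.cast_mul, ZMod.natCast_zmod_val]
      push_cast
      ring

end Cfsg.Agent.Helper39
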