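import Mathlib
import Cfsg.Agent.Helper79.S4705Defs
import Cfsg.Agent.Helper79.Basic
import Cfsg.Agent.Helper81.CharBasic
import Cfsg.Agent.Helper80.CharIrr

/-!
SUB-CALL S4705O (helper79, stage ORDER of CALL S4705), piece SUMS (helper39): the first three
moments of an integer valued nontrivial irreducible character.
-/

set_option autoImplicit false
open Cfsg Cfsg.Agent.Helper79
open scoped ComplexConjugate

universe u

namespace Cfsg.Agent.Helper39

variable {H : Type u} [Group H] [Finite H]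

/-- SUMS: the first three moments of an integer valued nontrivial irreducible character. -/
theorem s4705o_sums [Fintype H] (X : Cfsg.IrrCharacter H) (hne : (X : H → ℂ) ≠ fun _ => 1)
    (f : H → ℤ) (hf : ∀ g : H, (X : H → ℂ) g = (f g : ℂ)) :
    ∑ g : H, f g = 0 ∧ ∑ g : H, f g ^ 2 = (Nat.card H : ℤ) ∧
    (∃ y : ℕ, ∑ g : H, f g ^ 3 = (Nat.card H : ℤ) * (y : ℤ)) ∧ ∀ g : H, f g ≤ f 1 := by
  classical
  have hXc : Cfsg.IsCharacter H (X : H → ℂ) := Cfsg.Agent.Helper79.irr_isCharacter X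
  have hcard : (Nat.card H : ℂ) ≠ 0 := by
    have : 0 < Nat.card H := Nat.card_pos
    exact_mod_cast this.ne'
  have hinv : ∀ g : H, (X : H → ℂ) g⁻¹ = (f g : ℂ) := by
    intro g
    rw [Cfsg.Agent.Helper80.isCharacter_inv hXc g, hf g]
    exact map_intCast (starRingEnd ℂ) (f g)
  refine ⟨?_, ?_, ?_, ?_⟩
  · -- orthogonality with the trivial character
    have h1 := Cfsg.Agent.Helper81.irr_orthonormal X (Cfsg.Agent.Helper79.trivIrr H)
    have hXt : X ≠ Cfsg.Agent.Helper79.trivIrr H := by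
      intro h
      apply hne
      rw [h]
      rfl
    rw [if_neg hXt] at h1
    have h2 : ∑ g : H, (X : H → ℂ) g * ((Cfsg.Agent.Helper79.trivIrr H : Cfsg.IrrCharacter H)
        : H → ℂ) g⁻¹ = 0 := by
      rcases mul_eq_zero.mp h1 with h | h
      · exact absurd (inv_eq_zero.mp h) hcard
      · exact h
    have h3 : ∑ g : H, ((f g : ℤ) : ℂ) = 0 := by
      rw [← h2]
      apply Finset.sum_congr rfl
      intro g _
      rw [hf g]
      show (f g : ℂ) = (f g : ℂ) * 1
      rw [mul_one]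
    rw [← Int.cast_sum] at h3
    exact_mod_cast h3
  · have h1 := Cfsg.Agent.Helper81.irr_orthonormal X X
    rw [if_pos rfl] at h1
    have h2 : ∑ g : H, (X : H → ℂ) g * (X : H → ℂ) g⁻¹ = (Nat.card H : ℂ) := by
      have := congrArg (fun z => (Nat.card H : ℂ) * z) h1
      simp only [mul_one] at this
      rw [← mul_assoc, mul_inv_cancel₀ hcard, one_mul] at this
      exact this
    have h3 : ∑ g : H, ((f g ^ 2 : ℤ) : ℂ) = (Nat.card H : ℂ) := by
      rw [← h2]
      apply Finset.sum_congr rfl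
      intro g _
      rw [hinv g, hf g]
      push_cast
      ring
    rw [← Int.cast_sum] at h3
    exact_mod_cast h3
  · -- the multiplicity of `X` in `X ^ 2`
    haveI : Fintype (Cfsg.IrrCharacter H) := Fintype.ofFinite _
    have hsq : Cfsg.IsCharacter H ((X : H → ℂ) * (X : H → ℂ)) :=
      Cfsg.Agent.Helper79.isCharacter_mul hXc hXc
    obtain ⟨n, ρ, hρ⟩ := hsq
    have hmem := Cfsg.Agent.Helper81.character_mem_natSpanIrr ρ
    obtain ⟨m, hm⟩ := Cfsg.Agent.Helper81.exists_mult_of_mem_natSpanIrr hmem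
    have h1 := Cfsg.Agent.Helper81.mult_eq_innerInv (fun χ => (m χ : ℂ)) X
    rw [← hm, hρ] at h1
    refine ⟨m X, ?_⟩
    unfold Cfsg.Agent.Helper81.innerInv at h1
    have h2 : ∑ g : H, ((X : H → ℂ) * (X : H → ℂ)) g * (X : H → ℂ) g⁻¹
        = (Nat.card H : ℂ) * (m X : ℂ) := by
      rw [← h1, ← mul_assoc, mul_inv_cancel₀ hcard, one_mul]
    have h3 : ∑ g : H, ((f g ^ 3 : ℤ) : ℂ) = (Nat.card H : ℂ) * (m X : ℂ) := by
      rw [← h2]
      apply Finset.sum_congr rfl
      intro g _
      rw [hinv g, Pi.mul_apply, hf g]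
      push_cast
      ring
    rw [← Int.cast_sum] at h3
    exact_mod_cast h3
  · intro g
    have h1 := Cfsg.Agent.Helper80.isCharacter_norm_le hXc g
    have h2 := Cfsg.Agent.Helper81.irr_one_eq_charDegree X
    rw [hf 1] at h2
    have h3 : (f 1 : ℤ) = (Cfsg.charDegree (X : H → ℂ) : ℤ) := by exact_mod_cast h2
    rw [hf g] at h1
    have h4 : ‖((f g : ℤ) : ℂ)‖ = |(f g : ℝ)| := by
      rw [← Complex.ofReal_intCast, Complex.norm_real, Real.norm_eq_abs]
    rw [h4] at h1
    have h5 : (f g : ℝ) ≤ (Cfsg.charDegree (X : H → ℂ) : ℝ) := le_trans (le_abs_self _) h1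
    rw [h3]
    exact_mod_cast h5

end Cfsg.Agent.Helper39
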