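import Mathlib
import Cfsg.Agent.Helper79.S4705Defs
import Cfsg.Agent.Helper79.Basic
import Cfsg.Agent.Helper81.CharBasic

/-!
SUB-CALL S4705Z (helper79, stage ATRIV of CALL S4705), piece SUM1 (helper39): the sum of
`χ(t)² conj χ(x) / χ(1)` over the irreducible characters trivial on the centre.
-/

set_option autoImplicit false
open Cfsg Cfsg.Agent.Helper79
open scoped ComplexConjugate

universe u

namespace Cfsg.Agent.Helper39

variable {H : Type u} [Group H] [Finite H]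

/-- SUM1: the sum over the trivial central character. -/
theorem s4705z_sum1 (p : ℕ) [Fact p.Prime] (x : H) (m : ℕ) (δ : ℤ)
    (X : Cfsg.IrrCharacter H) (Y' : Finset (Cfsg.IrrCharacter H))
    (T' : S4705Tab1 p x m δ X Y') (t : H) (ht : ¬ p ∣ orderOf t) :
    ∑ᶠ χ ∈ {χ : Cfsg.IrrCharacter H |
            ∀ z ∈ Subgroup.center H, (χ : H → ℂ) z = (χ : H → ℂ) 1},
        (χ : H → ℂ) t ^ 2 * conj ((χ : H → ℂ) x) / (χ : H → ℂ) 1
      = 1 + (δ : ℂ) * (X : H → ℂ) t ^ 2 / (X : H → ℂ) 1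
        - (δ : ℂ) * ((X : H → ℂ) t + (δ : ℂ)) ^ 2 / ((X : H → ℂ) 1 + (δ : ℂ)) := by
  classical
  have hpp : p.Prime := Fact.out
  have h1p : ¬ p ∣ 1 := fun hd => hpp.one_lt.ne' (Nat.dvd_one.mp hd)
  have hreg1 : ¬ p ∣ orderOf (1 : H) := by rw [orderOf_one]; exact h1p
  obtain ⟨I, hI⟩ : ∃ I : Cfsg.IrrCharacter H, (I : H → ℂ) = fun _ => 1 :=
    ⟨⟨fun _ => 1, Cfsg.Agent.Helper79.isIrrCharacter_one⟩, rfl⟩
  have hfin : ({χ : Cfsg.IrrCharacter H |
      ∀ z ∈ Subgroup.center H, (χ : H → ℂ) z = (χ : H → ℂ) 1}).Finite := Set.toFinite _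
  rw [finsum_mem_eq_finite_toFinset_sum _ hfin]
  have hsub : insert I (insert X Y') ⊆ hfin.toFinset := by
    intro χ hχ
    rw [Set.Finite.mem_toFinset, Set.mem_setOf_eq]
    rcases Finset.mem_insert.mp hχ with rfl | hχ
    · intro z _
      rw [hI]
    · rcases Finset.mem_insert.mp hχ with rfl | hχ
      · exact T'.trivX
      · exact T'.trivY χ hχ
  rw [← Finset.sum_subset hsub]
  · have hIX : I ≠ X := by
      rintro rfl
      exact T'.Xne1 hI
    have hIY : I ∉ Y' := fun hmem => T'.Yne1 I hmem hI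
    have hn1 : I ∉ insert X Y' := by
      rw [Finset.mem_insert, not_or]
      exact ⟨hIX, hIY⟩
    rw [Finset.sum_insert hn1, Finset.sum_insert T'.XnY]
    have hXx : (X : H → ℂ) x = (δ : ℂ) := by
      have := T'.val 1 h1p
      rwa [pow_one] at this
    have hconjδ : conj ((δ : ℂ)) = (δ : ℂ) := map_intCast (starRingEnd ℂ) δ
    have hY : ∑ ψ ∈ Y', (ψ : H → ℂ) t ^ 2 * conj ((ψ : H → ℂ) x) / (ψ : H → ℂ) 1
        = -((δ : ℂ) * ((X : H → ℂ) t + (δ : ℂ)) ^ 2 / ((X : H → ℂ) 1 + (δ : ℂ))) := by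
      have h2 : ∀ ψ ∈ Y', (ψ : H → ℂ) t ^ 2 * conj ((ψ : H → ℂ) x) / (ψ : H → ℂ) 1
          = ((X : H → ℂ) t + (δ : ℂ)) ^ 2 / ((X : H → ℂ) 1 + (δ : ℂ))
            * conj ((ψ : H → ℂ) x) := by
        intro ψ hψ
        rw [T'.Yreg ψ hψ t ht, T'.Yreg ψ hψ 1 hreg1]
        ring
      rw [Finset.sum_congr rfl h2, ← Finset.mul_sum, ← map_sum, T'.Ysum, map_neg,
        hconjδ]
      ring
    rw [hY, hXx, hconjδ, hI]
    simp only [one_pow, map_one, mul_one, div_one]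
    ring
  · intro χ hχ hχn
    rw [Set.Finite.mem_toFinset, Set.mem_setOf_eq] at hχ
    rw [Finset.mem_insert, Finset.mem_insert, not_or, not_or] at hχn
    have hχ1 : (χ : H → ℂ) ≠ fun _ => 1 := by
      intro h1
      apply hχn.1
      apply Subtype.ext
      rw [h1, hI]
    rw [T'.compl χ hχ hχ1 hχn.2.1 hχn.2.2, map_zero, mul_zero, zero_div]

end Cfsg.Agent.Helper39
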