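import Mathlib
import Cfsg.Agent.Helper79.S4705Defs
import Cfsg.Agent.Helper79.Basic
import Cfsg.Agent.Helper81.CharBasic

/-!
SUB-CALL S4705Z (helper79, stage ATRIV of CALL S4705), piece SUML (helper39): the sum of
`χ(t)² conj χ(x) / χ(1)` over the irreducible characters with the central character of `ζ`.
-/

set_option autoImplicit false
open Cfsg Cfsg.Agent.Helper79
open scoped ComplexConjugate

universe u

namespace Cfsg.Agent.Helper39

variable {H : Type u} [Group H] [Finite H]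

/-- SUML: the sum over the central character of `ζ`. -/
theorem s4705z_sumL (p : ℕ) [Fact p.Prime] (x : H) (ζ : H → ℂ) (h : S4705Wk p x ζ) (a : ℕ)
    (X₁ X₂ : Cfsg.IrrCharacter H) (Y : Finset (Cfsg.IrrCharacter H))
    (T : S4705TabL p x ζ a X₁ X₂ Y) (t : H) (ht : ¬ p ∣ orderOf t) :
    ∑ᶠ χ ∈ {χ : Cfsg.IrrCharacter H | S4705Over ζ (χ : H → ℂ)},
        (χ : H → ℂ) t ^ 2 * conj ((χ : H → ℂ) x) / (χ : H → ℂ) 1
      = (X₁ : H → ℂ) t ^ 2 / (X₁ : H → ℂ) 1 - (X₂ : H → ℂ) t ^ 2 / (X₂ : H → ℂ) 1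
        + ζ t ^ 2 / ζ 1 := by
  classical
  have hpp : p.Prime := Fact.out
  have h1p : ¬ p ∣ 1 := fun hd => hpp.one_lt.ne' (Nat.dvd_one.mp hd)
  have hreg1 : ¬ p ∣ orderOf (1 : H) := by rw [orderOf_one]; exact h1p
  have hfin : ({χ : Cfsg.IrrCharacter H | S4705Over ζ (χ : H → ℂ)}).Finite := Set.toFinite _
  rw [finsum_mem_eq_finite_toFinset_sum _ hfin]
  have hsub : insert X₁ (insert X₂ Y) ⊆ hfin.toFinset := by
    intro χ hχ
    rw [Set.Finite.mem_toFinset, Set.mem_setOf_eq]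
    rcases Finset.mem_insert.mp hχ with rfl | hχ
    · exact T.ov₁
    · rcases Finset.mem_insert.mp hχ with rfl | hχ
      · exact T.ov₂
      · exact T.ovY χ hχ
  rw [← Finset.sum_subset hsub]
  · have hn1 : X₁ ∉ insert X₂ Y := by
      rw [Finset.mem_insert, not_or]
      exact ⟨T.ne, T.n₁⟩
    rw [Finset.sum_insert hn1, Finset.sum_insert T.n₂]
    have hX₁x : (X₁ : H → ℂ) x = 1 := by
      have := T.val₁ 1 h1p
      rwa [pow_one] at this
    have hX₂x : (X₂ : H → ℂ) x = -1 := by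
      have := T.val₂ 1 h1p
      rwa [pow_one] at this
    have hY : ∑ ψ ∈ Y, (ψ : H → ℂ) t ^ 2 * conj ((ψ : H → ℂ) x) / (ψ : H → ℂ) 1
        = ζ t ^ 2 / ζ 1 := by
      have h2 : ∀ ψ ∈ Y, (ψ : H → ℂ) t ^ 2 * conj ((ψ : H → ℂ) x) / (ψ : H → ℂ) 1
          = ζ t ^ 2 / ζ 1 * conj ((ψ : H → ℂ) x) := by
        intro ψ hψ
        rw [T.Yreg ψ hψ t ht, T.Yreg ψ hψ 1 hreg1]
        ring
      rw [Finset.sum_congr rfl h2, ← Finset.mul_sum, ← map_sum, T.Ysum, map_one, mul_one]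
    rw [hY, hX₁x, hX₂x, map_one, map_neg, map_one]
    ring
  · intro χ hχ hχn
    rw [Set.Finite.mem_toFinset, Set.mem_setOf_eq] at hχ
    rw [Finset.mem_insert, Finset.mem_insert, not_or, not_or] at hχn
    rw [T.compl χ hχ hχn.1 hχn.2.1 hχn.2.2, map_zero, mul_zero, zero_div]

end Cfsg.Agent.Helper39
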