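import Cfsg.Agent.Helper67.S77Defs

/-!
CALL S0429 (helper67): shared counting lemmas of helper39's pieces F1 / F2 / F3: for two distinct
nonadjacent vertices `x, y` of an SRG(77,16,0,4) and `M = N(x) ∩ N(y)`, each `a ∈ M` has 14
neighbours in `Rs x y`, and two distinct `a, a' ∈ M` have 2 common neighbours in `Rs x y`.
-/

set_option autoImplicit false
set_option linter.unusedSectionVars false
set_option linter.unusedVariables false

namespace Cfsg.Agent.Helper39.S77Count

open Finset Cfsg.Agent.Helper67.S77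

variable {V : Type*} [Fintype V] [DecidableEq V] {G : SimpleGraph V} [DecidableRel G.Adj]

/-- `t3` as a sum of indicators over `M = N(x) ∩ N(y)`. -/
theorem t3_eq_sum (x y z : V) :
    t3 G x y z = ∑ a ∈ G.neighborFinset x ∩ G.neighborFinset y, if G.Adj z a then 1 else 0 := by
  unfold t3
  rw [← Finset.card_filter]
  congr 1
  ext a
  simp only [Finset.mem_inter, Finset.mem_filter, SimpleGraph.mem_neighborFinset]

theorem mem_M_adj {x y a : V} (ha : a ∈ G.neighborFinset x ∩ G.neighborFinset y) :
    G.Adj a x ∧ G.Adj a y := by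
  rw [Finset.mem_inter, SimpleGraph.mem_neighborFinset, SimpleGraph.mem_neighborFinset] at ha
  exact ⟨ha.1.symm, ha.2.symm⟩

/-- the neighbours of `a ∈ M` are `x`, `y` and 14 vertices of `Rs x y` -/
theorem nbr_M (hG : G.IsSRGWith 77 16 0 4) {x y : V} (h : NA G x y) {a : V}
    (ha : a ∈ G.neighborFinset x ∩ G.neighborFinset y) :
    G.neighborFinset a = insert x (insert y ((Rs G x y).filter (fun z => G.Adj z a))) := by
  obtain ⟨hax, hay⟩ := mem_M_adj ha
  ext z
  simp only [SimpleGraph.mem_neighborFinset, Finset.mem_insert, Finset.mem_filter, mem_Rs]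
  constructor
  · intro haz
    by_cases hzx : z = x
    · exact Or.inl hzx
    · by_cases hzy : z = y
      · exact Or.inr (Or.inl hzy)
      · exact Or.inr (Or.inr ⟨⟨hzx, hzy, tri_free hG hax haz, tri_free hG hay haz⟩, haz.symm⟩)
  · rintro (rfl | rfl | ⟨-, hz⟩)
    · exact hax
    · exact hay
    · exact hz.symm

theorem card_nbr_R (hG : G.IsSRGWith 77 16 0 4) {x y : V} (h : NA G x y) {a : V}
    (ha : a ∈ G.neighborFinset x ∩ G.neighborFinset y) :
    ((Rs G x y).filter (fun z => G.Adj z a)).card = 14 := by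
  have h1 := card_nbr hG a
  rw [nbr_M hG h ha, Finset.card_insert_of_notMem, Finset.card_insert_of_notMem] at h1
  · omega
  · simp [mem_Rs]
  · simp only [Finset.mem_insert, Finset.mem_filter, mem_Rs, not_or]
    exact ⟨h.1, fun h' => h'.1.1 rfl⟩

/-- two distinct vertices of `M` are nonadjacent -/
theorem na_M (hG : G.IsSRGWith 77 16 0 4) {x y : V} {a a' : V}
    (ha : a ∈ G.neighborFinset x ∩ G.neighborFinset y)
    (ha' : a' ∈ G.neighborFinset x ∩ G.neighborFinset y) (hne : a ≠ a') : NA G a a' := by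
  refine ⟨hne, ?_⟩
  have h1 := (mem_M_adj ha).1
  have h2 := (mem_M_adj ha').1
  exact tri_free hG h1.symm h2.symm

theorem card_nbr2_R (hG : G.IsSRGWith 77 16 0 4) {x y : V} (h : NA G x y) {a a' : V}
    (ha : a ∈ G.neighborFinset x ∩ G.neighborFinset y)
    (ha' : a' ∈ G.neighborFinset x ∩ G.neighborFinset y) (hne : a ≠ a') :
    ((Rs G x y).filter (fun z => G.Adj z a ∧ G.Adj z a')).card = 2 := by
  obtain ⟨hax, hay⟩ := mem_M_adj ha
  obtain ⟨hax', hay'⟩ := mem_M_adj ha'
  have h1 := card_common hG (na_M hG ha ha' hne)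
  have h2 : G.neighborFinset a ∩ G.neighborFinset a'
      = insert x (insert y ((Rs G x y).filter (fun z => G.Adj z a ∧ G.Adj z a'))) := by
    ext z
    simp only [Finset.mem_inter, SimpleGraph.mem_neighborFinset, Finset.mem_insert,
      Finset.mem_filter, mem_Rs]
    constructor
    · rintro ⟨haz, haz'⟩
      by_cases hzx : z = x
      · exact Or.inl hzx
      · by_cases hzy : z = y
        · exact Or.inr (Or.inl hzy)
        · exact Or.inr (Or.inr ⟨⟨hzx, hzy, tri_free hG hax haz, tri_free hG hay haz⟩,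
            haz.symm, haz'.symm⟩)
    · rintro (rfl | rfl | ⟨-, hz, hz'⟩)
      · exact ⟨hax, hax'⟩
      · exact ⟨hay, hay'⟩
      · exact ⟨hz.symm, hz'.symm⟩
  rw [h2, Finset.card_insert_of_notMem, Finset.card_insert_of_notMem] at h1
  · omega
  · simp [mem_Rs]
  · simp only [Finset.mem_insert, Finset.mem_filter, mem_Rs, not_or]
    exact ⟨h.1, fun h' => h'.1.1 rfl⟩

theorem card_M (hG : G.IsSRGWith 77 16 0 4) {x y : V} (h : NA G x y) :
    (G.neighborFinset x ∩ G.neighborFinset y).card = 4 := card_common hG h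

end Cfsg.Agent.Helper39.S77Count
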