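import Cfsg.Agent.Helper67.S77Defs
import Cfsg.Agent.Helper39.S77Count

/-!
CALL S0429 (helper67), piece F1 (helper39): `|Rs x y| = 47`.
-/

set_option autoImplicit false
set_option linter.unusedSectionVars false
set_option linter.unusedVariables false

namespace Cfsg.Agent.Helper39.S77F1

open Finset Cfsg.Agent.Helper67.S77 Cfsg.Agent.Helper39.S77Count

variable {V : Type*} [Fintype V] [DecidableEq V] {G : SimpleGraph V} [DecidableRel G.Adj]

theorem p_F1 (hG : G.IsSRGWith 77 16 0 4) : F1 G := by
  intro x y h
  have hunion : (G.neighborFinset x ∪ G.neighborFinset y).card = 28 := by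
    have h1 := Finset.card_union_add_card_inter (G.neighborFinset x) (G.neighborFinset y)
    rw [card_nbr hG x, card_nbr hG y, card_M hG h] at h1
    omega
  have hx : x ∉ G.neighborFinset x ∪ G.neighborFinset y := by
    simp only [Finset.mem_union, SimpleGraph.mem_neighborFinset, not_or]
    exact ⟨G.loopless.irrefl x, fun h' => h.2 h'.symm⟩
  have hy : y ∉ G.neighborFinset x ∪ G.neighborFinset y := by
    simp only [Finset.mem_union, SimpleGraph.mem_neighborFinset, not_or]
    exact ⟨h.2, G.loopless.irrefl y⟩
  have hcompl : Rs G x y
      = Finset.univ \ insert x (insert y (G.neighborFinset x ∪ G.neighborFinset y)) := by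
    ext z
    simp only [mem_Rs, Finset.mem_sdiff, Finset.mem_univ, true_and, Finset.mem_insert,
      Finset.mem_union, SimpleGraph.mem_neighborFinset, not_or]
  have hcard : (insert x (insert y (G.neighborFinset x ∪ G.neighborFinset y))).card = 30 := by
    rw [Finset.card_insert_of_notMem, Finset.card_insert_of_notMem hy, hunion]
    simp only [Finset.mem_insert, not_or]
    exact ⟨h.1, hx⟩
  rw [hcompl, Finset.card_sdiff_of_subset (Finset.subset_univ _), Finset.card_univ, card_V hG,
    hcard]

end Cfsg.Agent.Helper39.S77F1
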