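import Cfsg.Agent.Helper67.S77Defs
import Cfsg.Agent.Helper39.S77Count

/-!
CALL S0429 (helper67), piece F2 (helper39): `Σ_{z ∈ Rs x y} t3 x y z = 56`.
-/

set_option autoImplicit false
set_option linter.unusedSectionVars false
set_option linter.unusedVariables false

namespace Cfsg.Agent.Helper39.S77F2

open Finset Cfsg.Agent.Helper67.S77 Cfsg.Agent.Helper39.S77Count

variable {V : Type*} [Fintype V] [DecidableEq V] {G : SimpleGraph V} [DecidableRel G.Adj]

theorem p_F2 (hG : G.IsSRGWith 77 16 0 4) : F2 G := by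
  intro x y h
  have h1 : ∀ z ∈ Rs G x y, t3 G x y z
      = ∑ a ∈ G.neighborFinset x ∩ G.neighborFinset y, if G.Adj z a then 1 else 0 := by
    intro z _
    exact t3_eq_sum x y z
  rw [Finset.sum_congr rfl h1, Finset.sum_comm]
  have h2 : ∀ a ∈ G.neighborFinset x ∩ G.neighborFinset y,
      ∑ z ∈ Rs G x y, (if G.Adj z a then 1 else 0) = 14 := by
    intro a ha
    rw [← Finset.card_filter, card_nbr_R hG h ha]
  rw [Finset.sum_congr rfl h2, Finset.sum_const, card_M hG h, smul_eq_mul]

end Cfsg.Agent.Helper39.S77F2
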