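import Cfsg.Agent.Helper67.S77Defs
import Cfsg.Agent.Helper39.S77Count

/-!
CALL S0429 (helper67), piece F3 (helper39): `Σ_{z ∈ Rs x y} t3 x y z ^ 2 = 80`.
-/

set_option autoImplicit false
set_option linter.unusedSectionVars false
set_option linter.unusedVariables false

namespace Cfsg.Agent.Helper39.S77F3

open Finset Cfsg.Agent.Helper67.S77 Cfsg.Agent.Helper39.S77Count

variable {V : Type*} [Fintype V] [DecidableEq V] {G : SimpleGraph V} [DecidableRel G.Adj]

theorem p_F3 (hG : G.IsSRGWith 77 16 0 4) : F3 G := by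
  intro x y h
  have hinner : ∀ a ∈ G.neighborFinset x ∩ G.neighborFinset y,
      ∀ a' ∈ G.neighborFinset x ∩ G.neighborFinset y,
      ∑ z ∈ Rs G x y, (if G.Adj z a then 1 else 0) * (if G.Adj z a' then 1 else 0)
        = 2 + if a = a' then 12 else 0 := by
    intro a ha a' ha'
    have h1 : ∀ z ∈ Rs G x y, (if G.Adj z a then 1 else 0) * (if G.Adj z a' then 1 else 0)
        = if (G.Adj z a ∧ G.Adj z a') then 1 else 0 := by
      intro z _
      by_cases h1 : G.Adj z a <;> by_cases h2 : G.Adj z a' <;> simp [h1, h2]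
    rw [Finset.sum_congr rfl h1, ← Finset.card_filter]
    by_cases hne : a = a'
    · subst hne
      rw [if_pos rfl]
      have h2 : (Rs G x y).filter (fun z => G.Adj z a ∧ G.Adj z a)
          = (Rs G x y).filter (fun z => G.Adj z a) := by
        apply Finset.filter_congr
        intro z _
        exact and_self_iff
      rw [h2, card_nbr_R hG h ha]
    · rw [if_neg hne, card_nbr2_R hG h ha ha' hne]
  have hsq : ∀ z ∈ Rs G x y, (t3 G x y z) ^ 2
      = ∑ a ∈ G.neighborFinset x ∩ G.neighborFinset y,
          ∑ a' ∈ G.neighborFinset x ∩ G.neighborFinset y,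
            (if G.Adj z a then 1 else 0) * (if G.Adj z a' then 1 else 0) := by
    intro z _
    rw [t3_eq_sum, sq, Finset.sum_mul_sum]
  rw [Finset.sum_congr rfl hsq, Finset.sum_comm]
  have h3 : ∀ a ∈ G.neighborFinset x ∩ G.neighborFinset y,
      ∑ z ∈ Rs G x y, ∑ a' ∈ G.neighborFinset x ∩ G.neighborFinset y,
        (if G.Adj z a then 1 else 0) * (if G.Adj z a' then 1 else 0) = 20 := by
    intro a ha
    rw [Finset.sum_comm, Finset.sum_congr rfl (hinner a ha), Finset.sum_add_distrib,
      Finset.sum_const, Finset.sum_ite_eq, if_pos ha, card_M hG h, smul_eq_mul]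
  rw [Finset.sum_congr rfl h3, Finset.sum_const, card_M hG h, smul_eq_mul]

end Cfsg.Agent.Helper39.S77F3
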