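import Mathlib
import Cfsg.Prelude.Def_GeometricClasses
import Cfsg.Prelude.Def_Classical
import Cfsg.Agent.Helper35.S88Defs
import Cfsg.Agent.Helper50.TSR2SPLA
import Cfsg.Agent.Helper70.OHOSUB

set_option autoImplicit false

/-!
helper39: piece INVO of sub-CALL S88R2 (helper90; row S5988).
-/

namespace Cfsg.Agent.Helper39.S88R2

open Module Cfsg Cfsg.Geo Cfsg.Agent.Helper35.S88
open scoped MatrixGroups

section pieces

variable {ι : Type} [Fintype ι] [DecidableEq ι] {F : Type*} [Field F] [Fintype F]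

/-- INVO [S-M]: an involutory isometry fixes an elliptic `m`-space (`m` even, `2 ≤ m < d`). -/
theorem r2e_invo (Q : (ι → F) → F) (hQ : IsNondegenerateQuadraticForm Q) (h2 : (2 : F) ≠ 0)
    (d m : ℕ) (hcard : Fintype.card ι = 2 * d) (hm : 2 ≤ m) (hme : Even m) (hmd : m < d)
    (M : Matrix ι ι F) (hM : ∀ v, Q (M.mulVec v) = Q v) (hM2 : M * M = 1) : InvEll Q M m := by
  obtain ⟨h1, h3, h4, -⟩ := Cfsg.Agent.Helper50.TSR2.r2_split Q hQ h2 M hM hM2
  rw [hcard] at h4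
  rcases Nat.lt_or_ge m (finrank F (LinearMap.ker (Matrix.toLin' M - 1))) with hlt | hge
  · obtain ⟨X, hXK, hXnd, hXdim, hXpl⟩ := Cfsg.Agent.Helper70.OH5992.o_sub Q hQ h2 _ h1 m hme
      (by omega) hlt False
    refine ⟨X, ⟨hXdim, hXnd, fun h => hXpl.mp h⟩, ?_⟩
    rintro _ ⟨x, hx, rfl⟩
    have hxK := hXK hx
    rw [LinearMap.mem_ker, LinearMap.sub_apply, sub_eq_zero] at hxK
    have hx' : x ∈ X := hx
    rw [hxK]
    exact hx'
  · have hlt : m < finrank F (LinearMap.ker (Matrix.toLin' M + 1)) := by omega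
    obtain ⟨X, hXK, hXnd, hXdim, hXpl⟩ := Cfsg.Agent.Helper70.OH5992.o_sub Q hQ h2 _ h3 m hme
      (by omega) hlt False
    refine ⟨X, ⟨hXdim, hXnd, fun h => hXpl.mp h⟩, ?_⟩
    rintro _ ⟨x, hx, rfl⟩
    have hxK := hXK hx
    rw [LinearMap.mem_ker, LinearMap.add_apply, add_eq_zero_iff_eq_neg] at hxK
    have hx' : x ∈ X := hx
    rw [hxK]
    exact X.neg_mem hx'

end pieces

end Cfsg.Agent.Helper39.S88R2
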