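import Cfsg.Agent.Helper39.BlockGen
import Cfsg.Agent.Helper39.DegreeGraphOdd
import Cfsg.Agent.Helper39.SL2Zeros
import Cfsg.Agent.Helper5.SLCard

/-!
# The `p`-blocks of `SL₂(q)` in the defining characteristic `p ≠ 2`
-/

set_option autoImplicit false
open Cfsg

namespace Cfsg.Agent.Helper39

section sl2

variable {F : Type*} [Field F]

/-- A matrix of determinant one commuting with a nonzero nilpotent `2 × 2` matrix has
`trace² = 4`. -/
theorem trace_sq_of_commute_nilpotent {g N : Matrix (Fin 2) (Fin 2) F} (hN : N ≠ 0)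
    (htr : N.trace = 0) (hdet : N.det = 0) (hg : g.det = 1) (hc : g * N = N * g) :
    g.trace ^ 2 = 4 := by
  have h00 : g 0 0 * N 0 0 + g 0 1 * N 1 0 = N 0 0 * g 0 0 + N 0 1 * g 1 0 := by
    have := congrFun (congrFun hc 0) 0
    rw [Matrix.mul_apply, Matrix.mul_apply, Fin.sum_univ_two, Fin.sum_univ_two] at this
    exact this
  have h01 : g 0 0 * N 0 1 + g 0 1 * N 1 1 = N 0 0 * g 0 1 + N 0 1 * g 1 1 := by
    have := congrFun (congrFun hc 0) 1
    rw [Matrix.mul_apply, Matrix.mul_apply, Fin.sum_univ_two, Fin.sum_univ_two] at this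
    exact this
  have h10 : g 1 0 * N 0 0 + g 1 1 * N 1 0 = N 1 0 * g 0 0 + N 1 1 * g 1 0 := by
    have := congrFun (congrFun hc 1) 0
    rw [Matrix.mul_apply, Matrix.mul_apply, Fin.sum_univ_two, Fin.sum_univ_two] at this
    exact this
  rw [Matrix.trace_fin_two] at htr ⊢
  rw [Matrix.det_fin_two] at hdet hg
  by_cases hb : N 0 1 = 0
  · by_cases hc' : N 1 0 = 0
    · exfalso
      apply hN
      have ha : N 0 0 = 0 := by
        have h2 : N 0 0 ^ 2 = 0 := by
          rw [hb] at hdet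
          linear_combination N 0 0 * htr - hdet
        exact pow_eq_zero_iff (two_ne_zero) |>.mp h2
      have hd : N 1 1 = 0 := by linear_combination htr - ha
      ext i j
      fin_cases i <;> fin_cases j <;> simp [ha, hb, hc', hd]
    · have h : N 1 0 ^ 2 * ((g 0 0 + g 1 1) ^ 2 - 4) = 0 := by
        linear_combination
          (-(N 1 0 * (g 0 0 - g 1 1) + g 1 0 * (N 0 0 - N 1 1))) * h10
          + 4 * N 1 0 * g 1 0 * h00 + 4 * N 1 0 ^ 2 * hg
          + g 1 0 ^ 2 * (N 0 0 + N 1 1) * htr - 4 * g 1 0 ^ 2 * hdet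
      rcases mul_eq_zero.1 h with h | h
      · exact absurd (pow_eq_zero_iff two_ne_zero |>.mp h) hc'
      · linear_combination h
  · have h : N 0 1 ^ 2 * ((g 0 0 + g 1 1) ^ 2 - 4) = 0 := by
      linear_combination
        (N 0 1 * (g 0 0 - g 1 1) + g 0 1 * (N 0 0 - N 1 1)) * h01
        - 4 * N 0 1 * g 0 1 * h00 + 4 * N 0 1 ^ 2 * hg
        + g 0 1 ^ 2 * (N 0 0 + N 1 1) * htr - 4 * g 0 1 ^ 2 * hdet
    rcases mul_eq_zero.1 h with h | h
    · exact absurd (pow_eq_zero_iff two_ne_zero |>.mp h) hb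
    · linear_combination h

/-- An element of `SL₂` of trace `2` in characteristic `p` has `p`-power order. -/
theorem orderOf_of_trace_two {p : ℕ} [Fact p.Prime] [CharP F p]
    (g : Matrix.SpecialLinearGroup (Fin 2) F)
    (ht : (g : Matrix (Fin 2) (Fin 2) F).trace = 2) : ∃ k : ℕ, orderOf g = p ^ k := by
  have hp : p.Prime := Fact.out
  have hdet := g.det_coe
  rw [Matrix.det_fin_two] at hdet
  rw [Matrix.trace_fin_two] at ht
  have hsq : ((g : Matrix (Fin 2) (Fin 2) F) - 1) * ((g : Matrix (Fin 2) (Fin 2) F) - 1) = 0 := by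
    ext i j
    fin_cases i <;> fin_cases j <;>
      simp [Matrix.mul_apply, Fin.sum_univ_two]
    · linear_combination ((g : Matrix (Fin 2) (Fin 2) F) 0 0) * ht - hdet
    · linear_combination (g : Matrix (Fin 2) (Fin 2) F) 0 1 * ht
    · linear_combination (g : Matrix (Fin 2) (Fin 2) F) 1 0 * ht
    · linear_combination ((g : Matrix (Fin 2) (Fin 2) F) 1 1) * ht - hdet
  have hpow : ((g : Matrix (Fin 2) (Fin 2) F) - 1) ^ p = 0 := by
    obtain ⟨m, hm⟩ := Nat.exists_eq_add_of_le hp.two_le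
    rw [hm, pow_add, pow_two, hsq, zero_mul]
  rw [sub_pow_char_of_commute _ (Commute.one_right _), one_pow, sub_eq_zero] at hpow
  have hgp : g ^ p = 1 := by
    apply Subtype.ext
    rw [Matrix.SpecialLinearGroup.coe_pow, hpow, Matrix.SpecialLinearGroup.coe_one]
  have hdvd : orderOf g ∣ p ^ 1 := by
    rw [pow_one]
    exact orderOf_dvd_of_pow_eq_one hgp
  obtain ⟨k, -, hk⟩ := (Nat.dvd_prime_pow hp).1 hdvd
  exact ⟨k, hk⟩

/-- An element of `SL₂` with `trace² = 4` is `±` a `p`-element. -/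
theorem exists_pelement_of_trace {p : ℕ} [Fact p.Prime] [CharP F p]
    (g : Matrix.SpecialLinearGroup (Fin 2) F)
    (ht : (g : Matrix (Fin 2) (Fin 2) F).trace ^ 2 = 4) :
    ∃ x z : Matrix.SpecialLinearGroup (Fin 2) F, g = x * z ∧ (∃ k : ℕ, orderOf x = p ^ k) ∧
      Commute x z ∧ (z = 1 ∨ z = negSL) := by
  have h2 : ((g : Matrix (Fin 2) (Fin 2) F).trace - 2) *
      ((g : Matrix (Fin 2) (Fin 2) F).trace + 2) = 0 := by linear_combination ht
  rcases mul_eq_zero.1 h2 with h | h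
  · exact ⟨g, 1, (mul_one g).symm, orderOf_of_trace_two g (by linear_combination h),
      Commute.one_right g, Or.inl rfl⟩
  · refine ⟨negSL * g, negSL, ?_, orderOf_of_trace_two _ ?_, ?_, Or.inr rfl⟩
    · have hc := Subgroup.mem_center_iff.mp (negSL_mem_center (F := F)) g
      rw [mul_assoc, hc, negSL_mul_negSL_mul]
    · rw [negSL_mul_coe, Matrix.trace_neg]
      linear_combination -h
    · have hc := Subgroup.mem_center_iff.mp (negSL_mem_center (F := F)) (negSL * g)
      exact hc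

/-- The class of an element of `SL₂(q)` with `trace² ≠ 4` has size divisible by `p`. -/
theorem dvd_index_centralizer_of_trace [Fintype F] [DecidableEq F] {p : ℕ} [Fact p.Prime]
    [CharP F p] (g : Matrix.SpecialLinearGroup (Fin 2) F)
    (ht : (g : Matrix (Fin 2) (Fin 2) F).trace ^ 2 ≠ 4) :
    p ∣ (Subgroup.centralizer ({g} : Set (Matrix.SpecialLinearGroup (Fin 2) F))).index := by
  have hp : p.Prime := Fact.out
  by_contra hnd
  obtain ⟨n, -, hq⟩ := FiniteField.card F p
  have hG : p ∣ Nat.card (Matrix.SpecialLinearGroup (Fin 2) F) := by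
    rw [Helper5.card_SL2, hq]
    exact Dvd.dvd.mul_right (dvd_pow_self p n.ne_zero) _
  have hC : p ∣ Nat.card (Subgroup.centralizer
      ({g} : Set (Matrix.SpecialLinearGroup (Fin 2) F))) := by
    rw [← (Subgroup.centralizer
      ({g} : Set (Matrix.SpecialLinearGroup (Fin 2) F))).index_mul_card] at hG
    exact (hp.dvd_mul.1 hG).resolve_left hnd
  obtain ⟨h, hh⟩ := exists_prime_orderOf_dvd_card' p hC
  have hcomm : (h : Matrix.SpecialLinearGroup (Fin 2) F) * g =
      g * (h : Matrix.SpecialLinearGroup (Fin 2) F) := by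
    have := Subgroup.mem_centralizer_iff.mp h.2 g rfl
    exact this.symm
  have hHp : ((h : Matrix.SpecialLinearGroup (Fin 2) F) : Matrix (Fin 2) (Fin 2) F) ^ p = 1 := by
    have h1 := pow_orderOf_eq_one h
    rw [hh] at h1
    have h2 := congrArg (fun x : Subgroup.centralizer
      ({g} : Set (Matrix.SpecialLinearGroup (Fin 2) F)) =>
      ((x : Matrix.SpecialLinearGroup (Fin 2) F) : Matrix (Fin 2) (Fin 2) F)) h1
    simpa using h2
  have hNp : (((h : Matrix.SpecialLinearGroup (Fin 2) F) : Matrix (Fin 2) (Fin 2) F) - 1) ^ p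
      = 0 := by
    rw [sub_pow_char_of_commute _ (Commute.one_right _), hHp, one_pow, sub_self]
  have hnil : IsNilpotent
      (((h : Matrix.SpecialLinearGroup (Fin 2) F) : Matrix (Fin 2) (Fin 2) F) - 1) := ⟨p, hNp⟩
  have hN0 : ((h : Matrix.SpecialLinearGroup (Fin 2) F) : Matrix (Fin 2) (Fin 2) F) - 1 ≠ 0 := by
    intro h0
    have h1 : (h : Matrix.SpecialLinearGroup (Fin 2) F) = 1 := by
      apply Subtype.ext
      rw [Matrix.SpecialLinearGroup.coe_one]
      exact sub_eq_zero.mp h0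
    have h2 : h = 1 := Subtype.ext h1
    rw [h2, orderOf_one] at hh
    exact hp.one_lt.ne hh
  have htr : (((h : Matrix.SpecialLinearGroup (Fin 2) F) : Matrix (Fin 2) (Fin 2) F) - 1).trace
      = 0 := (Matrix.isNilpotent_trace_of_isNilpotent hnil).eq_zero
  have hdet : (((h : Matrix.SpecialLinearGroup (Fin 2) F) : Matrix (Fin 2) (Fin 2) F) - 1).det
      = 0 := by
    have h1 := congrArg Matrix.det hNp
    rw [Matrix.det_pow, Matrix.det_zero] at h1
    exact pow_eq_zero_iff hp.ne_zero |>.mp h1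
  apply ht
  apply trace_sq_of_commute_nilpotent hN0 htr hdet g.det_coe
  have h3 := congrArg (fun x : Matrix.SpecialLinearGroup (Fin 2) F =>
    (x : Matrix (Fin 2) (Fin 2) F)) hcomm
  simp only [Matrix.SpecialLinearGroup.coe_mul] at h3
  rw [mul_sub, sub_mul, mul_one, one_mul, h3]

/-- The class of a unipotent element of `SL₂(q)` has size prime to `p`. -/
theorem not_dvd_index_centralizer_uSL [Fintype F] [DecidableEq F] {p : ℕ} [Fact p.Prime]
    [CharP F p] (x : F) :
    ¬ p ∣ (Subgroup.centralizer ({uSL x} : Set (Matrix.SpecialLinearGroup (Fin 2) F))).index := by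
  have hp : p.Prime := Fact.out
  intro hdvd
  obtain ⟨n, -, hq⟩ := FiniteField.card F p
  have hle : (uSLHom (F := F)).range ≤
      Subgroup.centralizer ({uSL x} : Set (Matrix.SpecialLinearGroup (Fin 2) F)) := by
    rintro _ ⟨y, rfl⟩
    rw [Subgroup.mem_centralizer_iff]
    intro z hz
    rw [Set.mem_singleton_iff] at hz
    subst hz
    change uSL x * uSL (Multiplicative.toAdd y) = uSL (Multiplicative.toAdd y) * uSL x
    rw [← uSL_add, ← uSL_add, add_comm]
  have hcard : Nat.card (uSLHom (F := F)).range = Fintype.card F := by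
    have hinj : Function.Injective (uSLHom (F := F)) := by
      intro a b hab
      exact Multiplicative.toAdd.injective (uSL_injective hab)
    rw [← Nat.card_congr (MonoidHom.ofInjective hinj).toEquiv, Nat.card_eq_fintype_card]
    exact Fintype.card_congr Multiplicative.toAdd
  have h1 := Subgroup.card_dvd_of_le hle
  rw [hcard] at h1
  obtain ⟨m, hm⟩ := h1
  have h2 := (Subgroup.centralizer
    ({uSL x} : Set (Matrix.SpecialLinearGroup (Fin 2) F))).index_mul_card
  rw [Helper5.card_SL2, hm] at h2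
  have hq0 : 0 < Fintype.card F := Fintype.card_pos
  have h3 : (Subgroup.centralizer
    ({uSL x} : Set (Matrix.SpecialLinearGroup (Fin 2) F))).index * m = Fintype.card F ^ 2 - 1 := by
    apply Nat.eq_of_mul_eq_mul_left hq0
    rw [← h2]
    ring
  have h4 : p ∣ Fintype.card F ^ 2 - 1 := by
    rw [← h3]
    exact Dvd.dvd.mul_right hdvd _
  have h5 : p ∣ Fintype.card F ^ 2 := by
    rw [hq]
    exact Dvd.dvd.pow (dvd_pow_self p n.ne_zero) two_ne_zero
  have h6 : 1 ≤ Fintype.card F ^ 2 := Nat.one_le_pow _ _ hq0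
  have h7 : p ∣ 1 := by
    have := Nat.dvd_sub h5 h4
    rwa [Nat.sub_sub_self h6] at this
  exact hp.one_lt.ne' (Nat.dvd_one.mp h7)

end sl2

section blocks

variable {F : Type*} [Field F] [Fintype F] [DecidableEq F]

omit [Fintype F] [DecidableEq F] in
/-- Every irreducible character of `SL₂` is even or odd. -/
theorem sl2_sign (χ : IrrCharacter (Matrix.SpecialLinearGroup (Fin 2) F)) :
    (χ : Matrix.SpecialLinearGroup (Fin 2) F → ℂ) negSL =
        (χ : Matrix.SpecialLinearGroup (Fin 2) F → ℂ) 1 ∨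
      (χ : Matrix.SpecialLinearGroup (Fin 2) F → ℂ) negSL =
        -(χ : Matrix.SpecialLinearGroup (Fin 2) F → ℂ) 1 := by
  obtain ⟨ε, hε, h⟩ := irr_central_sign χ (negSL_mem_center (F := F))
    (by rw [← mul_one (negSL * negSL), mul_assoc]; exact negSL_mul_negSL_mul 1)
  have h1 := h 1
  rw [mul_one] at h1
  rcases hε with rfl | rfl
  · left; rw [h1, one_mul]
  · right; rw [h1]; ring

theorem st_negSL : (psSL (1 : MulChar F ℂ) - trivSL :
    Matrix.SpecialLinearGroup (Fin 2) F → ℂ) negSL = (Fintype.card F : ℂ) := by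
  rw [Pi.sub_apply, psSL_negSL, MulChar.one_apply (isUnit_one.neg)]
  simp [trivSL]

/-- The Steinberg character is even. -/
theorem sl2_even_of_degree_q (χ : IrrCharacter (Matrix.SpecialLinearGroup (Fin 2) F))
    (h : (χ : Matrix.SpecialLinearGroup (Fin 2) F → ℂ) 1 = (Fintype.card F : ℂ)) :
    (χ : Matrix.SpecialLinearGroup (Fin 2) F → ℂ) negSL =
      (χ : Matrix.SpecialLinearGroup (Fin 2) F → ℂ) 1 := by
  have e := sl2_degree_q χ.2 h
  rw [h, e, st_negSL]

/-- The irreducible characters other than the Steinberg character have degree prime to `p`. -/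
theorem sl2_not_dvd_degree {p : ℕ} [Fact p.Prime] [CharP F p] (hp2 : p ≠ 2)
    (χ : IrrCharacter (Matrix.SpecialLinearGroup (Fin 2) F))
    (hχ : (χ : Matrix.SpecialLinearGroup (Fin 2) F → ℂ) 1 ≠ (Fintype.card F : ℂ)) :
    ¬ p ∣ charDegree (χ : Matrix.SpecialLinearGroup (Fin 2) F → ℂ) := by
  have hp : p.Prime := Fact.out
  obtain ⟨n, -, hq⟩ := FiniteField.card F p
  have hodd : Odd (Fintype.card F) := by rw [hq]; exact (hp.odd_of_ne_two hp2).pow
  have hpq : p ∣ Fintype.card F := by rw [hq]; exact dvd_pow_self p n.ne_zero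
  obtain ⟨k, hk⟩ := hodd
  have hodd' : Odd (Fintype.card F) := ⟨k, hk⟩
  intro hdvd
  have key : ∀ m : ℕ, (χ : Matrix.SpecialLinearGroup (Fin 2) F → ℂ) 1 = (m : ℂ) → p ∣ m := by
    intro m hm
    rwa [charDegree_of_apply_one hm] at hdvd
  rw [hk] at hpq
  have hp1 : ¬ p ∣ 1 := fun h => hp.one_lt.ne' (Nat.dvd_one.mp h)
  rcases sl2_odd_degree_cases hodd' hk χ.2 with ⟨h, -⟩ | ⟨h, -⟩ | ⟨h, -⟩ | h | h | h
  · exact hp1 (key 1 h)
  · exact hχ (by rw [h, hk])
  · have h1 := Nat.dvd_sub (key _ h) hpq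
    have h2 : 2 * k + 2 - (2 * k + 1) = 1 := by omega
    rw [h2] at h1
    exact hp1 h1
  · have h1 := Nat.dvd_sub (Dvd.dvd.mul_left (key _ h) 2) hpq
    have h2 : 2 * (k + 1) - (2 * k + 1) = 1 := by omega
    rw [h2] at h1
    exact hp1 h1
  · have h1 := Nat.dvd_sub hpq (Dvd.dvd.mul_left (key _ h) 2)
    have h2 : 2 * k + 1 - 2 * k = 1 := by omega
    rw [h2] at h1
    exact hp1 h1
  · have h1 := Nat.dvd_sub hpq (key _ h)
    have h2 : 2 * k + 1 - 2 * k = 1 := by omega
    rw [h2] at h1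
    exact hp1 h1

/-- An odd irreducible character exists. -/
theorem sl2_exists_odd (h2 : (2 : F) ≠ 0) :
    ∃ χ : IrrCharacter (Matrix.SpecialLinearGroup (Fin 2) F),
      (χ : Matrix.SpecialLinearGroup (Fin 2) F → ℂ) negSL =
        -(χ : Matrix.SpecialLinearGroup (Fin 2) F → ℂ) 1 := by
  have : Fintype (Cfsg.IrrCharacter (Matrix.SpecialLinearGroup (Fin 2) F)) := Fintype.ofFinite _
  by_contra hcon
  push Not at hcon
  have hall : ∀ χ : IrrCharacter (Matrix.SpecialLinearGroup (Fin 2) F),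
      (χ : Matrix.SpecialLinearGroup (Fin 2) F → ℂ) negSL =
        (χ : Matrix.SpecialLinearGroup (Fin 2) F → ℂ) 1 :=
    fun χ => (sl2_sign χ).resolve_right (hcon χ)
  have hne : (negSL : Matrix.SpecialLinearGroup (Fin 2) F) ≠ 1 := by
    intro h
    have h3 := congrArg (fun g : Matrix.SpecialLinearGroup (Fin 2) F =>
      (g : Matrix (Fin 2) (Fin 2) F) 0 0) h
    simp only [negSL_coe, Matrix.SpecialLinearGroup.coe_one] at h3
    simp at h3
    apply h2
    linear_combination -h3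
  have s0 := Cfsg.Agent.Helper80.irr_sum_degree_mul_of_ne_one hne
  have s1 := Cfsg.Agent.Helper80.irr_sum_degree_sq (G := Matrix.SpecialLinearGroup (Fin 2) F)
  have e : ∑ χ : IrrCharacter (Matrix.SpecialLinearGroup (Fin 2) F),
      (χ : Matrix.SpecialLinearGroup (Fin 2) F → ℂ) 1 *
        (χ : Matrix.SpecialLinearGroup (Fin 2) F → ℂ) negSL =
      ∑ χ : IrrCharacter (Matrix.SpecialLinearGroup (Fin 2) F),
      (χ : Matrix.SpecialLinearGroup (Fin 2) F → ℂ) 1 *
        (χ : Matrix.SpecialLinearGroup (Fin 2) F → ℂ) 1 :=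
    Finset.sum_congr rfl (fun χ _ => by rw [hall χ])
  rw [e, s1] at s0
  exact Fintype.card_ne_zero (by exact_mod_cast s0)

omit [Fintype F] [DecidableEq F] in
/-- Characters in the same block have the same sign. -/
theorem sl2_sameBlock_sign {p : ℕ} [Fact p.Prime] (hp2 : p ≠ 2) {M : Ideal AlgInt}
    (hM : IsPModular p M) (χ ψ : IrrCharacter (Matrix.SpecialLinearGroup (Fin 2) F))
    (h : SameBlock M (χ : Matrix.SpecialLinearGroup (Fin 2) F → ℂ)
      (ψ : Matrix.SpecialLinearGroup (Fin 2) F → ℂ)) :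
    (χ : Matrix.SpecialLinearGroup (Fin 2) F → ℂ) negSL *
        (ψ : Matrix.SpecialLinearGroup (Fin 2) F → ℂ) 1 =
      (ψ : Matrix.SpecialLinearGroup (Fin 2) F → ℂ) negSL *
        (χ : Matrix.SpecialLinearGroup (Fin 2) F → ℂ) 1 := by
  have hp : p.Prime := Fact.out
  have h1 := h negSL
  have hidx : (Subgroup.centralizer
      ({negSL} : Set (Matrix.SpecialLinearGroup (Fin 2) F))).index = 1 := by
    have : Subgroup.centralizer ({negSL} : Set (Matrix.SpecialLinearGroup (Fin 2) F)) = ⊤ := by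
      rw [Subgroup.centralizer_eq_top_iff_subset]
      intro x hx
      rw [Set.mem_singleton_iff] at hx
      subst hx
      exact negSL_mem_center
    rw [this, Subgroup.index_top]
  unfold centralChar at h1
  rw [hidx] at h1
  have hχ0 := Helper81.irr_one_ne_zero χ
  have hψ0 := Helper81.irr_one_ne_zero ψ
  have hp2' : ¬ p ∣ 2 := fun hd => hp2 ((Nat.prime_dvd_prime_iff_eq hp Nat.prime_two).mp hd)
  rcases sl2_sign χ with h2 | h2 <;> rcases sl2_sign ψ with h3 | h3
  · rw [h2, h3]; ring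
  · exfalso
    rw [h2, h3] at h1
    have e : ((1 : ℕ) : ℂ) * (χ : Matrix.SpecialLinearGroup (Fin 2) F → ℂ) 1 /
        (χ : Matrix.SpecialLinearGroup (Fin 2) F → ℂ) 1 -
        ((1 : ℕ) : ℂ) * (-(ψ : Matrix.SpecialLinearGroup (Fin 2) F → ℂ) 1) /
        (ψ : Matrix.SpecialLinearGroup (Fin 2) F → ℂ) 1 = ((2 : ℕ) : ℂ) := by
      field_simp
      norm_num
    rw [e] at h1
    exact Helper77.not_memLocalIdeal_natCast hM hp2' h1
  · exfalso
    rw [h2, h3] at h1
    have e : ((1 : ℕ) : ℂ) * (-(χ : Matrix.SpecialLinearGroup (Fin 2) F → ℂ) 1) /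
        (χ : Matrix.SpecialLinearGroup (Fin 2) F → ℂ) 1 -
        ((1 : ℕ) : ℂ) * ((ψ : Matrix.SpecialLinearGroup (Fin 2) F → ℂ) 1) /
        (ψ : Matrix.SpecialLinearGroup (Fin 2) F → ℂ) 1 = -((2 : ℕ) : ℂ) := by
      field_simp
      norm_num
    rw [e] at h1
    have h4 := Helper77.memLocalIdeal_neg h1
    rw [neg_neg] at h4
    exact Helper77.not_memLocalIdeal_natCast hM hp2' h4
  · rw [h2, h3]; ring

/-- A character in the block of the Steinberg character is the Steinberg character. -/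
theorem sl2_sameBlock_st {p : ℕ} [Fact p.Prime] [CharP F p] (hp2 : p ≠ 2) {M : Ideal AlgInt}
    (hM : IsPModular p M) (χ ψ : IrrCharacter (Matrix.SpecialLinearGroup (Fin 2) F))
    (h : SameBlock M (χ : Matrix.SpecialLinearGroup (Fin 2) F → ℂ)
      (ψ : Matrix.SpecialLinearGroup (Fin 2) F → ℂ))
    (hχ : (χ : Matrix.SpecialLinearGroup (Fin 2) F → ℂ) 1 = (Fintype.card F : ℂ)) :
    (ψ : Matrix.SpecialLinearGroup (Fin 2) F → ℂ) 1 = (Fintype.card F : ℂ) := by
  by_contra hψ
  have hdeg := sl2_not_dvd_degree hp2 ψ hψ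
  have h1 := h (uSL 1)
  have hχu : (χ : Matrix.SpecialLinearGroup (Fin 2) F → ℂ) (uSL 1) = 0 := by
    rw [sl2_degree_q χ.2 hχ]
    exact (stSL_values (uSL 1)).2.2 (by simp [uSL_coe]) (by simp [uSL_coe]) (by simp [uSL_coe])
  have h2 : MemLocalIdeal M (centralChar (ψ : Matrix.SpecialLinearGroup (Fin 2) F → ℂ)
      (uSL 1)) := by
    have e : centralChar (χ : Matrix.SpecialLinearGroup (Fin 2) F → ℂ) (uSL 1) = 0 := by
      unfold centralChar
      rw [hχu]
      simp
    rw [e, zero_sub] at h1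
    have := Helper77.memLocalIdeal_neg h1
    rwa [neg_neg] at this
  have h3 := Helper16.memLocalIdeal_of_centralChar_of_le hM ψ (uSL 1) (by
    rw [Nat.factorization_eq_zero_of_not_dvd (not_dvd_index_centralizer_uSL 1)]
    exact Nat.zero_le _) h2
  have hx : ∃ k : ℕ, orderOf (uSL (1 : F)) = p ^ k :=
    orderOf_of_trace_two _ (by simp [uSL_coe, Matrix.trace_fin_two]; norm_num)
  have h4 := Helper16.irr_mul_sub_memLocalIdeal hM ψ hx (Commute.one_right _)
  rw [mul_one] at h4
  have h5 := Helper77.memLocalIdeal_sub hM.2.1 h3 h4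
  rw [sub_sub_cancel, Helper81.irr_one_eq_charDegree] at h5
  exact Helper77.not_memLocalIdeal_natCast hM hdeg h5

/-- Two characters other than the Steinberg character and of the same sign lie in the same
block. -/
theorem sl2_sameBlock_of_sign {p : ℕ} [Fact p.Prime] [CharP F p] (hp2 : p ≠ 2)
    {M : Ideal AlgInt} (hM : IsPModular p M)
    (χ ψ : IrrCharacter (Matrix.SpecialLinearGroup (Fin 2) F))
    (hχ : (χ : Matrix.SpecialLinearGroup (Fin 2) F → ℂ) 1 ≠ (Fintype.card F : ℂ))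
    (hψ : (ψ : Matrix.SpecialLinearGroup (Fin 2) F → ℂ) 1 ≠ (Fintype.card F : ℂ))
    (hs : (χ : Matrix.SpecialLinearGroup (Fin 2) F → ℂ) negSL *
        (ψ : Matrix.SpecialLinearGroup (Fin 2) F → ℂ) 1 =
      (ψ : Matrix.SpecialLinearGroup (Fin 2) F → ℂ) negSL *
        (χ : Matrix.SpecialLinearGroup (Fin 2) F → ℂ) 1) :
    SameBlock M (χ : Matrix.SpecialLinearGroup (Fin 2) F → ℂ)
      (ψ : Matrix.SpecialLinearGroup (Fin 2) F → ℂ) := by
  apply sameBlock_of_pprime_degree hM χ ψ (sl2_not_dvd_degree hp2 χ hχ)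
    (sl2_not_dvd_degree hp2 ψ hψ)
  intro g
  by_cases ht : (g : Matrix (Fin 2) (Fin 2) F).trace ^ 2 = 4
  · right
    obtain ⟨x, z, hg, hx, hxz, hz⟩ := exists_pelement_of_trace (p := p) g ht
    refine ⟨x, z, hg, hx, hxz, ?_⟩
    rcases hz with rfl | rfl
    · ring
    · exact hs
  · left
    exact dvd_index_centralizer_of_trace g ht

/-- The block of an irreducible character of `SL₂(q)`. -/
theorem sl2_blockOf {p : ℕ} [Fact p.Prime] [CharP F p] (hp2 : p ≠ 2)
    {M : Ideal AlgInt} (hM : IsPModular p M)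
    (χ : IrrCharacter (Matrix.SpecialLinearGroup (Fin 2) F)) :
    ((χ : Matrix.SpecialLinearGroup (Fin 2) F → ℂ) 1 = (Fintype.card F : ℂ) →
      blockOf M (χ : Matrix.SpecialLinearGroup (Fin 2) F → ℂ) =
        {ψ : IrrCharacter (Matrix.SpecialLinearGroup (Fin 2) F) |
          (ψ : Matrix.SpecialLinearGroup (Fin 2) F → ℂ) 1 = (Fintype.card F : ℂ)}) ∧
    ((χ : Matrix.SpecialLinearGroup (Fin 2) F → ℂ) negSL =
        (χ : Matrix.SpecialLinearGroup (Fin 2) F → ℂ) 1 →
      (χ : Matrix.SpecialLinearGroup (Fin 2) F → ℂ) 1 ≠ (Fintype.card F : ℂ) →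
      blockOf M (χ : Matrix.SpecialLinearGroup (Fin 2) F → ℂ) =
        {ψ : IrrCharacter (Matrix.SpecialLinearGroup (Fin 2) F) |
          (ψ : Matrix.SpecialLinearGroup (Fin 2) F → ℂ) negSL =
            (ψ : Matrix.SpecialLinearGroup (Fin 2) F → ℂ) 1 ∧
          (ψ : Matrix.SpecialLinearGroup (Fin 2) F → ℂ) 1 ≠ (Fintype.card F : ℂ)}) ∧
    ((χ : Matrix.SpecialLinearGroup (Fin 2) F → ℂ) negSL =
        -(χ : Matrix.SpecialLinearGroup (Fin 2) F → ℂ) 1 →
      blockOf M (χ : Matrix.SpecialLinearGroup (Fin 2) F → ℂ) =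
        {ψ : IrrCharacter (Matrix.SpecialLinearGroup (Fin 2) F) |
          (ψ : Matrix.SpecialLinearGroup (Fin 2) F → ℂ) negSL =
            -(ψ : Matrix.SpecialLinearGroup (Fin 2) F → ℂ) 1}) := by
  have hχ0 := Helper81.irr_one_ne_zero χ
  refine ⟨fun h1 => ?_, fun hs h1 => ?_, fun hs => ?_⟩
  · ext ψ
    constructor
    · intro hψ
      exact sl2_sameBlock_st hp2 hM χ ψ hψ h1
    · intro hψ
      have e : ψ = χ := by
        apply Subtype.ext
        have hψ' : (ψ : Matrix.SpecialLinearGroup (Fin 2) F → ℂ) 1 = (Fintype.card F : ℂ) := hψ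
        rw [sl2_degree_q χ.2 h1, sl2_degree_q ψ.2 hψ']
      rw [e]
      exact Helper16.sameBlock_refl hM.2.1 _
  · ext ψ
    have hψ0 := Helper81.irr_one_ne_zero ψ
    constructor
    · intro hψ
      have h2 := sl2_sameBlock_sign hp2 hM χ ψ hψ
      refine ⟨?_, fun hq => h1 (sl2_sameBlock_st hp2 hM ψ χ (Helper16.sameBlock_symm hψ) hq)⟩
      rw [hs] at h2
      have h3 : (χ : Matrix.SpecialLinearGroup (Fin 2) F → ℂ) 1 *
          ((ψ : Matrix.SpecialLinearGroup (Fin 2) F → ℂ) negSL -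
            (ψ : Matrix.SpecialLinearGroup (Fin 2) F → ℂ) 1) = 0 := by
        linear_combination -h2
      rcases mul_eq_zero.1 h3 with h | h
      · exact absurd h hχ0
      · exact sub_eq_zero.mp h
    · rintro ⟨hψs, hψ1⟩
      apply sl2_sameBlock_of_sign hp2 hM χ ψ h1 hψ1
      rw [hs, hψs]
      ring
  · have h1 : (χ : Matrix.SpecialLinearGroup (Fin 2) F → ℂ) 1 ≠ (Fintype.card F : ℂ) := by
      intro hq
      have h2 := sl2_even_of_degree_q χ hq
      rw [hs] at h2
      apply hχ0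
      linear_combination -h2 / 2
    ext ψ
    have hψ0 := Helper81.irr_one_ne_zero ψ
    constructor
    · intro hψ
      have h2 := sl2_sameBlock_sign hp2 hM χ ψ hψ
      rw [hs] at h2
      have h3 : (χ : Matrix.SpecialLinearGroup (Fin 2) F → ℂ) 1 *
          ((ψ : Matrix.SpecialLinearGroup (Fin 2) F → ℂ) negSL +
            (ψ : Matrix.SpecialLinearGroup (Fin 2) F → ℂ) 1) = 0 := by
        linear_combination -h2
      rcases mul_eq_zero.1 h3 with h | h
      · exact absurd h hχ0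
      · exact eq_neg_of_add_eq_zero_left h
    · intro hψs
      have hψs' : (ψ : Matrix.SpecialLinearGroup (Fin 2) F → ℂ) negSL =
            -(ψ : Matrix.SpecialLinearGroup (Fin 2) F → ℂ) 1 := hψs
      have hψ1 : (ψ : Matrix.SpecialLinearGroup (Fin 2) F → ℂ) 1 ≠ (Fintype.card F : ℂ) := by
        intro hq
        have h2 := sl2_even_of_degree_q ψ hq
        rw [hψs'] at h2
        apply hψ0
        linear_combination -h2 / 2
      apply sl2_sameBlock_of_sign hp2 hM χ ψ h1 hψ1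
      rw [hs, hψs']
      ring

/-- **The `p`-blocks of `SL₂(q)`**, `q` a power of the odd prime `p`. -/
theorem sl2_blocks_main (p : ℕ) [Fact p.Prime] [CharP F p] (hp2 : p ≠ 2)
    (M : Ideal AlgInt) (hM : IsPModular p M) :
    (∀ B : Set (IrrCharacter (Matrix.SpecialLinearGroup (Fin 2) F)), IsPBlock M B ↔
      (B = {χ : IrrCharacter (Matrix.SpecialLinearGroup (Fin 2) F) |
          (χ : Matrix.SpecialLinearGroup (Fin 2) F → ℂ) 1 = (Fintype.card F : ℂ)} ∨
       B = {χ : IrrCharacter (Matrix.SpecialLinearGroup (Fin 2) F) |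
          (χ : Matrix.SpecialLinearGroup (Fin 2) F → ℂ) negSL =
            (χ : Matrix.SpecialLinearGroup (Fin 2) F → ℂ) 1 ∧
          (χ : Matrix.SpecialLinearGroup (Fin 2) F → ℂ) 1 ≠ (Fintype.card F : ℂ)} ∨
       B = {χ : IrrCharacter (Matrix.SpecialLinearGroup (Fin 2) F) |
          (χ : Matrix.SpecialLinearGroup (Fin 2) F → ℂ) negSL =
            -(χ : Matrix.SpecialLinearGroup (Fin 2) F → ℂ) 1})) ∧
    Nat.card {B : Set (IrrCharacter (Matrix.SpecialLinearGroup (Fin 2) F)) // IsPBlock M B} = 3 ∧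
    ∀ P : Sylow p (Matrix.SpecialLinearGroup (Fin 2) F),
      IsDefectGroup p M {χ : IrrCharacter (Matrix.SpecialLinearGroup (Fin 2) F) |
          (χ : Matrix.SpecialLinearGroup (Fin 2) F → ℂ) negSL =
            (χ : Matrix.SpecialLinearGroup (Fin 2) F → ℂ) 1 ∧
          (χ : Matrix.SpecialLinearGroup (Fin 2) F → ℂ) 1 ≠ (Fintype.card F : ℂ)}
        (P : Subgroup (Matrix.SpecialLinearGroup (Fin 2) F)) ∧
      IsDefectGroup p M {χ : IrrCharacter (Matrix.SpecialLinearGroup (Fin 2) F) |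
          (χ : Matrix.SpecialLinearGroup (Fin 2) F → ℂ) negSL =
            -(χ : Matrix.SpecialLinearGroup (Fin 2) F → ℂ) 1}
        (P : Subgroup (Matrix.SpecialLinearGroup (Fin 2) F)) := by
  have hp : p.Prime := Fact.out
  have h2F : (2 : F) ≠ 0 := by
    apply Ring.two_ne_zero
    rw [ringChar.eq F p]
    exact hp2
  have hq1 : 1 < Fintype.card F := Fintype.one_lt_card
  set A₁ : Set (IrrCharacter (Matrix.SpecialLinearGroup (Fin 2) F)) :=
    {χ : IrrCharacter (Matrix.SpecialLinearGroup (Fin 2) F) |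
          (χ : Matrix.SpecialLinearGroup (Fin 2) F → ℂ) 1 = (Fintype.card F : ℂ)} with hA₁
  set A₂ : Set (IrrCharacter (Matrix.SpecialLinearGroup (Fin 2) F)) :=
    {χ : IrrCharacter (Matrix.SpecialLinearGroup (Fin 2) F) |
          (χ : Matrix.SpecialLinearGroup (Fin 2) F → ℂ) negSL =
            (χ : Matrix.SpecialLinearGroup (Fin 2) F → ℂ) 1 ∧
          (χ : Matrix.SpecialLinearGroup (Fin 2) F → ℂ) 1 ≠ (Fintype.card F : ℂ)} with hA₂
  set A₃ : Set (IrrCharacter (Matrix.SpecialLinearGroup (Fin 2) F)) :=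
    {χ : IrrCharacter (Matrix.SpecialLinearGroup (Fin 2) F) |
          (χ : Matrix.SpecialLinearGroup (Fin 2) F → ℂ) negSL =
            -(χ : Matrix.SpecialLinearGroup (Fin 2) F → ℂ) 1} with hA₃
  have hb := sl2_blockOf (F := F) hp2 hM
  let χ₁ : IrrCharacter (Matrix.SpecialLinearGroup (Fin 2) F) :=
    ⟨psSL (1 : MulChar F ℂ) - trivSL, psSL_one_sub_irr⟩
  let χ₂ : IrrCharacter (Matrix.SpecialLinearGroup (Fin 2) F) := ⟨trivSL, trivSL_irr⟩
  obtain ⟨χ₃, hχ₃⟩ := sl2_exists_odd h2F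
  have h1 : (χ₁ : Matrix.SpecialLinearGroup (Fin 2) F → ℂ) 1 = (Fintype.card F : ℂ) := by
    change (psSL (1 : MulChar F ℂ) - trivSL : Matrix.SpecialLinearGroup (Fin 2) F → ℂ) 1 = _
    rw [Pi.sub_apply, psSL_one]
    simp [trivSL]
  have h2 : (χ₂ : Matrix.SpecialLinearGroup (Fin 2) F → ℂ) negSL =
      (χ₂ : Matrix.SpecialLinearGroup (Fin 2) F → ℂ) 1 := rfl
  have h2' : (χ₂ : Matrix.SpecialLinearGroup (Fin 2) F → ℂ) 1 ≠ (Fintype.card F : ℂ) := by
    change (1 : ℂ) ≠ _
    intro h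
    have : (1 : ℕ) = Fintype.card F := by exact_mod_cast h
    omega
  have h3 : (χ₃ : Matrix.SpecialLinearGroup (Fin 2) F → ℂ) 1 ≠ (Fintype.card F : ℂ) := by
    intro hq
    have h4 := sl2_even_of_degree_q χ₃ hq
    rw [hχ₃] at h4
    apply Helper81.irr_one_ne_zero χ₃
    linear_combination -h4 / 2
  have hiff : ∀ B : Set (IrrCharacter (Matrix.SpecialLinearGroup (Fin 2) F)), IsPBlock M B ↔
      (B = A₁ ∨ B = A₂ ∨ B = A₃) := by
    intro B
    constructor
    · rintro ⟨χ, rfl⟩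
      by_cases hq : (χ : Matrix.SpecialLinearGroup (Fin 2) F → ℂ) 1 = (Fintype.card F : ℂ)
      · left; exact (hb χ).1 hq
      · rcases sl2_sign χ with hs | hs
        · right; left; exact (hb χ).2.1 hs hq
        · right; right; exact (hb χ).2.2 hs
    · rintro (rfl | rfl | rfl)
      · exact ⟨χ₁, ((hb χ₁).1 h1).symm⟩
      · exact ⟨χ₂, ((hb χ₂).2.1 h2 h2').symm⟩
      · exact ⟨χ₃, ((hb χ₃).2.2 hχ₃).symm⟩
  refine ⟨hiff, ?_, ?_⟩
  · have hne12 : A₁ ≠ A₂ := by
      intro h
      have h4 : χ₁ ∈ A₂ := by rw [← h]; exact h1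
      exact h4.2 h1
    have hne13 : A₁ ≠ A₃ := by
      intro h
      have h4 : χ₃ ∈ A₁ := by rw [h]; exact hχ₃
      exact h3 h4
    have hne23 : A₂ ≠ A₃ := by
      intro h
      have h4 : χ₃ ∈ A₂ := by rw [h]; exact hχ₃
      exact h4.2 (absurd h4.1 (by
        rw [hχ₃]
        intro h5
        apply Helper81.irr_one_ne_zero χ₃
        linear_combination -h5 / 2))
    have hset : {B : Set (IrrCharacter (Matrix.SpecialLinearGroup (Fin 2) F)) | IsPBlock M B} =
        ({A₁, A₂, A₃} : Set (Set (IrrCharacter (Matrix.SpecialLinearGroup (Fin 2) F)))) := by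
      ext B
      simp only [Set.mem_ofPred_eq, Set.mem_insert_iff, Set.mem_singleton_iff]
      exact hiff B
    have hcard : Nat.card {B : Set (IrrCharacter (Matrix.SpecialLinearGroup (Fin 2) F)) //
        IsPBlock M B} = Set.ncard {B : Set (IrrCharacter (Matrix.SpecialLinearGroup (Fin 2) F)) |
          IsPBlock M B} := rfl
    rw [hcard, hset, Set.ncard_eq_three]
    exact ⟨A₁, A₂, A₃, hne12, hne13, hne23, rfl⟩
  · intro P
    constructor
    · have e : A₂ = principalBlock M (Matrix.SpecialLinearGroup (Fin 2) F) :=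
        ((hb χ₂).2.1 h2 h2').symm
      rw [e]
      exact (Helper77.isDefectGroup_principalBlock_iff p M hM _).2 ⟨P, rfl⟩
    · exact isDefectGroup_sylow_of_pprime hM ((hiff A₃).2 (Or.inr (Or.inr rfl))) (χ := χ₃) hχ₃
        (sl2_not_dvd_degree hp2 χ₃ h3) P

end blocks

end Cfsg.Agent.Helper39
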