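import Mathlib
import Cfsg.Agent.Helper39.SL2Half

/-!
# Sums of irreducible characters of `SL₂(q)`, `q` odd, over the unitriangular subgroup (helper39)
-/

set_option autoImplicit false

namespace Cfsg.Agent.Helper39

open scoped ComplexConjugate
open Cfsg.Agent.Helper38

section USum

variable {F : Type*} [Field F] [Fintype F] [DecidableEq F]

/-- The sum of a function over the upper unitriangular subgroup of `SL₂`. -/
theorem sum_U_eq (χ : Matrix.SpecialLinearGroup (Fin 2) F → ℂ) :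
    (∑ g : Matrix.SpecialLinearGroup (Fin 2) F,
      if (g : Matrix (Fin 2) (Fin 2) F) 1 0 = 0 ∧ (g : Matrix (Fin 2) (Fin 2) F) 0 0 = 1 ∧
        (g : Matrix (Fin 2) (Fin 2) F) 1 1 = 1 then χ g else 0) =
      (Fintype.card F : ℂ) * uMult uSL χ 1 := by
  have hq : (Fintype.card F : ℂ) ≠ 0 := by exact_mod_cast Fintype.card_ne_zero
  unfold uMult
  simp only [AddChar.one_apply, map_one, mul_one]
  rw [← mul_assoc, mul_inv_cancel₀ hq, one_mul, ← Finset.sum_filter]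
  have h : Finset.univ.filter (fun g : Matrix.SpecialLinearGroup (Fin 2) F =>
      (g : Matrix (Fin 2) (Fin 2) F) 1 0 = 0 ∧ (g : Matrix (Fin 2) (Fin 2) F) 0 0 = 1 ∧
        (g : Matrix (Fin 2) (Fin 2) F) 1 1 = 1) = Finset.univ.image uSL := by
    ext g
    simp only [Finset.mem_filter, Finset.mem_univ, true_and, Finset.mem_image]
    constructor
    · rintro ⟨h10, h00, h11⟩
      refine ⟨(g : Matrix (Fin 2) (Fin 2) F) 0 1, ?_⟩
      apply Subtype.ext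
      ext i j
      fin_cases i <;> fin_cases j <;> simp [uSL_coe, h10, h00, h11]
    · rintro ⟨x, rfl⟩
      simp [uSL_coe]
  rw [h, Finset.sum_image (fun a _ b _ hab => uSL_injective hab)]

/-- The multiplicity of the trivial character of `U` in an irreducible character of `SL₂(q)`,
`q` odd, `q ≥ 5`, in terms of the degree. -/
theorem sl2_uMult_one_of_degree (hodd : Odd (Fintype.card F)) (hq : 5 ≤ Fintype.card F)
    {χ : Matrix.SpecialLinearGroup (Fin 2) F → ℂ}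
    (hχ : Cfsg.IsIrrCharacter (Matrix.SpecialLinearGroup (Fin 2) F) χ) :
    (χ 1 = (Fintype.card F : ℂ) + 1 → uMult uSL χ 1 = 2) ∧
    (χ 1 = (Fintype.card F : ℂ) → uMult uSL χ 1 = 1) ∧
    (χ 1 = (Fintype.card F : ℂ) - 1 → uMult uSL χ 1 = 0) ∧
    (χ 1 = (((Fintype.card F + 1) / 2 : ℕ) : ℂ) → uMult uSL χ 1 = 1) ∧
    (χ 1 = (((Fintype.card F - 1) / 2 : ℕ) : ℂ) → uMult uSL χ 1 = 0) := by
  obtain ⟨ψ, hψ⟩ := exists_primitive_addChar (F := F)
  obtain ⟨ε, hε⟩ := exists_nonsquare_of_odd hodd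
  have hodd' := hodd
  obtain ⟨k, hk⟩ := hodd
  have hk2 : 2 ≤ k := by omega
  have e1 : (Fintype.card F : ℂ) = ((2 * k + 1 : ℕ) : ℂ) := by rw [hk]
  have e2 : (Fintype.card F : ℂ) + 1 = ((2 * k + 2 : ℕ) : ℂ) := by rw [hk]; push_cast; ring
  have e3 : (Fintype.card F : ℂ) - 1 = ((2 * k : ℕ) : ℂ) := by rw [hk]; push_cast; ring
  have e4 : (Fintype.card F + 1) / 2 = k + 1 := by omega
  have e5 : (Fintype.card F - 1) / 2 = k := by omega
  obtain ⟨s, p, m, hs, hp, hm, hd, hu, ht⟩ := sl2_odd_types_nat hodd' hχ hψ hε hk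
  rw [e2, e3, e1, e4, e5, hd, hs]
  have key : ∀ D : ℕ, ((s + (p + m) * k : ℕ) : ℂ) = (D : ℂ) → s + (p + m) * k = D :=
    fun D h => Nat.cast_injective h
  have hcases : (s = 2 ∧ p + m = 2) ∨ (s = 1 ∧ p + m = 0) ∨ (s = 1 ∧ p + m = 2) ∨
      (s = 1 ∧ p + m = 1) ∨ (s = 0 ∧ p + m = 1) ∨ (s = 0 ∧ p + m = 2) := by
    rcases ht with ⟨rfl, rfl, rfl, -⟩ | ⟨rfl, rfl, rfl, -⟩ | ⟨rfl, rfl, rfl, -⟩ |
      ⟨rfl, hpm, -⟩ | ⟨rfl, h1, h2, h3, -⟩
    · exact Or.inl ⟨rfl, rfl⟩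
    · exact Or.inr (Or.inl ⟨rfl, rfl⟩)
    · exact Or.inr (Or.inr (Or.inl ⟨rfl, rfl⟩))
    · exact Or.inr (Or.inr (Or.inr (Or.inl ⟨rfl, hpm⟩)))
    · have : p + m = 1 ∨ p + m = 2 := by omega
      rcases this with h | h
      · exact Or.inr (Or.inr (Or.inr (Or.inr (Or.inl ⟨rfl, h⟩))))
      · exact Or.inr (Or.inr (Or.inr (Or.inr (Or.inr ⟨rfl, h⟩))))
  refine ⟨fun h => ?_, fun h => ?_, fun h => ?_, fun h => ?_, fun h => ?_⟩ <;>
  · have e := key _ h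
    rcases hcases with ⟨rfl, h'⟩ | ⟨rfl, h'⟩ | ⟨rfl, h'⟩ | ⟨rfl, h'⟩ | ⟨rfl, h'⟩ | ⟨rfl, h'⟩ <;>
    rw [h'] at e <;> first | (exfalso; omega) | simp

end USum

end Cfsg.Agent.Helper39
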