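/-
helper39: CALL S5843 piece FX: for two vectors `b₁ b₂` of a nondegenerate symmetric space of
dimension `≥ 5` over a finite field of odd characteristic there are a singular `u ≠ 0` and a
nonsingular `w ⟂ u`, both orthogonal to `b₁` and `b₂`.
-/
import Mathlib
import Cfsg.Agent.Helper71.SODefs

set_option autoImplicit false

namespace Cfsg.Agent.Helper39.SOFX

open Matrix Cfsg.Agent.Helper71.T4 Cfsg.Agent.Helper71.SO
open scoped Kronecker

variable {F : Type*} [Field F] {n : ℕ}

/-- Chevalley–Warning: a quadratic and two linear equations in at least five variables over a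
finite field have a common nonzero solution. -/
theorem so_fx_cw [Fintype F] (hn : 5 ≤ n) (S : Matrix (Fin n) (Fin n) F) (c₁ c₂ : Fin n → F) :
    ∃ u : Fin n → F, u ≠ 0 ∧ (∑ i, ∑ j, S i j * u i * u j) = 0 ∧ (∑ j, c₁ j * u j) = 0 ∧
      (∑ j, c₂ j * u j) = 0 := by
  classical
  have hp : (ringChar F).Prime := CharP.char_is_prime F (ringChar F)
  let q : MvPolynomial (Fin n) F :=
    ∑ i, ∑ j, MvPolynomial.C (S i j) * MvPolynomial.X i * MvPolynomial.X j
  let l : (Fin n → F) → MvPolynomial (Fin n) F :=
    fun c => ∑ j, MvPolynomial.C (c j) * MvPolynomial.X j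
  have hq : q.totalDegree ≤ 2 := by
    apply MvPolynomial.totalDegree_finsetSum_le
    intro i _
    apply MvPolynomial.totalDegree_finsetSum_le
    intro j _
    refine (MvPolynomial.totalDegree_mul _ _).trans ?_
    have h1 := MvPolynomial.totalDegree_mul (MvPolynomial.C (S i j))
      (MvPolynomial.X i : MvPolynomial (Fin n) F)
    rw [MvPolynomial.totalDegree_C, MvPolynomial.totalDegree_X] at h1
    rw [MvPolynomial.totalDegree_X]
    omega
  have hl : ∀ c, (l c).totalDegree ≤ 1 := by
    intro c
    apply MvPolynomial.totalDegree_finsetSum_le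
    intro j _
    refine (MvPolynomial.totalDegree_mul _ _).trans ?_
    rw [MvPolynomial.totalDegree_C, MvPolynomial.totalDegree_X]
  have hqe : ∀ x : Fin n → F, MvPolynomial.eval x q = ∑ i, ∑ j, S i j * x i * x j := by
    intro x
    simp only [q, map_sum, map_mul, MvPolynomial.eval_C, MvPolynomial.eval_X]
  have hle : ∀ (c x : Fin n → F), MvPolynomial.eval x (l c) = ∑ j, c j * x j := by
    intro c x
    simp only [l, map_sum, map_mul, MvPolynomial.eval_C, MvPolynomial.eval_X]
  let f : Fin 3 → MvPolynomial (Fin n) F := ![q, l c₁, l c₂]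
  have e0 : f 0 = q := rfl
  have e1 : f 1 = l c₁ := rfl
  have e2 : f 2 = l c₂ := rfl
  have hdvd := char_dvd_card_solutions_of_fintype_sum_lt (ringChar F) (f := f) (by
    rw [Fin.sum_univ_three, Fintype.card_fin, e0, e1, e2]
    have h1 := hq
    have h2 := hl c₁
    have h3 := hl c₂
    omega)
  have h0 : ∀ i, MvPolynomial.eval (0 : Fin n → F) (f i) = 0 := by
    intro i
    fin_cases i
    · show MvPolynomial.eval 0 q = 0
      rw [hqe]
      simp
    · show MvPolynomial.eval 0 (l c₁) = 0
      rw [hle]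
      simp
    · show MvPolynomial.eval 0 (l c₂) = 0
      rw [hle]
      simp
  rw [Fintype.card_eq_nat_card] at hdvd
  haveI : Nonempty {x : Fin n → F // ∀ i, MvPolynomial.eval x (f i) = 0} := ⟨⟨0, h0⟩⟩
  have hlt : 1 < Nat.card {x : Fin n → F // ∀ i, MvPolynomial.eval x (f i) = 0} :=
    lt_of_lt_of_le hp.one_lt (Nat.le_of_dvd Nat.card_pos hdvd)
  haveI : Nontrivial {x : Fin n → F // ∀ i, MvPolynomial.eval x (f i) = 0} :=
    Finite.one_lt_card_iff_nontrivial.mp hlt
  obtain ⟨⟨a, ha⟩, hne⟩ :=
    exists_ne (⟨0, h0⟩ : {x : Fin n → F // ∀ i, MvPolynomial.eval x (f i) = 0})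
  refine ⟨a, fun h => hne (Subtype.ext h), ?_, ?_, ?_⟩
  · rw [← hqe]
    exact ha 0
  · rw [← hle]
    exact ha 1
  · rw [← hle]
    exact ha 2

/-! ## Piece FX -/
theorem fix_pair [Finite F] (hn : 5 ≤ n) (h2 : (2 : F) ≠ 0) (S : Matrix (Fin n) (Fin n) F)
    (hS : Sᵀ = S) (hdet : S.det ≠ 0) (b₁ b₂ : Fin n → F) :
    ∃ u w : Fin n → F, u ≠ 0 ∧ bl S u u = 0 ∧ bl S u w = 0 ∧ bl S w w ≠ 0 ∧
      bl S b₁ u = 0 ∧ bl S b₁ w = 0 ∧ bl S b₂ u = 0 ∧ bl S b₂ w = 0 := by
  classical
  haveI : Fintype F := Fintype.ofFinite F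
  set B : LinearMap.BilinForm F (Fin n → F) := Matrix.toBilin' S with hB
  have hBapp : ∀ x y, B x y = bl S x y := fun x y => Matrix.toBilin'_apply' S x y
  have hBnd : B.Nondegenerate := LinearMap.BilinForm.nondegenerate_toBilin'_of_det_ne_zero' S hdet
  have hBsymm : B.IsSymm := Matrix.isSymm_toBilin'_iff_isSymm.mpr hS
  have hBrefl : B.IsRefl := hBsymm.isRefl
  have hsymm : ∀ x y, bl S x y = bl S y x := by
    intro x y
    rw [← hBapp, ← hBapp]
    exact hBsymm.eq x y
  have hdimV : Module.finrank F (Fin n → F) = n := by simp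
  set T : Submodule F (Fin n → F) := Submodule.span F {b₁, b₂} with hT
  have hT2 : Module.finrank F T ≤ 2 := by
    have h1 : Module.finrank F (Submodule.span F
        ((({b₁, b₂} : Finset (Fin n → F)) : Set (Fin n → F)))) ≤
        ({b₁, b₂} : Finset (Fin n → F)).card :=
      finrank_span_finset_le_card (R := F) ({b₁, b₂} : Finset (Fin n → F))
    have h2 : ({b₁, b₂} : Finset (Fin n → F)).card ≤ 2 := Finset.card_le_two
    have h3 : Submodule.span F ((({b₁, b₂} : Finset (Fin n → F)) : Set (Fin n → F))) = T := by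
      rw [hT]
      congr 1
      simp
    rw [h3] at h1
    omega
  set K : Submodule F (Fin n → F) := B.orthogonal T with hK
  have hKmem : ∀ x, x ∈ K ↔ bl S b₁ x = 0 ∧ bl S b₂ x = 0 := by
    intro x
    rw [hK, LinearMap.BilinForm.mem_orthogonal_iff]
    constructor
    · intro h
      refine ⟨?_, ?_⟩
      · rw [← hBapp]
        exact h b₁ (Submodule.subset_span (by simp))
      · rw [← hBapp]
        exact h b₂ (Submodule.subset_span (by simp))
    · rintro ⟨h1, h2⟩ t ht
      rw [hT] at ht
      obtain ⟨a, b, rfl⟩ := Submodule.mem_span_pair.mp ht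
      rw [map_add, LinearMap.add_apply, map_smul, map_smul, LinearMap.smul_apply,
        LinearMap.smul_apply, hBapp, hBapp, h1, h2]
      simp
  have hKdim : n - 2 ≤ Module.finrank F K := by
    rw [hK, LinearMap.BilinForm.finrank_orthogonal hBnd, hdimV]
    omega
  -- polarization
  have hpol : ∀ W : Submodule F (Fin n → F), (∀ w ∈ W, bl S w w = 0) → W ≤ B.orthogonal W := by
    intro W hW x hx
    rw [LinearMap.BilinForm.mem_orthogonal_iff]
    intro y hy
    have h1 := hW (y + x) (W.add_mem hy hx)
    have h3 := hW x hx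
    have h4 := hW y hy
    rw [← hBapp] at h1 h3 h4
    simp only [map_add, LinearMap.add_apply] at h1
    rw [h3, h4, hBsymm.eq x y] at h1
    have h5 : 2 * B y x = 0 := by linear_combination h1
    rcases mul_eq_zero.mp h5 with h6 | h6
    · exact absurd h6 h2
    · exact h6
  have hiso : ∀ W : Submodule F (Fin n → F), W ≤ B.orthogonal W → 2 * Module.finrank F W ≤ n := by
    intro W hW
    have h1 := Submodule.finrank_mono hW
    rw [LinearMap.BilinForm.finrank_orthogonal hBnd, hdimV] at h1
    have h3 := Submodule.finrank_le W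
    rw [hdimV] at h3
    omega
  by_cases hrad : ∃ u, u ≠ 0 ∧ u ∈ K ∧ u ∈ B.orthogonal K
  · obtain ⟨u, hu0, huK, huK'⟩ := hrad
    have hex : ∃ w ∈ K, bl S w w ≠ 0 := by
      by_contra hcon
      simp only [not_exists, not_and, not_not] at hcon
      have h1 := hiso K (hpol K hcon)
      omega
    obtain ⟨w, hwK, hww⟩ := hex
    refine ⟨u, w, hu0, ?_, ?_, hww, ((hKmem u).mp huK).1, ((hKmem w).mp hwK).1,
      ((hKmem u).mp huK).2, ((hKmem w).mp hwK).2⟩
    · rw [← hBapp]
      exact huK' u huK
    · rw [hsymm, ← hBapp]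
      exact huK' w hwK
  · -- a singular vector of `K` by Chevalley–Warning
    obtain ⟨u, hu0, huu, hub1, hub2⟩ := so_fx_cw hn S (b₁ ᵥ* S) (b₂ ᵥ* S)
    have huu' : bl S u u = 0 := by
      rw [← huu]
      simp only [bl, dotProduct, mulVec, Finset.mul_sum]
      apply Finset.sum_congr rfl
      intro i _
      apply Finset.sum_congr rfl
      intro j _
      ring
    have hub1' : bl S b₁ u = 0 := by
      rw [← hub1]
      unfold bl
      rw [Matrix.dotProduct_mulVec]
      rfl
    have hub2' : bl S b₂ u = 0 := by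
      rw [← hub2]
      unfold bl
      rw [Matrix.dotProduct_mulVec]
      rfl
    have huK : u ∈ K := (hKmem u).mpr ⟨hub1', hub2'⟩
    set W : Submodule F (Fin n → F) := B.orthogonal (T ⊔ Submodule.span F {u}) with hW
    have hWK : W ≤ K := LinearMap.BilinForm.orthogonal_le le_sup_left
    have hWu : ∀ w ∈ W, bl S u w = 0 := by
      intro w hw
      rw [← hBapp]
      exact hw u (Submodule.mem_sup_right (Submodule.mem_span_singleton_self u))
    have hu1 : Module.finrank F (Submodule.span F {u}) ≤ 1 := by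
      rw [finrank_span_singleton hu0]
    have hWdim : n - 3 ≤ Module.finrank F W := by
      rw [hW, LinearMap.BilinForm.finrank_orthogonal hBnd, hdimV]
      have h1 := Submodule.finrank_add_le_finrank_add_finrank T (Submodule.span F {u})
      omega
    have hex : ∃ w ∈ W, bl S w w ≠ 0 := by
      by_contra hcon
      simp only [not_exists, not_and, not_not] at hcon
      have hWW := hpol W hcon
      rw [hW, LinearMap.BilinForm.orthogonal_orthogonal hBnd hBrefl, ← hW] at hWW
      have hWle : W ≤ Submodule.span F {u} := by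
        intro x hx
        obtain ⟨t, ht, y, hy, rfl⟩ := Submodule.mem_sup.mp (hWW hx)
        obtain ⟨c, rfl⟩ := Submodule.mem_span_singleton.mp hy
        have htK : t ∈ K := by
          have h1 := K.sub_mem (hWK hx) (K.smul_mem c huK)
          simpa using h1
        have htK' : t ∈ B.orthogonal K := by
          rw [hK]
          exact LinearMap.BilinForm.le_orthogonal_orthogonal hBrefl ht
        have ht0 : t = 0 := by
          by_contra h0
          exact hrad ⟨t, h0, htK, htK'⟩
        rw [ht0, zero_add]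
        exact Submodule.smul_mem _ c (Submodule.mem_span_singleton_self u)
      have h1 := Submodule.finrank_mono hWle
      omega
    obtain ⟨w, hwW, hww⟩ := hex
    exact ⟨u, w, hu0, huu', hWu w hwW, hww, hub1', ((hKmem w).mp (hWK hwW)).1, hub2',
      ((hKmem w).mp (hWK hwW)).2⟩

end Cfsg.Agent.Helper39.SOFX
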