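import Mathlib
import Cfsg.Agent.Helper29.SuzCount

set_option autoImplicit false

namespace Cfsg.Agent.Helper39

open Subgroup

universe u

variable {G : Type u} [Group G] [Finite G]

/-- fibre count for the squaring map of a group whose squares lie in a subgroup `Z` containing
exactly the elements of square one, all nontrivial fibres having size `r`. -/
theorem shaw_count_fib {E : Type*} [Group E] [Finite E] (Z : Subgroup E)
    (hsq : ∀ g : E, g * g ∈ Z) (hinv : ∀ g : E, g * g = 1 → g ∈ Z) (hZ2 : ∀ z ∈ Z, z * z = 1)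
    (r : ℕ) (hconst : ∀ z ∈ Z, z ≠ 1 → Nat.card {g : E // g * g = z} = r) :
    Nat.card E = Nat.card Z + (Nat.card Z - 1) * r := by
  classical
  have : Fintype E := Fintype.ofFinite E
  let φ : E → Z := fun g => ⟨g * g, hsq g⟩
  have h1 := Finset.card_eq_sum_card_fiberwise (f := φ) (s := Finset.univ) (t := Finset.univ)
    (fun x _ => Finset.mem_univ _)
  rw [← Finset.add_sum_erase Finset.univ _ (Finset.mem_univ (1 : Z))] at h1
  have h2 : (Finset.univ.filter (fun g : E => φ g = 1)).card = Nat.card Z := by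
    rw [Nat.card_eq_fintype_card, Fintype.card_subtype]
    congr 1
    ext g
    simp only [Finset.mem_filter, Finset.mem_univ, true_and]
    constructor
    · intro h
      have := congrArg Subtype.val h
      exact hinv g this
    · intro h
      exact Subtype.ext (hZ2 g h)
  have h3 : ∀ z ∈ (Finset.univ : Finset Z).erase 1,
      (Finset.univ.filter (fun g : E => φ g = z)).card = r := by
    intro z hz
    have hz1 : z ≠ 1 := Finset.ne_of_mem_erase hz
    have hz1' : (z : E) ≠ 1 := fun h => hz1 (Subtype.ext h)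
    rw [← hconst z z.2 hz1', Nat.card_eq_fintype_card, Fintype.card_subtype]
    congr 1
    ext g
    simp only [Finset.mem_filter, Finset.mem_univ, true_and]
    constructor
    · intro h
      exact congrArg Subtype.val h
    · intro h
      exact Subtype.ext h
  rw [h2, Finset.sum_const_nat h3, Finset.card_erase_of_mem (Finset.mem_univ _),
    Finset.card_univ, Finset.card_univ, ← Nat.card_eq_fintype_card,
    ← Nat.card_eq_fintype_card] at h1
  exact h1

theorem shaw_count (E Z : Subgroup G) (hE : IsPGroup 2 E) (hZE : Z ≤ E)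
    (hZc : ∀ z ∈ Z, ∀ x ∈ E, x * z = z * x) (hsq : ∀ x ∈ E, x * x ∈ Z)
    (hinv : ∀ x ∈ E, x * x = 1 → x ∈ Z) (hZ2 : ∀ z ∈ Z, z * z = 1) (hZnt : Z ≠ ⊥)
    (hEn : ∀ g : G, ∀ x ∈ E, g * x * g⁻¹ ∈ E)
    (htr : ∀ x ∈ Z, ∀ y ∈ Z, x ≠ 1 → y ≠ 1 → ∃ g : G, g * x * g⁻¹ = y) :
    E = Z ∨ (Nat.card E = Nat.card Z ^ 2 ∧ ∀ x ∈ E, ∀ y ∈ E, x * x = y * y → x⁻¹ * y ∈ Z) ∨
      (Nat.card E = Nat.card Z ^ 3 ∧ ∀ z ∈ Z, ∃ x ∈ E, x * x = z) := by
  classical
  -- the subgroup Z inside E
  set Z' : Subgroup ↥E := Z.subgroupOf E with hZ'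
  have hmemZ' : ∀ x : ↥E, x ∈ Z' ↔ (x : G) ∈ Z := fun x => Subgroup.mem_subgroupOf
  have hZc' : ∀ z ∈ Z', ∀ g : ↥E, g * z = z * g := by
    intro z hz g
    apply Subtype.ext
    simp only [Subgroup.coe_mul]
    exact hZc z ((hmemZ' z).mp hz) g g.2
  have hsq' : ∀ g : ↥E, g * g ∈ Z' := by
    intro g
    rw [hmemZ']
    simp only [Subgroup.coe_mul]
    exact hsq g g.2
  have hinv' : ∀ g : ↥E, g * g = 1 → g ∈ Z' := by
    intro g hg
    rw [hmemZ']
    apply hinv g g.2
    have := congrArg Subtype.val hg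
    simpa using this
  have hZ2' : ∀ z ∈ Z', z * z = 1 := by
    intro z hz
    apply Subtype.ext
    simp only [Subgroup.coe_mul, Subgroup.coe_one]
    exact hZ2 z ((hmemZ' z).mp hz)
  have hZnt' : Z' ≠ ⊥ := by
    intro h
    rw [hZ', Subgroup.subgroupOf_eq_bot, disjoint_iff, inf_eq_left.mpr hZE] at h
    exact hZnt h
  have hcardZ : Nat.card Z' = Nat.card Z :=
    Nat.card_congr (Subgroup.subgroupOfEquivOfLe hZE).toEquiv
  -- a base point
  obtain ⟨z₀, hz₀, hz₀1⟩ : ∃ z : ↥E, z ∈ Z' ∧ z ≠ 1 := by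
    by_contra hcon
    push Not at hcon
    apply hZnt'
    rw [Subgroup.eq_bot_iff_forall]
    intro z hz
    exact hcon z hz
  set r := Nat.card {g : ↥E // g * g = z₀} with hr
  have hconst : ∀ z ∈ Z', z ≠ 1 → Nat.card {g : ↥E // g * g = z} = r := by
    intro z hz hz1
    have hz₀G : (z₀ : G) ≠ 1 := fun h => hz₀1 (Subtype.ext h)
    have hzG : (z : G) ≠ 1 := fun h => hz1 (Subtype.ext h)
    obtain ⟨g, hg⟩ := htr (z₀ : G) ((hmemZ' z₀).mp hz₀) (z : G) ((hmemZ' z).mp hz) hz₀G hzG
    rw [hr]
    symm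
    apply Nat.card_congr
    refine
      { toFun := fun x => ⟨⟨g * (x.1 : G) * g⁻¹, hEn g _ x.1.2⟩, ?_⟩
        invFun := fun y => ⟨⟨g⁻¹ * (y.1 : G) * g, by simpa using hEn g⁻¹ _ y.1.2⟩, ?_⟩
        left_inv := ?_
        right_inv := ?_ }
    · apply Subtype.ext
      have hx := congrArg Subtype.val x.2
      simp only [Subgroup.coe_mul] at hx ⊢
      rw [← hg, ← hx]
      group
    · apply Subtype.ext
      have hy := congrArg Subtype.val y.2
      simp only [Subgroup.coe_mul] at hy ⊢
      have : (z₀ : G) = g⁻¹ * (z : G) * g := by rw [← hg]; group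
      rw [this, ← hy]
      group
    · intro x
      apply Subtype.ext
      apply Subtype.ext
      simp only
      group
    · intro y
      apply Subtype.ext
      apply Subtype.ext
      simp only
      group
  have hcount := shaw_count_fib Z' hsq' hinv' hZ2' r hconst
  have hq2 : 1 < Nat.card Z' := (Subgroup.one_lt_card_iff_ne_bot Z').mpr hZnt'
  rcases Cfsg.Agent.Helper29.suzCount hE Z' hZc' hsq' hinv' hZ2' hZnt' r hconst with h | h | h
  · left
    rw [hcardZ] at h
    exact (Subgroup.eq_of_le_of_card_ge hZE h.le).symm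
  · right; left
    refine ⟨by rw [h, hcardZ], ?_⟩
    have hrq : r = Nat.card Z' := by
      rw [h] at hcount
      obtain ⟨t, ht⟩ : ∃ t, Nat.card Z' = t + 2 := ⟨Nat.card Z' - 2, by omega⟩
      rw [ht] at hcount ⊢
      have e1 : t + 2 - 1 = t + 1 := by omega
      rw [e1] at hcount
      have : (t + 1) * r = (t + 1) * (t + 2) := by nlinarith
      exact Nat.eq_of_mul_eq_mul_left (by omega) this
    intro x hx y hy hxy
    by_cases hx1 : x * x = 1
    · have hy1 : y * y = 1 := by rw [← hxy]; exact hx1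
      exact Z.mul_mem (Z.inv_mem (hinv x hx hx1)) (hinv y hy hy1)
    · set x' : ↥E := ⟨x, hx⟩ with hx'
      set y' : ↥E := ⟨y, hy⟩ with hy'
      have hzz : x' * x' ∈ Z' := hsq' x'
      have hzz1 : x' * x' ≠ 1 := by
        intro h1
        apply hx1
        have := congrArg Subtype.val h1
        simpa using this
      let f : Z' → {g : ↥E // g * g = x' * x'} := fun w =>
        ⟨x' * (w : ↥E), by
          have h1 := hZc' w w.2 x'
          have h2 := hZ2' w w.2
          calc x' * (w : ↥E) * (x' * (w : ↥E)) = x' * ((w : ↥E) * x') * (w : ↥E) := by group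
            _ = x' * (x' * (w : ↥E)) * (w : ↥E) := by rw [h1]
            _ = x' * x' * ((w : ↥E) * (w : ↥E)) := by group
            _ = x' * x' := by rw [h2, mul_one]⟩
      have hf : Function.Injective f := by
        intro w1 w2 h12
        have := congrArg Subtype.val h12
        simp only [f] at this
        exact Subtype.ext (mul_left_cancel this)
      have hbij := hf.bijective_of_nat_card_le (by rw [hconst _ hzz hzz1, hrq])
      obtain ⟨w, hw⟩ := hbij.2 ⟨y', by
        apply Subtype.ext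
        simp only [Subgroup.coe_mul, hx', hy']
        exact hxy.symm⟩
      have hw' := congrArg Subtype.val hw
      simp only [f] at hw'
      have : x'⁻¹ * y' = (w : ↥E) := by rw [← hw']; group
      have hmem : x'⁻¹ * y' ∈ Z' := by rw [this]; exact w.2
      have := (hmemZ' _).mp hmem
      simpa [hx', hy'] using this
  · right; right
    refine ⟨by rw [h, hcardZ], ?_⟩
    have hr0 : r ≠ 0 := by
      intro hr0
      rw [h, hr0, mul_zero, add_zero] at hcount
      have h4 : Nat.card Z' ^ 3 = Nat.card Z' * (Nat.card Z' * Nat.card Z') := by ring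
      have h5 : 2 * 2 ≤ Nat.card Z' * Nat.card Z' := Nat.mul_le_mul hq2 hq2
      rw [h4] at hcount
      nlinarith
    intro z hz
    by_cases hz1 : z = 1
    · exact ⟨1, E.one_mem, by rw [hz1, mul_one]⟩
    · have hzE : z ∈ E := hZE hz
      have hz' : (⟨z, hzE⟩ : ↥E) ∈ Z' := (hmemZ' _).mpr hz
      have hz1' : (⟨z, hzE⟩ : ↥E) ≠ 1 := fun h => hz1 (congrArg Subtype.val h)
      have hc := hconst _ hz' hz1'
      have hne : Nonempty {g : ↥E // g * g = ⟨z, hzE⟩} := by
        by_contra hemp
        rw [not_nonempty_iff] at hemp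
        rw [Nat.card_of_isEmpty] at hc
        exact hr0 hc.symm
      obtain ⟨⟨g, hg⟩⟩ := hne
      refine ⟨(g : G), g.2, ?_⟩
      have := congrArg Subtype.val hg
      simpa using this

end Cfsg.Agent.Helper39
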