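import Mathlib

set_option autoImplicit false

namespace Cfsg.Agent.Helper39

theorem shaw_homo_zpow (N : ℕ) (w : Multiplicative (ZMod N)) : w ^ N = 1 := by
  rw [← ofAdd_toAdd w, ← ofAdd_nsmul, nsmul_eq_mul, ZMod.natCast_self, zero_mul, ofAdd_zero]

theorem shaw_homo_order (N : ℕ) : orderOf (Multiplicative.ofAdd (1 : ZMod N)) = N := by
  rw [orderOf_ofAdd_eq_addOrderOf, ZMod.addOrderOf_one]

theorem shaw_homo {S : Type*} [Group S] [Finite S] (hS : IsPGroup 2 S)
    (hab : ∀ a b : S, a * b = b * a) (Y : Subgroup (MulAut S))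
    (htr : ∀ x y : S, x ≠ 1 → x ^ 2 = 1 → y ≠ 1 → y ^ 2 = 1 → ∃ a ∈ Y, a x = y) :
    ∃ m r : ℕ, Nonempty (S ≃* (Fin r → Multiplicative (ZMod (2 ^ m)))) := by
  classical
  let _ : CommGroup S := { ‹Group S› with mul_comm := hab }
  obtain ⟨ι, _, n, hn, ⟨e⟩⟩ := CommGroup.equiv_prod_multiplicative_zmod_of_finite S
  -- transitivity transported to the product
  have htr' : ∀ x y : (∀ i, Multiplicative (ZMod (n i))), x ≠ 1 → x ^ 2 = 1 → y ≠ 1 → y ^ 2 = 1 →
      ∃ φ : (∀ i, Multiplicative (ZMod (n i))) →* (∀ i, Multiplicative (ZMod (n i))), φ x = y := by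
    intro x y hx1 hx2 hy1 hy2
    obtain ⟨a, -, ha⟩ := htr (e.symm x) (e.symm y)
      (fun h => hx1 (by simpa using congrArg e h))
      (by rw [← map_pow, hx2, map_one])
      (fun h => hy1 (by simpa using congrArg e h))
      (by rw [← map_pow, hy2, map_one])
    refine ⟨(e.toMonoidHom.comp (a : S →* S)).comp e.symm.toMonoidHom, ?_⟩
    simp only [MonoidHom.comp_apply, MulEquiv.coe_toMonoidHom]
    change e (a (e.symm x)) = y
    rw [ha]
    simp
  have hk : ∀ i, ∃ k, n i = 2 ^ k := by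
    intro i
    obtain ⟨k, hk⟩ := hS (e.symm (Pi.mulSingle i (Multiplicative.ofAdd (1 : ZMod (n i)))))
    have h1 := congrArg e hk
    rw [map_pow, map_one e, MulEquiv.apply_symm_apply] at h1
    have h2 := congrFun h1 i
    rw [Pi.pow_apply, Pi.mulSingle_eq_same, Pi.one_apply] at h2
    have h3 := orderOf_dvd_of_pow_eq_one h2
    rw [shaw_homo_order] at h3
    obtain ⟨j, -, hj⟩ := (Nat.dvd_prime_pow Nat.prime_two).mp h3
    exact ⟨j, hj⟩
  choose k hk using hk
  have hk1 : ∀ i, 1 ≤ k i := by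
    intro i
    have := hn i
    rw [hk i] at this
    by_contra h
    have h0 : k i = 0 := by omega
    rw [h0] at this
    simp at this
  have key : ∀ i j, k j ≤ k i := by
    intro i j
    by_contra hlt
    have hlt' : k i ≤ k j - 1 := by omega
    set gi : (∀ l, Multiplicative (ZMod (n l))) :=
      Pi.mulSingle i (Multiplicative.ofAdd (1 : ZMod (n i))) with hgi
    set gj : (∀ l, Multiplicative (ZMod (n l))) :=
      Pi.mulSingle j (Multiplicative.ofAdd (1 : ZMod (n j))) with hgj
    have hgpow : ∀ (l : ι) (N : ℕ),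
        (Pi.mulSingle l (Multiplicative.ofAdd (1 : ZMod (n l))) :
          (∀ l, Multiplicative (ZMod (n l)))) ^ N = 1 →
        n l ∣ N := by
      intro l N h
      have h2 := congrFun h l
      rw [Pi.pow_apply, Pi.mulSingle_eq_same, Pi.one_apply] at h2
      have h3 := orderOf_dvd_of_pow_eq_one h2
      rw [shaw_homo_order] at h3
      exact h3
    have hgn : ∀ (l : ι),
        (Pi.mulSingle l (Multiplicative.ofAdd (1 : ZMod (n l))) :
          (∀ l, Multiplicative (ZMod (n l)))) ^ (n l) = 1 := by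
      intro l
      funext l'
      rw [Pi.pow_apply, Pi.one_apply]
      by_cases hl : l' = l
      · subst hl
        exact shaw_homo_zpow _ _
      · rw [Pi.mulSingle_eq_of_ne hl, one_pow]
    have hinv : ∀ (l : ι),
        ((Pi.mulSingle l (Multiplicative.ofAdd (1 : ZMod (n l))) :
          (∀ l, Multiplicative (ZMod (n l)))) ^ (2 ^ (k l - 1))) ≠ 1 ∧
        ((Pi.mulSingle l (Multiplicative.ofAdd (1 : ZMod (n l))) :
          (∀ l, Multiplicative (ZMod (n l)))) ^ (2 ^ (k l - 1))) ^ 2 = 1 := by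
      intro l
      constructor
      · intro h
        have h1 := hgpow l _ h
        rw [hk l] at h1
        have h2 := Nat.le_of_dvd (by positivity) h1
        have h3 := hk1 l
        have h4 : k l ≤ k l - 1 := (Nat.pow_le_pow_iff_right (by norm_num)).mp h2
        omega
      · rw [← pow_mul, ← pow_succ, Nat.sub_add_cancel (hk1 l), ← hk l]
        exact hgn l
    obtain ⟨φ, hφ⟩ := htr' _ _ (hinv j).1 (hinv j).2 (hinv i).1 (hinv i).2
    rw [map_pow] at hφ
    have h1 := congrFun hφ i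
    rw [Pi.pow_apply, Pi.pow_apply, Pi.mulSingle_eq_same] at h1
    have h2 : (φ (Pi.mulSingle j (Multiplicative.ofAdd (1 : ZMod (n j)))) i) ^ (2 ^ (k j - 1)) = 1 := by
      obtain ⟨d, hd⟩ := Nat.exists_eq_add_of_le hlt'
      rw [hd, pow_add, pow_mul, ← hk i, shaw_homo_zpow, one_pow]
    rw [h2] at h1
    have h3 := orderOf_dvd_of_pow_eq_one h1.symm
    rw [shaw_homo_order, hk i] at h3
    have h4 := Nat.le_of_dvd (by positivity) h3
    have h5 : k i ≤ k i - 1 := (Nat.pow_le_pow_iff_right (by norm_num)).mp h4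
    have := hk1 i
    omega
  have hall : ∀ i j, k i = k j := fun i j => le_antisymm (key j i) (key i j)
  by_cases hne : Nonempty ι
  · obtain ⟨i0⟩ := hne
    have hn' : n = fun _ => 2 ^ k i0 := funext (fun i => by rw [hk i, hall i i0])
    subst hn'
    exact ⟨k i0, Fintype.card ι,
      ⟨e.trans (MulEquiv.arrowCongr (Fintype.equivFin ι) (MulEquiv.refl _))⟩⟩
  · have : IsEmpty ι := not_nonempty_iff.mp hne
    exact ⟨0, 0, ⟨e.trans MulEquiv.ofUnique⟩⟩

end Cfsg.Agent.Helper39
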