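import Mathlib
import Cfsg.Agent.Helper5.SLCard

set_option autoImplicit false

/-!
Sylow `r`-subgroups of `SL_n(q)` for `r > n`, `r ∤ q`.  The number theory and the torus embedding
(`syl_order_pos` ... `syl_exists_torus_embedding`) are taken over from helper40's proof of the
`GL_n` statement (S2380).
-/

namespace Cfsg.Agent.Helper39

open Finset

section NT
variable (q r : ℕ) [Fact r.Prime]

theorem syl_order_pos (hrq : ¬ r ∣ q) : 0 < orderOf (q : ZMod r) := by
  rw [orderOf_pos_iff]
  have hne : (q : ZMod r) ≠ 0 := by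
    rwa [Ne, ZMod.natCast_eq_zero_iff]
  exact isOfFinOrder_iff_pow_eq_one.mpr
    ⟨r - 1, Nat.sub_pos_of_lt (Fact.out : r.Prime).one_lt, ZMod.pow_card_sub_one_eq_one hne⟩

theorem syl_dvd_pow_sub_one_iff (hq : 1 ≤ q) (j : ℕ) :
    r ∣ q ^ j - 1 ↔ orderOf (q : ZMod r) ∣ j := by
  rw [orderOf_dvd_iff_pow_eq_one, ← ZMod.natCast_eq_zero_iff, Nat.cast_sub (Nat.one_le_pow _ _ hq)]
  push_cast
  rw [sub_eq_zero]

/-- `v_r(q^(dk) - 1) = v_r(q^d - 1)` for `0 < k < r`, where `r ∣ q^d - 1`. -/
theorem syl_fact_pow_mul (hq : 2 ≤ q) (d k : ℕ) (hd : 0 < d) (hk : 0 < k) (hkr : k < r)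
    (hdvd : r ∣ q ^ d - 1) :
    (q ^ (d * k) - 1).factorization r = (q ^ d - 1).factorization r := by
  have h1 : 1 ≤ q ^ d := Nat.one_le_pow _ _ (by omega)
  have h1' : 1 ≤ q ^ (d * k) := Nat.one_le_pow _ _ (by omega)
  have key : (∑ i ∈ range k, (q ^ d) ^ i) * (q ^ d - 1) = q ^ (d * k) - 1 := by
    zify [h1, h1']
    rw [geom_sum_mul, pow_mul]
  have hS : ¬ r ∣ ∑ i ∈ range k, (q ^ d) ^ i := by
    rw [← ZMod.natCast_eq_zero_iff]
    push_cast
    have hqd : ((q : ZMod r)) ^ d = 1 := by
      have := (syl_dvd_pow_sub_one_iff q r (by omega) d).mp hdvd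
      exact orderOf_dvd_iff_pow_eq_one.mp this
    rw [hqd]
    simp only [one_pow, sum_const, card_range, nsmul_eq_mul, mul_one]
    rw [ZMod.natCast_eq_zero_iff]
    intro h
    exact absurd (Nat.le_of_dvd hk h) (by omega)
  have hne1 : q ^ d - 1 ≠ 0 := by
    have : 2 ≤ q ^ d := le_trans hq (Nat.le_self_pow hd.ne' q)
    omega
  have hne2 : (∑ i ∈ range k, (q ^ d) ^ i) ≠ 0 := by
    intro h
    rw [h] at hS
    exact hS (dvd_zero r)
  rw [← key, Nat.factorization_mul hne2 hne1]
  simp [Nat.factorization_eq_zero_of_not_dvd hS]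

/-- the valuation of `q^d - 1` at `r` is the valuation of the cyclotomic value. -/
theorem syl_fact_cyclotomic (hq : 2 ≤ q) (hrq : ¬ r ∣ q) :
    (q ^ orderOf (q : ZMod r) - 1).factorization r =
      padicValNat r ((Polynomial.cyclotomic (orderOf (q : ZMod r)) ℤ).eval (q : ℤ)).natAbs := by
  set d := orderOf (q : ZMod r) with hd
  have hdpos : 0 < d := syl_order_pos q r hrq
  have hprod : ∀ e : ℕ, 0 < e →
      ∏ i ∈ e.divisors, ((Polynomial.cyclotomic i ℤ).eval (q : ℤ)).natAbs = q ^ e - 1 := by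
    intro e he
    have h := congrArg (Polynomial.eval (q : ℤ)) (Polynomial.prod_cyclotomic_eq_X_pow_sub_one he ℤ)
    rw [Polynomial.eval_prod] at h
    simp only [Polynomial.eval_sub, Polynomial.eval_pow, Polynomial.eval_X, Polynomial.eval_one] at h
    have h2 := congrArg Int.natAbsHom h
    rw [map_prod] at h2
    change ∏ i ∈ e.divisors, ((Polynomial.cyclotomic i ℤ).eval (q : ℤ)).natAbs = ((q : ℤ) ^ e - 1).natAbs at h2
    rw [h2]
    have h1 : 1 ≤ q ^ e := Nat.one_le_pow _ _ (by omega)
    zify [h1]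
    rw [abs_of_nonneg]
    have : (1 : ℤ) ≤ (q : ℤ) ^ e := by exact_mod_cast h1
    linarith
  have hne : q ^ d - 1 ≠ 0 := by
    have : 2 ≤ q ^ d := le_trans hq (Nat.le_self_pow hdpos.ne' q)
    omega
  have hfac : ∀ e ∈ d.divisors, ((Polynomial.cyclotomic e ℤ).eval (q : ℤ)).natAbs ≠ 0 := by
    intro e he h0
    apply hne
    rw [← hprod d hdpos]
    exact Finset.prod_eq_zero he h0
  rw [← hprod d hdpos, Nat.factorization_prod hfac]
  rw [Finsupp.finsetSum_apply]
  rw [Finset.sum_eq_single d]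
  · exact Nat.factorization_def _ (Fact.out : r.Prime)
  · intro e he hed
    apply Nat.factorization_eq_zero_of_not_dvd
    intro hdvd
    have hepos : 0 < e := Nat.pos_of_mem_divisors he
    have h1 : ((Polynomial.cyclotomic e ℤ).eval (q : ℤ)).natAbs ∣ q ^ e - 1 := by
      rw [← hprod e hepos]
      exact Finset.dvd_prod_of_mem _ (Nat.mem_divisors_self e hepos.ne')
    have h2 : r ∣ q ^ e - 1 := dvd_trans hdvd h1
    have h3 := (syl_dvd_pow_sub_one_iff q r (by omega) e).mp h2
    have h4 : e ∣ d := Nat.dvd_of_mem_divisors he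
    exact hed (Nat.dvd_antisymm h4 h3)
  · intro h
    exact absurd (Nat.mem_divisors_self d hdpos.ne') h

/-- the `r`-adic valuation of `∏_{i<n} (q^n - q^i)`. -/
theorem syl_fact_card (hq : 2 ≤ q) (hrq : ¬ r ∣ q) (n : ℕ) (hrn : n < r) :
    (∏ i : Fin n, (q ^ n - q ^ (i : ℕ))).factorization r =
      (n / orderOf (q : ZMod r)) *
        padicValNat r ((Polynomial.cyclotomic (orderOf (q : ZMod r)) ℤ).eval (q : ℤ)).natAbs := by
  set d := orderOf (q : ZMod r) with hd
  have hdpos : 0 < d := syl_order_pos q r hrq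
  have hr : r.Prime := Fact.out
  rw [← syl_fact_cyclotomic q r hq hrq, ← hd]
  set v := (q ^ d - 1).factorization r with hv
  have hterm : ∀ i : ℕ, i < n → (q ^ n - q ^ i).factorization r = if d ∣ n - i then v else 0 := by
    intro i hi
    have e1 : q ^ n - q ^ i = q ^ i * (q ^ (n - i) - 1) := by
      rw [Nat.mul_sub, mul_one, ← pow_add]
      congr 2
      omega
    have hne1 : q ^ i ≠ 0 := pow_ne_zero _ (by omega)
    have hne2 : q ^ (n - i) - 1 ≠ 0 := by
      have : 2 ≤ q ^ (n - i) := le_trans hq (Nat.le_self_pow (by omega) q)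
      omega
    rw [e1, Nat.factorization_mul hne1 hne2, Nat.factorization_pow]
    simp only [Finsupp.coe_add, Finsupp.coe_smul, Pi.add_apply, Pi.smul_apply, smul_eq_mul]
    rw [Nat.factorization_eq_zero_of_not_dvd hrq, mul_zero, zero_add]
    split_ifs with hdvd
    · obtain ⟨k, hk⟩ := hdvd
      rw [hk]
      have hkpos : 0 < k := by
        rcases Nat.eq_zero_or_pos k with h | h
        · rw [h] at hk; omega
        · exact h
      have hkr : k < r := by
        have : k ≤ d * k := Nat.le_mul_of_pos_left k hdpos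
        omega
      exact syl_fact_pow_mul q r hq d k hdpos hkpos hkr
        ((syl_dvd_pow_sub_one_iff q r (by omega) d).mpr dvd_rfl)
    · apply Nat.factorization_eq_zero_of_not_dvd
      intro h
      exact hdvd ((syl_dvd_pow_sub_one_iff q r (by omega) _).mp h)
  have hne : ∀ i ∈ (Finset.univ : Finset (Fin n)), q ^ n - q ^ (i : ℕ) ≠ 0 := by
    intro i _
    have : q ^ (i : ℕ) < q ^ n := Nat.pow_lt_pow_right (by omega) i.2
    omega
  rw [Nat.factorization_prod hne, Finsupp.finsetSum_apply]
  rw [Fin.sum_univ_eq_sum_range (fun i => (q ^ n - q ^ i).factorization r) n]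
  rw [Finset.sum_congr rfl (fun i hi => hterm i (Finset.mem_range.mp hi))]
  have h2 : ∑ i ∈ range n, (if d ∣ n - i then v else 0) = ∑ j ∈ range n, (if d ∣ j + 1 then v else 0) := by
    rw [← Finset.sum_range_reflect (fun j => if d ∣ j + 1 then v else 0) n]
    apply Finset.sum_congr rfl
    intro i hi
    have : n - 1 - i + 1 = n - i := by
      have := Finset.mem_range.mp hi
      omega
    rw [this]
  rw [h2, ← Finset.sum_filter, Finset.sum_const, Nat.card_multiples, smul_eq_mul]

end NT

section GT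

/-- A Sylow subgroup is isomorphic to any embedded group of the full `r`-power order. -/
theorem syl_sylow_equiv_of_injective {G : Type*} [Group G] [Finite G] (r : ℕ) [Fact r.Prime]
    {T : Type*} [Group T] (φ : T →* G) (hφ : Function.Injective φ)
    (hcard : Nat.card T = r ^ (Nat.card G).factorization r) (P : Sylow r G) :
    Nonempty (↥(P : Subgroup G) ≃* T) := by
  have h1 : Nat.card φ.range = r ^ (Nat.card G).factorization r := by
    rw [← hcard]
    exact (Nat.card_congr (MonoidHom.ofInjective hφ).toEquiv).symm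
  exact ⟨(Sylow.equiv P (Sylow.ofCard φ.range h1)).trans (MonoidHom.ofInjective hφ).symm⟩

/-- a cyclic group of order divisible by `m` contains a copy of `ZMod m`. -/
theorem syl_exists_zmod_embedding {C : Type*} [Group C] [Finite C] [IsCyclic C] (m : ℕ)
    (hm : m ∣ Nat.card C) :
    ∃ κ : Multiplicative (ZMod m) →* C, Function.Injective κ := by
  obtain ⟨g, hg⟩ := IsCyclic.exists_ofOrder_eq_natCard (α := C)
  have hpos : 0 < Nat.card C := Nat.card_pos
  obtain ⟨k, hk⟩ := hm
  have hk0 : k ≠ 0 := by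
    rintro rfl
    rw [mul_zero] at hk
    omega
  have hm0 : m ≠ 0 := by
    rintro rfl
    rw [zero_mul] at hk
    omega
  have hord : orderOf (g ^ k) = m := by
    rw [orderOf_pow_of_dvd hk0 (by rw [hg, hk]; exact dvd_mul_left k m), hg, hk]
    exact Nat.mul_div_cancel _ (Nat.pos_of_ne_zero hk0)
  have hcard : Nat.card (Subgroup.zpowers (g ^ k)) = m := by
    rw [Nat.card_zpowers, hord]
  have hcyc : IsCyclic (Subgroup.zpowers (g ^ k)) := inferInstance
  have key : ∀ (m' : ℕ), Nat.card (Subgroup.zpowers (g ^ k)) = m' →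
      Nonempty (Multiplicative (ZMod m') ≃* Subgroup.zpowers (g ^ k)) := by
    intro m' h
    subst h
    exact ⟨zmodCyclicMulEquiv hcyc⟩
  obtain ⟨e⟩ := key m hcard
  exact ⟨(Subgroup.zpowers (g ^ k)).subtype.comp e.toMonoidHom,
    (Subgroup.subtype_injective _).comp e.injective⟩

variable {F : Type*} [Field F]

/-- The action of a torus `(Eˣ)^a` on `E^a × F^k`. -/
@[reducible] noncomputable def syl_torusAction (E : Type*) [Field E] [Algebra F E] (a k : ℕ) :
    DistribMulAction (Fin a → Eˣ) ((Fin a → E) × (Fin k → F)) where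
  smul t x := (fun i => (t i : E) * x.1 i, x.2)
  one_smul x := by
    refine Prod.ext ?_ rfl
    funext i
    change ((1 : Fin a → Eˣ) i : E) * x.1 i = x.1 i
    simp
  mul_smul s t x := by
    refine Prod.ext ?_ rfl
    funext i
    change (((s * t) i : Eˣ) : E) * x.1 i = (s i : E) * ((t i : E) * x.1 i)
    simp [mul_assoc]
  smul_zero t := by
    refine Prod.ext ?_ rfl
    funext i
    change (t i : E) * (0 : (Fin a → E) × (Fin k → F)).1 i = 0
    simp
  smul_add t x y := by
    refine Prod.ext ?_ rfl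
    funext i
    change (t i : E) * (x + y).1 i = (t i : E) * x.1 i + (t i : E) * y.1 i
    simp [mul_add]

theorem syl_exists_torus_embedding [Finite F] (E : Type*) [Field E] [Algebra F E] [Module.Finite F E]
    (n a : ℕ) (had : a * Module.finrank F E ≤ n) :
    ∃ φ : (Fin a → Eˣ) →* GL (Fin n) F, Function.Injective φ := by
  classical
  set k := n - a * Module.finrank F E with hk
  let V := (Fin a → E) × (Fin k → F)
  let _ : DistribMulAction (Fin a → Eˣ) V := syl_torusAction E a k
  have : SMulCommClass (Fin a → Eˣ) F V := by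
    refine ⟨fun t c x => ?_⟩
    refine Prod.ext ?_ rfl
    funext i
    change (t i : E) * (c • x.1 i) = c • ((t i : E) * x.1 i)
    rw [mul_smul_comm]
  let ψ : (Fin a → Eˣ) →* V ≃ₗ[F] V := DistribMulAction.toModuleAut F V
  have hψ : Function.Injective ψ := by
    intro s t hst
    funext i
    have h1 := congrArg (fun e : V ≃ₗ[F] V => (e ((fun _ => (1 : E)), (0 : Fin k → F))).1 i) hst
    change (s i : E) * 1 = (t i : E) * 1 at h1
    rw [mul_one, mul_one] at h1
    exact Units.ext h1
  have hrank : Module.finrank F V = Module.finrank F (Fin n → F) := by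
    rw [Module.finrank_prod, Module.finrank_pi_fintype, Module.finrank_fin_fun, Module.finrank_fin_fun]
    simp only [Finset.sum_const, Finset.card_univ, Fintype.card_fin, smul_eq_mul]
    omega
  let ε : V ≃ₗ[F] (Fin n → F) := LinearEquiv.ofFinrankEq V (Fin n → F) hrank
  let e1 : (V ≃ₗ[F] V) ≃* (Module.End F V)ˣ := (LinearMap.GeneralLinearGroup.generalLinearEquiv F V).symm
  let e2 : (Module.End F V)ˣ ≃* (Module.End F (Fin n → F))ˣ :=
    Units.mapEquiv (LinearEquiv.conjRingEquiv ε).toMulEquiv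
  let e3 : (Module.End F (Fin n → F))ˣ ≃* GL (Fin n) F := Matrix.GeneralLinearGroup.toLin.symm
  refine ⟨(e3.toMonoidHom.comp (e2.toMonoidHom.comp e1.toMonoidHom)).comp ψ, ?_⟩
  exact (e3.injective.comp (e2.injective.comp e1.injective)).comp hψ

end GT


section SL

theorem syl_card_filter_ge_two (n d : ℕ) (hd : 2 ≤ d) :
    ((Icc 2 n).filter (fun i => d ∣ i)).card = n / d := by
  rw [← Nat.Ioc_filter_dvd_card_eq_div n d]
  congr 1
  ext i
  simp only [mem_filter, mem_Icc, mem_Ioc]
  constructor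
  · rintro ⟨⟨h1, h2⟩, h3⟩
    exact ⟨⟨by omega, h2⟩, h3⟩
  · rintro ⟨⟨h1, h2⟩, h3⟩
    refine ⟨⟨?_, h2⟩, h3⟩
    have := Nat.le_of_dvd h1 h3
    omega

theorem syl_card_filter_one (n : ℕ) : ((Icc 2 n).filter (fun i => 1 ∣ i)).card = n - 1 := by
  simp

/-- the `r`-adic valuation of `|SL_n(q)|` -/
theorem syl_fact_card_SL {F : Type*} [Field F] [Fintype F] {q : ℕ} (hq : Fintype.card F = q)
    (n r : ℕ) [Fact r.Prime] (hrn : n < r) (hrq : ¬ r ∣ q) :
    (Nat.card (Matrix.SpecialLinearGroup (Fin n) F)).factorization r =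
      ((Icc 2 n).filter (fun i => orderOf (q : ZMod r) ∣ i)).card *
        padicValNat r ((Polynomial.cyclotomic (orderOf (q : ZMod r)) ℤ).eval (q : ℤ)).natAbs := by
  have hq2 : 2 ≤ q := by
    rw [← hq]
    exact Fintype.one_lt_card
  rcases Nat.eq_zero_or_pos n with rfl | hn
  · have : Nat.card (Matrix.SpecialLinearGroup (Fin 0) F) = 1 := Nat.card_unique
    rw [this]
    simp
  have : Nonempty (Fin n) := ⟨⟨0, hn⟩⟩
  have hmul := Cfsg.Agent.Helper5.card_SL_mul (F := F) (Fin n)
  rw [Matrix.card_GL_field, hq] at hmul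
  have hfc := syl_fact_card q r hq2 hrq n hrn
  rw [← hmul] at hfc
  have hne1 : Nat.card (Matrix.SpecialLinearGroup (Fin n) F) ≠ 0 := Nat.card_pos.ne'
  have hne2 : q - 1 ≠ 0 := by omega
  rw [Nat.factorization_mul hne1 hne2] at hfc
  simp only [Finsupp.coe_add, Pi.add_apply] at hfc
  set d := orderOf (q : ZMod r) with hd
  have hdpos : 0 < d := syl_order_pos q r hrq
  rcases Nat.lt_or_ge d 2 with hd1 | hd2
  · have hd1' : d = 1 := by omega
    have hcyc := syl_fact_cyclotomic q r hq2 hrq
    rw [← hd, hd1', pow_one] at hcyc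
    rw [hd1'] at hfc ⊢
    rw [syl_card_filter_one]
    rw [hcyc, Nat.div_one] at hfc
    have h3 : n * padicValNat r ((Polynomial.cyclotomic 1 ℤ).eval (q : ℤ)).natAbs =
        (n - 1) * padicValNat r ((Polynomial.cyclotomic 1 ℤ).eval (q : ℤ)).natAbs +
          padicValNat r ((Polynomial.cyclotomic 1 ℤ).eval (q : ℤ)).natAbs := by
      conv_lhs => rw [show n = (n - 1) + 1 by omega]
      ring
    linarith
  · rw [syl_card_filter_ge_two n d hd2]
    have hnd : ¬ r ∣ q - 1 := by
      intro h
      have h1 := (syl_dvd_pow_sub_one_iff q r (by omega) 1).mp (by rwa [pow_one])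
      rw [← hd] at h1
      have := Nat.le_of_dvd Nat.one_pos h1
      omega
    rw [Nat.factorization_eq_zero_of_not_dvd hnd, add_zero] at hfc
    exact hfc

/-- Homs from an `r`-group to a group of order prime to `r` are trivial. -/
theorem syl_hom_trivial {T C : Type*} [Group T] [Group C] [Finite C] (r : ℕ) [Fact r.Prime] (k : ℕ)
    (hT : Nat.card T = r ^ k) (hr : ¬ r ∣ Nat.card C) (δ : T →* C) (t : T) : δ t = 1 := by
  have h1 : orderOf (δ t) ∣ r ^ k := by
    rw [← hT]
    exact (orderOf_map_dvd δ t).trans (orderOf_dvd_natCard t)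
  have h2 : orderOf (δ t) ∣ Nat.card C := orderOf_dvd_natCard _
  have hcop : Nat.Coprime (r ^ k) (Nat.card C) :=
    Nat.Coprime.pow_left k ((Nat.Prime.coprime_iff_not_dvd Fact.out).mpr hr)
  have h3 : orderOf (δ t) = 1 := Nat.eq_one_of_dvd_coprimes hcop h1 h2
  exact orderOf_eq_one_iff.mp h3

/-- a hom to `GL_n` with determinant `1` as a hom to `SL_n` -/
def syl_toSL {T : Type*} [Group T] {n : ℕ} {F : Type*} [Field F] (Φ : T →* GL (Fin n) F)
    (h : ∀ t, Matrix.GeneralLinearGroup.det (Φ t) = 1) :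
    T →* Matrix.SpecialLinearGroup (Fin n) F where
  toFun t := ⟨(Φ t : Matrix (Fin n) (Fin n) F), by
    have := congrArg Units.val (h t)
    simpa using this⟩
  map_one' := by
    apply Subtype.ext
    simp
  map_mul' s t := by
    apply Subtype.ext
    change ((Φ (s * t) : GL (Fin n) F) : Matrix (Fin n) (Fin n) F) =
      ((Φ s : GL (Fin n) F) : Matrix (Fin n) (Fin n) F) * ((Φ t : GL (Fin n) F) : Matrix (Fin n) (Fin n) F)
    rw [map_mul, Units.val_mul]

theorem syl_toSL_injective {T : Type*} [Group T] {n : ℕ} {F : Type*} [Field F]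
    (Φ : T →* GL (Fin n) F) (h : ∀ t, Matrix.GeneralLinearGroup.det (Φ t) = 1)
    (hΦ : Function.Injective Φ) : Function.Injective (syl_toSL Φ h) := by
  intro s t hst
  apply hΦ
  apply Units.ext
  exact congrArg Subtype.val hst

/-- the diagonal embedding `(Fˣ)^k → SL_{k+1}(F)` -/
def syl_diagSL (k : ℕ) (F : Type*) [Field F] :
    (Fin k → Fˣ) →* Matrix.SpecialLinearGroup (Fin (k + 1)) F where
  toFun t := ⟨Matrix.diagonal (fun i => ((Fin.snoc t (∏ j, t j)⁻¹ : Fin (k + 1) → Fˣ) i : F)), by
    rw [Matrix.det_diagonal, ← Units.coe_prod, Fin.prod_univ_castSucc]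
    simp⟩
  map_one' := by
    apply Subtype.ext
    change Matrix.diagonal _ = (1 : Matrix (Fin (k + 1)) (Fin (k + 1)) F)
    rw [← Matrix.diagonal_one]
    congr 1
    funext i
    refine Fin.lastCases ?_ (fun j => ?_) i <;> simp
  map_mul' s t := by
    apply Subtype.ext
    change Matrix.diagonal _ = Matrix.diagonal _ * Matrix.diagonal _
    rw [Matrix.diagonal_mul_diagonal]
    congr 1
    funext i
    refine Fin.lastCases ?_ (fun j => ?_) i
    · simp [Finset.prod_mul_distrib, mul_comm]
    · simp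

theorem syl_diagSL_injective (k : ℕ) (F : Type*) [Field F] :
    Function.Injective (syl_diagSL k F) := by
  intro s t hst
  have h1 : Matrix.diagonal (fun i => ((Fin.snoc s (∏ j, s j)⁻¹ : Fin (k + 1) → Fˣ) i : F)) =
      Matrix.diagonal (fun i => ((Fin.snoc t (∏ j, t j)⁻¹ : Fin (k + 1) → Fˣ) i : F)) :=
    congrArg Subtype.val hst
  have h2 := Matrix.diagonal_injective h1
  funext j
  have h3 := congrFun h2 (Fin.castSucc j)
  simp only [Fin.snoc_castSucc] at h3
  exact Units.ext h3

end SL

/-- Sylow `r`-subgroups of `SL_n(q)` for `r > n`, `r ∤ q`. -/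
theorem sylow_SL_homocyclic {F : Type*} [Field F] [Fintype F] {q : ℕ} (hq : Fintype.card F = q)
    (n : ℕ) (r : ℕ) [Fact r.Prime] (hrn : n < r) (hrq : ¬ r ∣ q)
    (P : Sylow r (Matrix.SpecialLinearGroup (Fin n) F)) :
    Nonempty (↥(P : Subgroup (Matrix.SpecialLinearGroup (Fin n) F)) ≃*
      (Fin ((Finset.Icc 2 n).filter (fun i => orderOf (q : ZMod r) ∣ i)).card →
        Multiplicative (ZMod (r ^ padicValNat r
          ((Polynomial.cyclotomic (orderOf (q : ZMod r)) ℤ).eval (q : ℤ)).natAbs)))) := by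
  classical
  have hr : r.Prime := Fact.out
  have hq2 : 2 ≤ q := by
    rw [← hq]
    exact Fintype.one_lt_card
  have hval := syl_fact_card_SL hq n r hrn hrq
  set d := orderOf (q : ZMod r) with hd
  have hdpos : 0 < d := syl_order_pos q r hrq
  set v := padicValNat r ((Polynomial.cyclotomic d ℤ).eval (q : ℤ)).natAbs with hv
  have hcardZ : Nat.card (Multiplicative (ZMod (r ^ v))) = r ^ v := by
    rw [Nat.card_congr (Multiplicative.toAdd : Multiplicative (ZMod (r ^ v)) ≃ ZMod (r ^ v)),
      Nat.card_zmod]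
  have hcardT : ∀ a : ℕ, Nat.card (Fin a → Multiplicative (ZMod (r ^ v))) = r ^ (a * v) := by
    intro a
    rw [Nat.card_pi]
    simp only [Finset.prod_const, Finset.card_univ, Fintype.card_fin]
    rw [hcardZ, ← pow_mul, mul_comm]
  have hfc := syl_fact_cyclotomic q r hq2 hrq
  rw [← hd, ← hv] at hfc
  have hne : q ^ d - 1 ≠ 0 := by
    have : 2 ≤ q ^ d := le_trans hq2 (Nat.le_self_pow hdpos.ne' q)
    omega
  rcases Nat.lt_or_ge d 2 with hd1 | hd2
  · -- `r ∣ q - 1`: diagonal matrices
    have hd1' : d = 1 := by omega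
    rw [hd1'] at hval ⊢
    rw [syl_card_filter_one] at hval ⊢
    rcases Nat.eq_zero_or_pos n with rfl | hn
    · -- trivial group
      have hcard : Nat.card (Fin (0 - 1) → Multiplicative (ZMod (r ^ v))) =
          r ^ (Nat.card (Matrix.SpecialLinearGroup (Fin 0) F)).factorization r := by
        rw [hval, hcardT]
      exact syl_sylow_equiv_of_injective r (1 : (Fin (0 - 1) → Multiplicative (ZMod (r ^ v))) →*
        Matrix.SpecialLinearGroup (Fin 0) F) (fun s t _ => funext fun i => i.elim0) hcard P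
    obtain ⟨k, rfl⟩ : ∃ k, n = k + 1 := ⟨n - 1, by omega⟩
    have hk : k + 1 - 1 = k := by omega
    rw [hk] at hval ⊢
    have hdvd : r ^ v ∣ Nat.card Fˣ := by
      rw [Nat.card_units, Nat.card_eq_fintype_card, hq]
      have h1 : q ^ d - 1 = q - 1 := by rw [hd1', pow_one]
      rw [← h1, ← hfc]
      exact Nat.ordProj_dvd _ _
    obtain ⟨κ, hκ⟩ := syl_exists_zmod_embedding (C := Fˣ) (r ^ v) hdvd
    let Ψ : (Fin k → Multiplicative (ZMod (r ^ v))) →* Matrix.SpecialLinearGroup (Fin (k + 1)) F :=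
      (syl_diagSL k F).comp (κ.compLeft (Fin k))
    have hΨ : Function.Injective Ψ := by
      refine (syl_diagSL_injective k F).comp ?_
      intro s t hst
      funext i
      exact hκ (congrFun hst i)
    exact syl_sylow_equiv_of_injective r Ψ hΨ (by rw [hval, hcardT]) P
  · -- `r ∤ q - 1`: torus over the extension of degree `d`
    rw [syl_card_filter_ge_two n d hd2] at hval ⊢
    set a := n / d with ha
    obtain ⟨p, hp⟩ := CharP.exists F
    have : CharP F p := hp
    have : Fact p.Prime :=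
      ⟨(CharP.char_is_prime_or_zero F p).resolve_right (CharP.char_ne_zero_of_finite F p)⟩
    have : NeZero d := ⟨hdpos.ne'⟩
    let E := FiniteField.Extension F p d
    have hfr : Module.finrank F E = d := FiniteField.finrank_extension F p d
    have hcardE : Nat.card Eˣ = q ^ d - 1 := by
      rw [Nat.card_units, FiniteField.natCard_extension, Nat.card_eq_fintype_card, hq]
    have hdvd : r ^ v ∣ Nat.card Eˣ := by
      rw [hcardE, ← hfc]
      exact Nat.ordProj_dvd _ _
    obtain ⟨κ, hκ⟩ := syl_exists_zmod_embedding (C := Eˣ) (r ^ v) hdvd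
    obtain ⟨φ, hφ⟩ := syl_exists_torus_embedding (F := F) E n a
      (by rw [hfr]; exact Nat.div_mul_le_self n d)
    let Φ : (Fin a → Multiplicative (ZMod (r ^ v))) →* GL (Fin n) F := φ.comp (κ.compLeft (Fin a))
    have hΦ : Function.Injective Φ := by
      refine hφ.comp ?_
      intro s t hst
      funext i
      exact hκ (congrFun hst i)
    have hnd : ¬ r ∣ Nat.card Fˣ := by
      rw [Nat.card_units, Nat.card_eq_fintype_card, hq]
      intro h
      have h1 := (syl_dvd_pow_sub_one_iff q r (by omega) 1).mp (by rwa [pow_one])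
      rw [← hd] at h1
      have := Nat.le_of_dvd Nat.one_pos h1
      omega
    have hdet : ∀ t, Matrix.GeneralLinearGroup.det (Φ t) = 1 := fun t =>
      syl_hom_trivial r (a * v) (hcardT a) hnd (Matrix.GeneralLinearGroup.det.comp Φ) t
    exact syl_sylow_equiv_of_injective r (syl_toSL Φ hdet) (syl_toSL_injective Φ hdet hΦ)
      (by rw [hval, hcardT]) P

end Cfsg.Agent.Helper39
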