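import Mathlib
import Cfsg.Prelude.Def_GeometricClasses
import Cfsg.Prelude.Def_Classical
import Cfsg.Agent.Helper43.OTDefs
import Cfsg.Agent.Helper98.TSOGCHAIN

set_option autoImplicit false

/-!
# Sub-CALL TSEG (helper13), piece CHAIN (helper39): from the TSOG piece `og_chain` (helper98).
-/

namespace Cfsg.Agent.Helper39.TSEG

open Module Polynomial Cfsg Cfsg.Geo Cfsg.Agent.Helper90.HT Cfsg.Agent.Helper43.OT

variable {F : Type*} [Field F] {V : Type*} [AddCommGroup V] [Module F V] [FiniteDimensional F V]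

/-- CHAIN [S, ~35 lines]: `Cfsg.Agent.Helper90.BG.chain_exists` with `U = ⊥`,
`P = ∑ j ∈ range r, X ^ j` (`aeval T P v ∈ W ⊓ ker (T - 1) = ⊥` for `v ∈ W`, as in the proof of
`cyc_dvd`), `d = i` by `bgl_irr_factor_degree`. -/
theorem eg_chain [Fintype F] (T : Module.End F V) (r : ℕ) [Fact r.Prime] (hrF : (r : F) ≠ 0)
    (hTr : T ^ r = 1) (W : Submodule F V) (hW : W.map T ≤ W)
    (hWk : W ⊓ LinearMap.ker (T - 1) = ⊥) (s : ℕ)
    (hs : orderOf ((Fintype.card F : ℕ) : ZMod r) * s ≤ finrank F W) :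
    ∃ W' : Submodule F V, W' ≤ W ∧ W'.map T ≤ W' ∧
      finrank F W' = orderOf ((Fintype.card F : ℕ) : ZMod r) * s := by
  obtain ⟨a, ha, hch⟩ := Cfsg.Agent.Helper98.TSOG.og_chain T r hrF hTr _ rfl W hW hWk
  rcases Nat.eq_zero_or_pos (orderOf ((Fintype.card F : ℕ) : ZMod r)) with h0 | hpos
  · refine ⟨⊥, bot_le, ?_, ?_⟩
    · rw [Submodule.map_bot]
    · rw [h0, zero_mul, finrank_bot]
  · have hsa : s ≤ a := by
      rw [ha] at hs
      exact Nat.le_of_mul_le_mul_left hs hpos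
    exact hch s hsa

end Cfsg.Agent.Helper39.TSEG
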