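import Mathlib
import Cfsg.Prelude.Def_GeometricClasses
import Cfsg.Prelude.Def_Classical
import Cfsg.Agent.Helper43.OTDefs
import Cfsg.Agent.Helper98.TSOGCHAIN

set_option autoImplicit false

/-!
# Sub-CALL TSEG (helper13), piece DVD (helper39): from the TSOG piece `og_chain` (helper98).
-/

namespace Cfsg.Agent.Helper39.TSEG

open Module Polynomial Cfsg Cfsg.Geo Cfsg.Agent.Helper90.HT Cfsg.Agent.Helper43.OT

variable {F : Type*} [Field F] {V : Type*} [AddCommGroup V] [Module F V] [FiniteDimensional F V]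

/-- DVD [S, ~25 lines]: `Cfsg.Agent.Helper90.BG.cyc_dvd` + `Cfsg.Agent.Helper46.bgl_irr_factor_degree`
(`finrank (W ⊓ ker (T - 1)) = 0` by `hWk`). -/
theorem eg_dvd [Fintype F] (T : Module.End F V) (r : ℕ) [Fact r.Prime] (hrF : (r : F) ≠ 0)
    (hTr : T ^ r = 1) (W : Submodule F V) (hW : W.map T ≤ W)
    (hWk : W ⊓ LinearMap.ker (T - 1) = ⊥) :
    orderOf ((Fintype.card F : ℕ) : ZMod r) ∣ finrank F W := by
  obtain ⟨a, ha, -⟩ := Cfsg.Agent.Helper98.TSOG.og_chain T r hrF hTr _ rfl W hW hWk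
  exact ⟨a, ha⟩

end Cfsg.Agent.Helper39.TSEG
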