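import Mathlib
import Cfsg.Prelude.Def_GeometricClasses
import Cfsg.Prelude.Def_Classical
import Cfsg.Agent.Helper43.OTDefs

set_option autoImplicit false

/-!
# Sub-CALL TSEG (helper13), piece SINGFIX (helper39): orbit counting.
-/

namespace Cfsg.Agent.Helper39.TSEG

open Module Polynomial Cfsg Cfsg.Geo Cfsg.Agent.Helper90.HT Cfsg.Agent.Helper43.OT

variable {ι : Type} [Fintype ι] [DecidableEq ι] {F : Type*} [Field F] [Fintype F]

/-- SINGFIX [M, ~60 lines]: orbit counting.  `T` permutes the finite set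
`{v ∈ N | Q v = 0}`, `T ^ r = 1`, the only fixed point is `0` (`hNk`): `card ≡ 1 mod r`.
(Model: the proof of `Cfsg.Agent.Helper43.SingCount.card_sing_modEq`, Helper43/SingCount.lean.) -/
theorem eg_sing_congr (Q : (ι → F) → F) (hQ0 : Q 0 = 0) (T : Module.End F (ι → F))
    (hT : ∀ v, Q (T v) = Q v) (r : ℕ) [Fact r.Prime] (hTr : T ^ r = 1)
    (N : Submodule F (ι → F)) (hNT : N.map T ≤ N) (hNk : N ⊓ LinearMap.ker (T - 1) = ⊥) :
    Nat.card {v : ι → F // v ∈ N ∧ Q v = 0} ≡ 1 [MOD r] := by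
  classical
  let f : Function.End {v : ι → F // v ∈ N ∧ Q v = 0} := fun v =>
    ⟨T v.1, hNT ⟨v.1, v.2.1, rfl⟩, by rw [hT]; exact v.2.2⟩
  have hpow : ∀ (n : ℕ) (v : {v : ι → F // v ∈ N ∧ Q v = 0}), ((f ^ n) v).1 = (T ^ n) v.1 := by
    intro n
    induction n with
    | zero =>
      intro v
      rw [pow_zero, pow_zero, Module.End.one_apply]
      rfl
    | succ n ih =>
      intro v
      have h1 : (f ^ (n + 1)) v = (f ^ n) (f v) := by
        rw [pow_succ]
        rfl
      rw [h1, ih, pow_succ, Module.End.mul_apply]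
  have hf : f ^ r ^ 1 = 1 := by
    rw [pow_one]
    funext v
    apply Subtype.ext
    rw [hpow, hTr, Module.End.one_apply]
    rfl
  have h := Equiv.Perm.card_fixedPoints_modEq (p := r) (n := 1) hf
  have h1 : Fintype.card ↑(Function.fixedPoints f) = 1 := by
    rw [Fintype.card_eq_one_iff]
    refine ⟨⟨⟨0, N.zero_mem, hQ0⟩, ?_⟩, ?_⟩
    · show f ⟨0, N.zero_mem, hQ0⟩ = ⟨0, N.zero_mem, hQ0⟩
      apply Subtype.ext
      show T (0 : ι → F) = 0
      rw [map_zero]
    · rintro ⟨v, hv⟩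
      apply Subtype.ext
      apply Subtype.ext
      have h2 : f v = v := hv
      have h3 : T v.1 = v.1 := congrArg Subtype.val h2
      have h4 : v.1 ∈ N ⊓ LinearMap.ker (T - 1) := by
        refine ⟨v.2.1, ?_⟩
        show v.1 ∈ LinearMap.ker (T - 1)
        rw [LinearMap.mem_ker, LinearMap.sub_apply, Module.End.one_apply, h3, sub_self]
      rw [hNk, Submodule.mem_bot] at h4
      exact h4
  rw [h1] at h
  rw [Nat.card_eq_fintype_card]
  exact h

end Cfsg.Agent.Helper39.TSEG
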