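import Mathlib
import Cfsg.Prelude.Def_GeometricClasses
import Cfsg.Prelude.Def_Classical
import Cfsg.Agent.Helper43.OTDefs
import Cfsg.Agent.Helper93.TSOGSING

set_option autoImplicit false

/-!
# Sub-CALL TSEG (helper13), piece TS (helper39): wrapper of the TSOG piece `og_sing` (helper93).
-/

namespace Cfsg.Agent.Helper39.TSEG

open Module Polynomial Cfsg Cfsg.Geo Cfsg.Agent.Helper90.HT Cfsg.Agent.Helper43.OT

variable {F : Type*} [Field F] {V : Type*} [AddCommGroup V] [Module F V] [FiniteDimensional F V]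

/-- TS [S, ~30 lines]: an invariant subspace without fixed vectors which is totally isotropic for the
polar form is totally singular.  (`T - 1` is injective on `W` (`hWk`), hence maps `W` ONTO `W`
(finite dimension, `hW`): `w = T w' - w'` with `w' ∈ W`;
`Q (T w' - w') = Q (T w') + Q w' - polar Q (T w') w' = 2 Q w' - 0 = polar Q w' w' = 0`.) -/
theorem eg_ts_of_ti (Q : QuadraticForm F V) (T : Module.End F V) (hT : ∀ v, Q (T v) = Q v)
    (W : Submodule F V) (hW : W.map T ≤ W) (hTI : HTI (ph Q) W)
    (hWk : W ⊓ LinearMap.ker (T - 1) = ⊥) : ∀ w ∈ W, Q w = 0 := by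
  exact Cfsg.Agent.Helper93.TSOG.og_sing Q T hT W hTI hW hWk

end Cfsg.Agent.Helper39.TSEG
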