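import Mathlib
import Cfsg.Agent.Helper43.OTDefs
import Cfsg.Agent.Helper43.TwoFam

set_option autoImplicit false

/-!
# Sub-CALL TSOG (helper98), piece EXTP (helper39): the statement with EXT as a hypothesis.
-/

namespace Cfsg.Agent.Helper39.TSOGaux

open Module Polynomial Cfsg.Agent.Helper90.HT Cfsg.Agent.Helper43.OT

variable {F : Type*} [Field F] {V : Type*} [AddCommGroup V] [Module F V] [FiniteDimensional F V]

theorem og_qspace (Q : QuadraticForm F V) (hnd : ∀ v, (∀ w, ph Q v w = 0) → v = 0) (d : ℕ)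
    (hdim : finrank F V = 2 * d) :
    Cfsg.Agent.Helper43.TwoFam.QSpace (fun v => Q v) (QuadraticMap.polarBilin Q) d where
  polar x y := by
    rw [QuadraticMap.polarBilin_apply_apply, QuadraticMap.polar]
    ring
  smul c x := by
    show Q (c • x) = c * c * Q x
    rw [QuadraticMap.map_smul, smul_eq_mul]
  nondeg := by
    refine ⟨fun x hx => hnd x (fun w => ?_), fun y hy => hnd y (fun w => ?_)⟩
    · have := hx w
      rwa [QuadraticMap.polarBilin_apply_apply] at this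
    · have := hy w
      rw [QuadraticMap.polarBilin_apply_apply] at this
      rw [ph_apply, QuadraticMap.polar_comm]
      exact this
  dim := hdim

theorem og_ext_plus_aux (Q : QuadraticForm F V)
    (hnd : ∀ v, (∀ w, ph Q v w = 0) → v = 0) (d : ℕ) (hdim : finrank F V = 2 * d)
    (hEXT : ∀ W₀ : Submodule F V, (∀ w ∈ W₀, Q w = 0) → finrank F W₀ + 1 ≤ d →
      ∃ M : Submodule F V, W₀ ≤ M ∧ (∀ w ∈ M, Q w = 0) ∧ finrank F M + 1 = d)
    (E : Submodule F V) (hE : ∀ w ∈ E, Q w = 0) (hEd : finrank F E = d) (W₀ : Submodule F V)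
    (hW₀ : ∀ w ∈ W₀, Q w = 0) :
    ∃ M : Submodule F V, W₀ ≤ M ∧ (∀ w ∈ M, Q w = 0) ∧ finrank F M = d := by
  have hQS := og_qspace Q hnd d hdim
  have hle : finrank F W₀ ≤ d := hQS.finrank_ts_le hW₀
  rcases Nat.lt_or_ge (finrank F W₀) d with hlt | hge
  · obtain ⟨M₁, hWM₁, hM₁, hM₁d⟩ := hEXT W₀ hW₀ (by omega)
    obtain ⟨M, hM, hM₁M⟩ := hQS.exists_mts_of_le (E := E) (H := M₁) ⟨hEd, hE⟩ hM₁ hM₁d
    exact ⟨M, hWM₁.trans hM₁M, hM.2, hM.1⟩
  · exact ⟨W₀, le_rfl, hW₀, by omega⟩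

end Cfsg.Agent.Helper39.TSOGaux
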