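import Mathlib
import Cfsg.Agent.Helper43.OTDefs
import Cfsg.Agent.Helper43.TwoFam
import Cfsg.Agent.Helper35.TSOGEXT
import Cfsg.Agent.Helper39.TSOGEXTPaux

set_option autoImplicit false

/-!
# Sub-CALL TSOG (helper98), piece EXTP (helper39).
-/

namespace Cfsg.Agent.Helper39.TSOG

open Module Polynomial Cfsg.Agent.Helper90.HT Cfsg.Agent.Helper43.OT

variable {F : Type*} [Field F] {V : Type*} [AddCommGroup V] [Module F V] [FiniteDimensional F V]

/-- EXTP [S-M] (uses EXT): plus type (a totally singular `E` of dimension `d` exists): every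
totally singular subspace lies in one of dimension `d`.  `finrank W₀ ≤ d` (`ht_bound` with
`C := ⊤`, or `QSpace.finrank_ts_le`); if `= d` take `M := W₀`; else EXT gives `M₁ ⊇ W₀` of
dimension `d - 1` and `Cfsg.Agent.Helper43.TwoFam.QSpace.exists_mts_of_le` (with the `QSpace`
structure `⟨polar, smul, nondeg, dim⟩` for `Q`, `B := QuadraticMap.polarBilin Q`, `m := d`,
`MTS Q d E := finrank E = d ∧ ∀ u ∈ E, Q u = 0`) gives `M ⊇ M₁` of dimension `d`. -/
theorem og_ext_plus [Fintype F] (Q : QuadraticForm F V)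
    (hnd : ∀ v, (∀ w, ph Q v w = 0) → v = 0) (d : ℕ) (hdim : finrank F V = 2 * d)
    (E : Submodule F V) (hE : ∀ w ∈ E, Q w = 0) (hEd : finrank F E = d) (W₀ : Submodule F V)
    (hW₀ : ∀ w ∈ W₀, Q w = 0) :
    ∃ M : Submodule F V, W₀ ≤ M ∧ (∀ w ∈ M, Q w = 0) ∧ finrank F M = d := by
  exact Cfsg.Agent.Helper39.TSOGaux.og_ext_plus_aux Q hnd d hdim
    (fun W hW hk => Cfsg.Agent.Helper35.TSOG.og_ext Q hnd d hdim W hW hk) E hE hEd W₀ hW₀

end Cfsg.Agent.Helper39.TSOG
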