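import Mathlib
import Cfsg.Agent.Helper17.ChevUniMem

/-!
helper39: piece CV1 of CALL S2314 (helper40), spare copy: an ordered list of `m` positive roots
generates a subgroup of order at least `q ^ m`.
-/

set_option autoImplicit false

namespace Cfsg.Agent.Helper39.UCCV1

open Cfsg.Lie

section Chev

variable {F : Type*} [Field F] [Fintype F] {D : ChevalleyDatum}

/-- CV1: an ordered list of `m` positive roots generates a subgroup of order at least `q ^ m`. -/
theorem card_rootsSubgroup_ge (hD : D ∈ [chevG2, chevB2, chevD4, chevF4, chevE6, chevE7, chevE8])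
    (L : List ℕ) (hs : L.Pairwise (· < ·)) (hp : ∀ r ∈ L, D.IsPosRoot r) :
    Fintype.card F ^ L.length ≤ Nat.card ↥(Cfsg.Agent.Helper17.rootsSubgroup D F L) := by
  classical
  obtain ⟨f, hW⟩ := Cfsg.Agent.Helper17.wtFacts_of_mem hD
  have hE : Cfsg.Agent.Helper17.RootElts D F := Cfsg.Agent.Helper17.rootElts_of_mem hD
  have hpos : ∀ r ∈ L, r < D.nroots ∧ 0 < f r :=
    fun r hr => ⟨(hp r hr).1, (hW.pos r (hp r hr).1).mp (hp r hr)⟩
  have hnd : L.Nodup := hs.imp (fun h => Nat.ne_of_lt h)
  have hw : ∀ t : ℕ → F, ∀ p ∈ L.map (fun r => (r, t r)), p.1 ∈ L := by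
    intro t p hp'
    rw [List.mem_map] at hp'
    obtain ⟨r, hr, rfl⟩ := hp'
    exact hr
  let ex : (↥L.toFinset → F) → ℕ → F := fun t r => if h : r ∈ L.toFinset then t ⟨r, h⟩ else 0
  let φ : (↥L.toFinset → F) → ↥(Cfsg.Agent.Helper17.rootsSubgroup D F L) := fun t =>
    ⟨Classical.choose (Cfsg.Agent.Helper17.exists_wordGL hE L (L.map fun r => (r, ex t r))
        (hw (ex t))),
      (Classical.choose_spec (Cfsg.Agent.Helper17.exists_wordGL hE L (L.map fun r => (r, ex t r))
        (hw (ex t)))).1⟩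
  have hφ : ∀ t, (((φ t : ↥(Cfsg.Agent.Helper17.rootsSubgroup D F L)) : GL D.Idx F) :
      Matrix D.Idx D.Idx F) = D.wordMat F (L.map fun r => (r, ex t r)) := fun t =>
    (Classical.choose_spec (Cfsg.Agent.Helper17.exists_wordGL hE L (L.map fun r => (r, ex t r))
        (hw (ex t)))).2
  have hinj : Function.Injective φ := by
    intro t s hts
    have heq : D.wordMat F (L.map fun r => (r, ex t r)) = D.wordMat F (L.map fun r => (r, ex s r)) := by
      rw [← hφ t, ← hφ s, hts]
    have hc := Cfsg.Agent.Helper17.coeff_unique hW hE L hs hpos (ex t) (ex s) heq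
    funext i
    have hi : (i : ℕ) ∈ L := List.mem_toFinset.mp i.2
    have h1 := hc i.1 hi
    have e1 : ex t i.1 = t i := by
      show (if h : (i : ℕ) ∈ L.toFinset then t ⟨i, h⟩ else 0) = t i
      rw [dif_pos i.2]
    have e2 : ex s i.1 = s i := by
      show (if h : (i : ℕ) ∈ L.toFinset then s ⟨i, h⟩ else 0) = s i
      rw [dif_pos i.2]
    rw [← e1, ← e2, h1]
  have hcard : Nat.card (↥L.toFinset → F) = Fintype.card F ^ L.length := by
    rw [Nat.card_eq_fintype_card, Fintype.card_fun, Fintype.card_coe,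
      List.toFinset_card_of_nodup hnd]
  rw [← hcard]
  exact Nat.card_le_card_of_injective φ hinj

end Chev

end Cfsg.Agent.Helper39.UCCV1
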