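import Mathlib
import Cfsg.Agent.Helper17.ChevUniMem

/-!
helper39: piece CV2 of CALL S2314 (helper40), reduction to CV1: lower bound for `|U_J|`.
-/

set_option autoImplicit false

namespace Cfsg.Agent.Helper39.UCCV2

open Cfsg.Lie

section Chev

variable {F : Type*} [Field F] [Fintype F] {D : ChevalleyDatum}

/-- CV2 from CV1 and the number of positive roots. -/
theorem card_unipotentRadical_ge_of
    (hCV1 : ∀ (L : List ℕ), L.Pairwise (· < ·) → (∀ r ∈ L, D.IsPosRoot r) →
      Fintype.card F ^ L.length ≤ Nat.card ↥(Cfsg.Agent.Helper17.rootsSubgroup D F L))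
    (hlen : D.posRoots.length = D.nroots / 2) (J : Set ℕ) :
    Fintype.card F ^ (D.nroots / 2) ≤ Nat.card ↥(D.unipotentRadical F J) *
      Fintype.card F ^ (Nat.card {r : ℕ // D.IsPosRoot r ∧ D.InRootSub J r}) := by
  classical
  have hsorted : (D.posRoots.filter (fun r => !(decide (D.InRootSub J r)))).Pairwise (· < ·) :=
    List.Pairwise.filter _ Cfsg.Agent.Helper17.posRoots_sorted
  have hmem1 : ∀ r ∈ D.posRoots.filter (fun r => !(decide (D.InRootSub J r))),
      D.IsPosRoot r ∧ ¬ D.InRootSub J r := by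
    intro r hr
    rw [List.mem_filter] at hr
    refine ⟨Cfsg.Agent.Helper17.mem_posRoots.mp hr.1, ?_⟩
    have h2 := hr.2
    rw [Bool.not_eq_true', decide_eq_false_iff_not] at h2
    exact h2
  have h1 := hCV1 _ hsorted (fun r hr => (hmem1 r hr).1)
  have hle : Cfsg.Agent.Helper17.rootsSubgroup D F
      (D.posRoots.filter (fun r => !(decide (D.InRootSub J r)))) ≤ D.unipotentRadical F J := by
    unfold Cfsg.Agent.Helper17.rootsSubgroup ChevalleyDatum.unipotentRadical
    apply Subgroup.closure_mono
    rintro g ⟨r, hr, t, hg⟩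
    exact ⟨r, t, (hmem1 r hr).1, (hmem1 r hr).2, hg⟩
  have h2 : Nat.card ↥(Cfsg.Agent.Helper17.rootsSubgroup D F
      (D.posRoots.filter (fun r => !(decide (D.InRootSub J r))))) ≤
        Nat.card ↥(D.unipotentRadical F J) := Subgroup.card_le_of_le hle
  have hlen12 := List.length_eq_length_filter_add (l := D.posRoots)
    (fun r => decide (D.InRootSub J r))
  have hnd : (D.posRoots.filter (fun r => decide (D.InRootSub J r))).Nodup :=
    List.Nodup.filter _ Cfsg.Agent.Helper17.posRoots_nodup
  have hcard : Nat.card {r : ℕ // D.IsPosRoot r ∧ D.InRootSub J r}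
      = (D.posRoots.filter (fun r => decide (D.InRootSub J r))).length := by
    rw [← List.toFinset_card_of_nodup hnd]
    apply Nat.subtype_card
    intro r
    rw [List.mem_toFinset, List.mem_filter, Cfsg.Agent.Helper17.mem_posRoots, decide_eq_true_eq]
  rw [hcard, ← hlen, hlen12, add_comm, pow_add]
  exact Nat.mul_le_mul_right _ (h1.trans h2)

end Chev

end Cfsg.Agent.Helper39.UCCV2
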