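import Mathlib
import Cfsg.Agent.Helper39.UCCV2aux
import Cfsg.Agent.Helper39.UCCV1

/-!
helper39: piece CV2 of CALL S2314 (helper40): lower bound for `|U_J|`.
-/

set_option autoImplicit false

namespace Cfsg.Agent.Helper39.UCCV2

open Cfsg.Lie

section Chev

variable {F : Type*} [Field F] [Fintype F] {D : ChevalleyDatum}

/-- CV2: lower bound for `|U_J|`. -/
theorem card_unipotentRadical_ge (hD : D ∈ [chevG2, chevB2, chevD4, chevF4, chevE6, chevE7, chevE8])
    (J : Set ℕ) :
    Fintype.card F ^ (D.nroots / 2) ≤ Nat.card ↥(D.unipotentRadical F J) *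
      Fintype.card F ^ (Nat.card {r : ℕ // D.IsPosRoot r ∧ D.InRootSub J r}) := by
  exact card_unipotentRadical_ge_of
    (fun L hs hp => Cfsg.Agent.Helper39.UCCV1.card_rootsSubgroup_ge hD L hs hp)
    (Cfsg.Agent.Helper17.posRoots_length_of_mem hD) J

end Chev

end Cfsg.Agent.Helper39.UCCV2
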