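/-
helper39: CALL S5982 piece CENT2.
-/
import Mathlib
import Cfsg.Prelude.Def_GeometricClasses
import Cfsg.Agent.Helper90.UFRDefs
import Cfsg.Agent.Helper90.UFRBase

set_option autoImplicit false

namespace Cfsg.Agent.Helper39

open Module Polynomial Cfsg.Agent.Helper90.UFR

universe u

section fin
variable {F : Type*} [Field F] [Fintype F]

/-! ## PIECE CENT2 -/
theorem cent_two (h2 : (2 : F) = 0) (n : ℕ) (N : Matrix (Fin n) (Fin n) F) (hN : N * N = 0)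
    (hN0 : N ≠ 0) (δ : F) (hδ : δ ≠ 0) :
    ∃ C : GL (Fin n) F, (C : Matrix (Fin n) (Fin n) F) * N = N * (C : Matrix (Fin n) (Fin n) F) ∧
      (C : Matrix (Fin n) (Fin n) F).det = δ := by
  classical
  haveI : CharP F 2 := CharTwo.of_one_ne_zero_of_two_eq_zero one_ne_zero h2
  obtain ⟨ρ, hρ⟩ : IsSquare δ := FiniteField.isSquare_of_char_two (ringChar.eq F 2) δ
  obtain ⟨v, hv⟩ : ∃ v : Fin n → F, N.mulVec v ≠ 0 := by
    by_contra hcon
    push Not at hcon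
    apply hN0
    ext i j
    have h := congrFun (hcon (Pi.single j 1)) i
    rw [Matrix.mulVec_single_one] at h
    exact h
  obtain ⟨w, hw⟩ : ∃ w : Fin n → F, w = N.mulVec v := ⟨_, rfl⟩
  have hw0 : w ≠ 0 := hw ▸ hv
  obtain ⟨j, hj⟩ : ∃ j, w j ≠ 0 := by
    by_contra hcon
    push Not at hcon
    exact hw0 (funext hcon)
  have hNw : N.mulVec w = 0 := by
    rw [hw, Matrix.mulVec_mulVec, hN, Matrix.zero_mulVec]
  obtain ⟨φ₀, hφ₀⟩ : ∃ φ₀ : Fin n → F, dotProduct φ₀ w = 1 :=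
    ⟨Pi.single j (w j)⁻¹, by rw [single_dotProduct, inv_mul_cancel₀ hj]⟩
  obtain ⟨φ, hφ⟩ : ∃ φ : Fin n → F, φ = φ₀ - (dotProduct φ₀ v) • (Matrix.vecMul φ₀ N) := ⟨_, rfl⟩
  have hφw : dotProduct φ w = 1 := by
    rw [hφ, sub_dotProduct, smul_dotProduct, ← Matrix.dotProduct_mulVec, hNw, dotProduct_zero,
      smul_zero, sub_zero, hφ₀]
  have hφv : dotProduct φ v = 0 := by
    rw [hφ, sub_dotProduct, smul_dotProduct, ← Matrix.dotProduct_mulVec, ← hw, hφ₀, smul_eq_mul,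
      mul_one, sub_self]
  obtain ⟨α, hα⟩ : ∃ α : Fin n → F, α = Matrix.vecMul φ N := ⟨_, rfl⟩
  have hαv : dotProduct α v = 1 := by
    rw [hα, ← Matrix.dotProduct_mulVec, ← hw, hφw]
  have hαw : dotProduct α w = 0 := by
    rw [hα, ← Matrix.dotProduct_mulVec, hNw, dotProduct_zero]
  have hαN : Matrix.vecMul α N = 0 := by
    rw [hα, Matrix.vecMul_vecMul, hN, Matrix.vecMul_zero]
  obtain ⟨a, ha⟩ : ∃ a : F, a = ρ - 1 := ⟨_, rfl⟩
  obtain ⟨C₁, hC₁⟩ : ∃ C₁ : Matrix (Fin n) (Fin n) F, C₁ = 1 + Matrix.vecMulVec (a • v) α :=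
    ⟨_, rfl⟩
  obtain ⟨C₂, hC₂⟩ : ∃ C₂ : Matrix (Fin n) (Fin n) F, C₂ = 1 + Matrix.vecMulVec (a • w) φ :=
    ⟨_, rfl⟩
  have hdet1 : C₁.det = ρ := by
    rw [hC₁, Matrix.vecMulVec_eq (ι := Fin 1), Matrix.det_one_add_replicateCol_mul_replicateRow,
      dotProduct_smul, hαv, ha, smul_eq_mul, mul_one]
    ring
  have hdet2 : C₂.det = ρ := by
    rw [hC₂, Matrix.vecMulVec_eq (ι := Fin 1), Matrix.det_one_add_replicateCol_mul_replicateRow,
      dotProduct_smul, hφw, ha, smul_eq_mul, mul_one]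
    ring
  have hprod : C₁ * C₂ = 1 + (Matrix.vecMulVec (a • v) α + Matrix.vecMulVec (a • w) φ) := by
    rw [hC₁, hC₂, add_mul, mul_add, mul_add, Matrix.one_mul, Matrix.mul_one, Matrix.one_mul,
      Matrix.vecMulVec_mul_vecMulVec, dotProduct_smul, hαw, smul_zero, zero_smul,
      Matrix.vecMulVec_zero]
    abel
  have hcomm : (C₁ * C₂) * N = N * (C₁ * C₂) := by
    rw [hprod, add_mul, mul_add, add_mul, mul_add, Matrix.one_mul, Matrix.mul_one,
      Matrix.vecMulVec_mul, Matrix.vecMulVec_mul, Matrix.mul_vecMulVec, Matrix.mul_vecMulVec,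
      hαN, Matrix.mulVec_smul, Matrix.mulVec_smul, ← hw, hNw, smul_zero, Matrix.vecMulVec_zero,
      Matrix.zero_vecMulVec, zero_add, add_zero, ← hα]
  have hdet : (C₁ * C₂).det = δ := by
    rw [Matrix.det_mul, hdet1, hdet2, hρ]
  refine ⟨Matrix.GeneralLinearGroup.mkOfDetNeZero (C₁ * C₂) (by rw [hdet]; exact hδ), hcomm, hdet⟩

end fin

end Cfsg.Agent.Helper39
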