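/-
helper39: CALL S5982 piece ISOCARD.
-/
import Mathlib
import Cfsg.Prelude.Def_GeometricClasses
import Cfsg.Agent.Helper90.UFRDefs
import Cfsg.Agent.Helper90.UFRBase

set_option autoImplicit false

namespace Cfsg.Agent.Helper39

open Module Polynomial Cfsg.Agent.Helper90.UFR

universe u

section fin
variable {F : Type*} [Field F] [Fintype F]

/-! ## PIECE ISOCARD -/
theorem card_GU_dvd (q₀ : ℕ) (hq : Fintype.card F = q₀ ^ 2) (n : ℕ)
    (f : (Fin n → F) → (Fin n → F) → F) (hf : Cfsg.Geo.IsUnitaryFormPow q₀ f) :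
    Nat.card (Cfsg.GU n F q₀) ∣ Nat.card ↥(Cfsg.Geo.similarityGroup f ⊓
      Cfsg.Geo.specialLinear (Fin n) F) * (q₀ + 1) := by
  classical
  obtain ⟨σ, J, hσ, hσ2, hJ, hJt, hmem⟩ := ufr_setup q₀ hq n f hf
  obtain ⟨σ', hσ'⟩ := Cfsg.Agent.Helper97.exists_sigma hq
  have hσσ' : σ' = σ := by
    ext t
    rw [hσ'.pow, hσ]
  subst hσσ'
  obtain ⟨A, hA, hAJ⟩ := Cfsg.Agent.Helper67.herm_gram_schmidt q₀ hq σ' hσ n J hJt hJ
  have hmapmul : ∀ L M : Matrix (Fin n) (Fin n) F, (L * M).map σ' = L.map σ' * M.map σ' :=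
    fun L M => Matrix.map_mul (f := (σ' : F →+* F))
  have hmapone : (1 : Matrix (Fin n) (Fin n) F).map σ' = 1 :=
    Matrix.map_one _ (map_zero σ') (map_one σ')
  obtain ⟨Ag, hAg⟩ : ∃ Ag : GL (Fin n) F, (Ag : Matrix (Fin n) (Fin n) F) = A :=
    ⟨Matrix.GeneralLinearGroup.mkOfDetNeZero A hA, rfl⟩
  obtain ⟨Ai, hAi⟩ : ∃ Ai : Matrix (Fin n) (Fin n) F,
      Ai = ((Ag⁻¹ : GL (Fin n) F) : Matrix (Fin n) (Fin n) F) := ⟨_, rfl⟩
  have hinv1 : A * Ai = 1 := by
    rw [hAi, ← hAg, ← Units.val_mul, mul_inv_cancel, Units.val_one]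
  have hJeq : J = Ai.transpose * Ai.map σ' := by
    have h2 : Ai.transpose * A.transpose = 1 := by
      rw [← Matrix.transpose_mul, hinv1, Matrix.transpose_one]
    have h3 : A.map σ' * Ai.map σ' = 1 := by rw [← hmapmul, hinv1, hmapone]
    calc J = (Ai.transpose * A.transpose) * J * (A.map σ' * Ai.map σ') := by
          rw [h2, h3, Matrix.one_mul, Matrix.mul_one]
      _ = Ai.transpose * (A.transpose * J * A.map σ') * Ai.map σ' := by
          simp only [Matrix.mul_assoc]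
      _ = Ai.transpose * Ai.map σ' := by rw [hAJ, Matrix.mul_one]
  have hKle : (Cfsg.GU n F q₀ ⊓ Cfsg.Geo.specialLinear (Fin n) F).map
      (MulAut.conj Ag).toMonoidHom ≤
      Cfsg.Geo.similarityGroup f ⊓ Cfsg.Geo.specialLinear (Fin n) F := by
    rintro _ ⟨g, ⟨hgU, hgS⟩, rfl⟩
    have hval : ((MulAut.conj Ag).toMonoidHom g) = Ag * g * Ag⁻¹ := rfl
    rw [hval, Subgroup.mem_inf]
    constructor
    · rw [hmem]
      refine ⟨1, one_ne_zero, ?_⟩
      have hg1 := Cfsg.Agent.Helper97.IsSigma.GU_matrix hσ' g hgU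
      rw [one_smul, Units.val_mul, Units.val_mul, hAg, ← hAi, Matrix.transpose_mul,
        Matrix.transpose_mul, hmapmul, hmapmul]
      calc Ai.transpose * ((g : Matrix (Fin n) (Fin n) F).transpose * A.transpose) * J
            * (A.map σ' * (g : Matrix (Fin n) (Fin n) F).map σ' * Ai.map σ')
          = Ai.transpose * ((g : Matrix (Fin n) (Fin n) F).transpose
              * (A.transpose * J * A.map σ') * (g : Matrix (Fin n) (Fin n) F).map σ')
              * Ai.map σ' := by simp only [Matrix.mul_assoc]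
        _ = Ai.transpose * ((g : Matrix (Fin n) (Fin n) F).transpose
              * (g : Matrix (Fin n) (Fin n) F).map σ') * Ai.map σ' := by
            rw [hAJ, Matrix.mul_one]
        _ = J := by rw [hg1, Matrix.mul_one, hJeq]
    · have hgS' : Matrix.GeneralLinearGroup.det g = 1 := hgS
      show Matrix.GeneralLinearGroup.det (Ag * g * Ag⁻¹) = 1
      rw [map_mul, map_mul, hgS', mul_one, ← map_mul, mul_inv_cancel, map_one]
  have hK1 : Nat.card ↥(Cfsg.GU n F q₀ ⊓ Cfsg.Geo.specialLinear (Fin n) F) ∣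
      Nat.card ↥(Cfsg.Geo.similarityGroup f ⊓ Cfsg.Geo.specialLinear (Fin n) F) := by
    have h1 := Subgroup.card_dvd_of_le hKle
    rwa [Subgroup.card_map_of_injective (MulAut.conj Ag).injective] at h1
  have hK2 : Nat.card ↥(Cfsg.GU n F q₀ ⊓ Cfsg.Geo.specialLinear (Fin n) F) *
      (Cfsg.GU n F q₀ ⊓ Cfsg.Geo.specialLinear (Fin n) F).relIndex (Cfsg.GU n F q₀) =
      Nat.card (Cfsg.GU n F q₀) := by
    have h := Subgroup.relIndex_mul_relIndex ⊥
      (Cfsg.GU n F q₀ ⊓ Cfsg.Geo.specialLinear (Fin n) F) (Cfsg.GU n F q₀) bot_le inf_le_left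
    rwa [Subgroup.relIndex_bot_left, Subgroup.relIndex_bot_left] at h
  have hK3 : (Cfsg.GU n F q₀ ⊓ Cfsg.Geo.specialLinear (Fin n) F).relIndex (Cfsg.GU n F q₀) ∣
      q₀ + 1 := by
    rw [inf_comm, Subgroup.inf_relIndex_right]
    have hrel : (Cfsg.Geo.specialLinear (Fin n) F).relIndex (Cfsg.GU n F q₀) =
        Nat.card ((Cfsg.GU n F q₀).map
          (Matrix.GeneralLinearGroup.det : GL (Fin n) F →* Fˣ)) :=
      Subgroup.relIndex_ker (Cfsg.GU n F q₀) (Matrix.GeneralLinearGroup.det : GL (Fin n) F →* Fˣ)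
    rw [hrel]
    obtain ⟨D, hD⟩ : ∃ D : Subgroup Fˣ, D = (Cfsg.GU n F q₀).map
        (Matrix.GeneralLinearGroup.det : GL (Fin n) F →* Fˣ) := ⟨_, rfl⟩
    rw [← hD]
    have hexp : ∀ u ∈ D, u ^ (q₀ + 1) = 1 := by
      intro u hu
      rw [hD] at hu
      obtain ⟨g, hg, rfl⟩ := hu
      have hg1 := Cfsg.Agent.Helper97.IsSigma.GU_matrix hσ' g hg
      have h2 := congrArg Matrix.det hg1
      rw [Matrix.det_mul, Matrix.det_transpose, Matrix.det_one] at h2
      have h3 : ((g : Matrix (Fin n) (Fin n) F).map σ').det =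
          σ' ((g : Matrix (Fin n) (Fin n) F).det) :=
        (RingHom.map_det (σ' : F →+* F) (g : Matrix (Fin n) (Fin n) F)).symm
      rw [h3, hσ] at h2
      apply Units.ext
      rw [Units.val_pow_eq_pow_val, Units.val_one, pow_succ']
      exact h2
    haveI : IsCyclic D := Subgroup.isCyclic D
    obtain ⟨u, hu⟩ := IsCyclic.exists_generator (α := D)
    have hord : orderOf u = Nat.card D := orderOf_eq_card_of_forall_mem_zpowers hu
    rw [← hord]
    apply orderOf_dvd_of_pow_eq_one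
    apply Subtype.ext
    rw [Subgroup.coe_pow, Subgroup.coe_one]
    exact hexp u.1 u.2
  rw [← hK2]
  exact Nat.mul_dvd_mul hK1 hK3

end fin

end Cfsg.Agent.Helper39
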